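import Cfsg.Agent.Lib.Geometric.Orth.Frame.Basic

/-!
Vectors whose reflection differs from a reflection inside a member of an orthogonal decomposition
by an element of a given group containing the stabiliser of the decomposition in `omegaGL`.
-/

namespace CfsgLib.Geometric.Orth.Blocks

open Matrix QuadraticMap CfsgLib.ClassicalForms
open CfsgLib.Geometric.Orth.Frame (rf_mul_self rf_mul_self_left rf_inv conj_rf rf_neg)

variable {ι : Type} [Fintype ι] [DecidableEq ι] {F : Type*} [Field F]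
variable {Q : QuadraticForm F (ι → F)} {t k : ℕ} {D : Fin t → Submodule F (ι → F)}
variable {M : Subgroup (GL ι F)}

/-- Reflections along proportional vectors agree. -/
lemma rf_smul {s : F} (hs : s ≠ 0) (v : ι → F) : rf Q (s • v) = rf Q v := gl_ext fun x => by
  rw [ap_rf, ap_rf, QuadraticMap.map_smul, polar_smul_right, smul_smul, smul_eq_mul, smul_eq_mul]
  by_cases h : Q v = 0
  · simp [h]
  congr 2
  field_simp

omit [DecidableEq ι] in
/-- Every value is taken on a non-degenerate subspace of dimension at least two. -/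
lemma exists_value' [Finite F] {W : Submodule F (ι → F)}
    (hW : Cfsg.Geo.IsNondegenerateOn (polar (⇑Q)) W) (hd : 2 ≤ Module.finrank F W) (c : F) :
    ∃ x ∈ W, Q x = c := by
  classical
  by_cases h2 : (2 : F) = 0
  swap
  · exact exists_value_in h2 hW hd c
  obtain ⟨u, hu, hu0⟩ := Submodule.exists_mem_ne_zero_of_ne_bot
    (show W ≠ ⊥ from fun h => by rw [h, finrank_bot] at hd; omega)
  by_cases hQu : Q u = 0
  · obtain ⟨y, hy, hyu⟩ := (hW u hu hu0).2
    refine ⟨y + ((c - Q y) / polar Q u y) • u, W.add_mem hy (W.smul_mem _ hu), ?_⟩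
    rw [QuadraticMap.map_add (⇑Q), QuadraticMap.map_smul, polar_smul_right, hQu, polar_comm Q y u,
      smul_eq_mul, smul_eq_mul, mul_zero, add_zero, div_mul_cancel₀ _ hyu]
    ring
  · have := Fintype.ofFinite F
    have : CharP F 2 := CharTwo.of_one_ne_zero_of_two_eq_zero one_ne_zero h2
    obtain ⟨s, hs⟩ := isSquare_of_charTwo' (c / Q u)
    refine ⟨s • u, W.smul_mem _ hu, ?_⟩
    rw [QuadraticMap.map_smul, smul_eq_mul, ← hs, div_mul_cancel₀ _ hQu]

/-- The situation: `M` contains the stabiliser of the decomposition in `omegaGL`. -/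
structure Over (Q : QuadraticForm F (ι → F)) (k : ℕ) (D : Fin t → Submodule F (ι → F))
    (M : Subgroup (GL ι F)) : Prop where
  nondeg : Nondeg Q
  card : 5 ≤ Fintype.card ι
  dec : Cfsg.Geo.IsOrthogonalMDecomposition (⇑Q) k D
  two : 2 ≤ k
  stab : Cfsg.Geo.decompositionStabilizer D ⊓ Cfsg.Geo.omegaGL (⇑Q) ≤ M
  isom : M ≤ Cfsg.isometryGroup F (⇑Q)

/-- `v` is linked to a vector of the same value in some member. -/
def Cls (Q : QuadraticForm F (ι → F)) (M : Subgroup (GL ι F))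
    (D : Fin t → Submodule F (ι → F)) (v : ι → F) : Prop :=
  Q v ≠ 0 ∧ ∃ i, ∃ a ∈ D i, Q a = Q v ∧ rf Q v * rf Q a ∈ M

variable (h : Over Q k D M)
include h

lemma Over.value [Finite F] (i : Fin t) (c : F) : ∃ a ∈ D i, Q a = c := by
  classical
  exact exists_value' (h.dec.decomp.nondegenerate i)
    (by rw [h.dec.decomp.decomp.finrank_eq]; exact h.two) c

lemma Over.pair_mem [Finite F] {i j : Fin t} {a b : ι → F} (ha : a ∈ D i) (hb : b ∈ D j)
    (hQa : Q a ≠ 0) (hab : Q a = Q b) : rf Q a * rf Q b ∈ M :=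
  h.stab (rf_pair_mem h.dec h.nondeg h.card ha hb hQa hab)

omit h in
lemma Cls.of_mem {i : Fin t} {a : ι → F} (ha : a ∈ D i) (hQa : Q a ≠ 0) : Cls Q M D a :=
  ⟨hQa, i, a, ha, rfl, by rw [rf_mul_self]; exact one_mem M⟩

variable [Finite F]

lemma Cls.link {v : ι → F} (hv : Cls Q M D v) {j : Fin t} {b : ι → F} (hb : b ∈ D j)
    (hbv : Q b = Q v) : rf Q v * rf Q b ∈ M := by
  obtain ⟨hv0, i, a, ha, hav, hm⟩ := hv
  have := mul_mem hm (h.pair_mem ha hb (hav ▸ hv0) (hav.trans hbv.symm))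
  rwa [mul_assoc, rf_mul_self_left] at this

lemma Cls.mul {v w : ι → F} (hv : Cls Q M D v) (hw : Cls Q M D w) (hvw : Q v = Q w) :
    rf Q v * rf Q w ∈ M := by
  obtain ⟨-, j, b, hb, hbw, hm⟩ := hw
  have := mul_mem (hv.link h hb (hbw.trans hvw.symm)) (inv_mem hm)
  rwa [_root_.mul_inv_rev, rf_inv, rf_inv, mul_assoc, rf_mul_self_left] at this

omit h [Finite F] in
lemma Cls.smul {v : ι → F} (hv : Cls Q M D v) {s : F} (hs : s ≠ 0) : Cls Q M D (s • v) := by
  obtain ⟨hv0, i, a, ha, hav, hm⟩ := hv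
  exact ⟨by rw [QuadraticMap.map_smul, smul_eq_mul]; exact mul_ne_zero (mul_ne_zero hs hs) hv0, i,
    s • a, (D i).smul_mem _ ha, by rw [QuadraticMap.map_smul, QuadraticMap.map_smul, hav],
    by rwa [rf_smul hs, rf_smul hs]⟩

omit h [Finite F] in
lemma Cls.neg {v : ι → F} (hv : Cls Q M D v) : Cls Q M D (-v) := by
  simpa using hv.smul (s := (-1 : F)) (neg_ne_zero.2 one_ne_zero)

lemma Cls.reflect {v w : ι → F} (hv : Cls Q M D v) (hw : Cls Q M D w) {s : F}
    (hs : Q w = s * s * Q v) : Cls Q M D (ap (rf Q w) v) := by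
  have hs0 : s ≠ 0 := fun h0 => hw.1 (by rw [hs, h0]; ring)
  have hw' := hw.smul (inv_ne_zero hs0)
  have hQ : Q (s⁻¹ • w) = Q v := by
    rw [QuadraticMap.map_smul, smul_eq_mul, hs]; field_simp
  obtain ⟨j, a, ha, hav, -⟩ := hv.2
  refine ⟨by rw [mem_isometryGroup_iff.mp (rf_mem_isom w)]; exact hv.1, j, a, ha,
    by rw [hav, mem_isometryGroup_iff.mp (rf_mem_isom w)], ?_⟩
  rw [← rf_smul (inv_ne_zero hs0) w, ← conj_rf (rf_mem_isom _), rf_inv]
  have := mul_mem (hw'.mul h hv hQ) (hw'.link h ha (hav.trans hQ.symm))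
  simpa [mul_assoc] using this

lemma Cls.ap {g : GL ι F} (hg : g ∈ M) {a : ι → F} (ha : Cls Q M D a)
    (hga : Cls Q M D (Geometric.ap g a)) {v : ι → F} (hv : Cls Q M D v) (hav : Q a = Q v) :
    Cls Q M D (Geometric.ap g v) := by
  obtain ⟨-, j, b, hb, hbv, -⟩ := id hv
  have hiso : ∀ x, Q (Geometric.ap g x) = Q x := fun x =>
    mem_isometryGroup_iff.mp (h.isom hg) x
  refine ⟨by rw [hiso]; exact hv.1, j, b, hb, by rw [hbv, hiso], ?_⟩
  have h1 := mul_mem (mul_mem hg (hv.mul h ha hav.symm)) (inv_mem hg)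
  have h2 := hga.link h hb (by rw [hbv, hiso, hav])
  rw [← conj_rf (h.isom hg)] at h2
  rw [← conj_rf (h.isom hg)]
  have := mul_mem h1 h2
  simpa [mul_assoc, rf_mul_self_left] using this

lemma Cls.stab {g : GL ι F}
    (hg : g ∈ Cfsg.Geo.decompositionStabilizer D ⊓ Cfsg.Geo.omegaGL (⇑Q)) {v : ι → F}
    (hv : Cls Q M D v) : Cls Q M D (Geometric.ap g v) := by
  obtain ⟨hv0, i, a, ha, hav, -⟩ := id hv
  obtain ⟨π, hπ⟩ := hg.1
  have hga : Geometric.ap g a ∈ D (π i) := by
    rw [← hπ i]; exact ⟨a, ha, rfl⟩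
  refine Cls.ap h (h.stab hg) (Cls.of_mem ha (hav ▸ hv0)) (Cls.of_mem hga ?_) hv hav
  rw [mem_isometryGroup_iff.mp (h.isom (h.stab hg)), hav]; exact hv0

/-- Pairs of reflections of equal value inside members preserve the property. -/
lemma Cls.pair {v : ι → F} (hv : Cls Q M D v) {i j : Fin t} {a b : ι → F} (ha : a ∈ D i)
    (hb : b ∈ D j) (hQa : Q a ≠ 0) (hab : Q a = Q b) :
    Cls Q M D (Geometric.ap (rf Q a) (Geometric.ap (rf Q b) v)) := by
  have := Cls.stab h (rf_pair_mem h.dec h.nondeg h.card ha hb hQa hab) hv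
  rwa [ap_mul] at this

end CfsgLib.Geometric.Orth.Blocks
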