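import Cfsg.Agent.Lib.Geometric.Orth.Blocks.Basic
import Cfsg.Agent.Lib.Geometric.Orth.Values
import Cfsg.Agent.Lib.Geometric.Orth.DecompStabMax
import Cfsg.Agent.Lib.Geometric.Orth.Full

/-!
Over the field with two elements the stabiliser in `omegaGL` of an orthogonal decomposition into at
least five planes without singular vectors is maximal.

Every non-zero vector of a member has value one. A linked vector meeting more than one member
yields linked vectors meeting every odd number of members, hence every vector of value one is
linked and all pairs of reflections lie in the group. If every linked vector lies in a member, an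
element moving the decomposition conjugates a suitable pair of member reflections to a pair of
reflections which preserves the decomposition but has axes meeting several members.
-/

set_option autoImplicit false
set_option linter.unusedSectionVars false

namespace CfsgLib.Geometric.Orth.Blocks

open Matrix QuadraticMap CfsgLib.ClassicalForms
open CfsgLib.Geometric.Orth.Frame (rf_mul_self rf_mul_self_left rf_inv conj_rf rf_neg)

variable {ι : Type} [Fintype ι] [DecidableEq ι] {F : Type*} [Field F] [Finite F]
variable {Q : QuadraticForm F (ι → F)}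

namespace Binary

omit [Fintype ι] [DecidableEq ι] [Finite F] in
lemma two_eq_zero (hF : ∀ a : F, a = 0 ∨ a = 1) : (2 : F) = 0 := by
  rcases hF 2 with h | h
  · exact h
  · exact absurd (show (1 : F) = 0 by linear_combination h) one_ne_zero

omit [Fintype ι] [DecidableEq ι] [Finite F] in
lemma eq_one (hF : ∀ a : F, a = 0 ∨ a = 1) {a : F} (ha : a ≠ 0) : a = 1 :=
  (hF a).resolve_left ha

omit [Fintype ι] [DecidableEq ι] [Finite F] in
lemma vadd_self (hF : ∀ a : F, a = 0 ∨ a = 1) (x : ι → F) : x + x = 0 := by
  rw [← two_smul F x, two_eq_zero hF, zero_smul]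

omit [Fintype ι] [DecidableEq ι] [Finite F] in
lemma vneg (hF : ∀ a : F, a = 0 ∨ a = 1) (x : ι → F) : -x = x :=
  neg_eq_of_add_eq_zero_left (vadd_self hF x)

omit [Fintype ι] [DecidableEq ι] [Finite F] in
lemma vsub (hF : ∀ a : F, a = 0 ∨ a = 1) (x y : ι → F) : x - y = x + y := by
  rw [sub_eq_add_neg, vneg hF]

omit [Fintype ι] [DecidableEq ι] [Finite F] in
lemma eq_of_add_zero (hF : ∀ a : F, a = 0 ∨ a = 1) {x y : ι → F} (h : x + y = 0) : x = y := by
  rw [eq_neg_of_add_eq_zero_left h, vneg hF]

lemma ap_rf_one {v x : ι → F} (hF : ∀ a : F, a = 0 ∨ a = 1) (hv : Q v = 1) :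
    ap (rf Q v) x = x + polar Q x v • v := by
  rw [ap_rf, hv, inv_one, one_mul, vsub hF]

/-- All pairs of reflections give the whole of `omegaGL`. -/
lemma omega_le_of_pairs (hQ : Nondeg Q) (hn : 7 ≤ Fintype.card ι) (hF : ∀ a : F, a = 0 ∨ a = 1)
    {M : Subgroup (GL ι F)}
    (h : ∀ x y, Q x = 1 → Q y = 1 → rf Q x * rf Q y ∈ M) : Cfsg.Geo.omegaGL (⇑Q) ≤ M := by
  have h2 := two_eq_zero hF
  refine Full.of_forall hQ (by omega) fun u hu _ w hw => ?_
  -- the Siegel elements with direction of value one
  have hone : ∀ w, ∀ (hw : polar Q u w = 0), Q w = 1 → sg Q u w hu hw ∈ M := by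
    intro w hw hQw
    have hQwu : Q (w + u) = 1 := by
      rw [QuadraticMap.map_add (⇑Q), hQw, hu, polar_comm Q w u, hw]; ring
    have e : sg Q u w hu hw = rf Q (w + u) * rf Q w := gl_ext fun x => by
      rw [ap_mul, ap_rf_one hF hQw, ap_rf_one hF hQwu, ap_sg, hQw, polar_add_left, polar_smul_left,
        polar_add_right, polar_add_right, polar_self_mul, hQw, polar_comm Q w u, hw, vsub hF]
      rcases hF (polar Q x u) with e1 | e1 <;> rcases hF (polar Q x w) with e2 | e2 <;>
        simp [e1, e2, h2]
      all_goals abel_nf
      all_goals first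
        | (funext i; simp [h2])
        | exact Or.inl (by simpa [two_nsmul, one_add_one_eq_two] using h2)
    rw [e]; exact h _ _ hQwu hQw
  rcases hF (Q w) with hw0 | hw1
  swap
  · exact hone w hw hw1
  obtain ⟨z, hzP, hz⟩ : ∃ z ∈ perpOf Q ![u, w], Q z ≠ 0 := by
    by_contra! hall
    have h1 := two_mul_finrank_le hQ hall
    have h3 := card_le_finrank_perpOf (Q := Q) ![u, w]
    omega
  have hzu : polar Q u z = 0 := by
    rw [polar_comm]; exact mem_perpOf.1 hzP 0
  have hzw : polar Q z w = 0 := mem_perpOf.1 hzP 1
  have hwz : polar Q u (w + z) = 0 := by rw [polar_add_right, hw, hzu, add_zero]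
  have hQwz : Q (w + z) = 1 := by
    rw [QuadraticMap.map_add (⇑Q), hw0, polar_comm Q w z, hzw, eq_one hF hz]; ring
  have := mul_mem (hone _ hwz hQwz) (hone z hzu (eq_one hF hz))
  rw [sg_add'] at this
  convert this using 2
  rw [add_assoc, vadd_self hF, add_zero]

end Binary

variable {t : ℕ} {D : Fin t → Submodule F (ι → F)} {M : Subgroup (GL ι F)}
variable (h : Over Q 2 D M) (hF : ∀ a : F, a = 0 ∨ a = 1) (hani : ∀ i, ∀ x ∈ D i, Q x = 0 → x = 0)

local notation3 "cp" => Decomp.comp (Over.dec h).decomp.decomp

namespace Binary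

omit [Finite F] in
include h hF hani in
lemma value_mem {i : Fin t} {x : ι → F} (hx : x ∈ D i) (hx0 : x ≠ 0) : Q x = 1 :=
  eq_one hF fun e => hx0 (hani i x hx e)

include h hF hani in
omit [Finite F] in
lemma polar_mem {i : Fin t} {p q : ι → F} (hp : p ∈ D i) (hq : q ∈ D i) (hp0 : p ≠ 0)
    (hq0 : q ≠ 0) (hpq : p ≠ q) : polar Q p q = 1 := by
  have h2 := two_eq_zero hF
  have hs : p + q ≠ 0 := fun e => hpq (eq_of_add_zero hF e)
  have hv := value_mem h hF hani ((D i).add_mem hp hq) hs
  rw [QuadraticMap.map_add (⇑Q), value_mem h hF hani hp hp0, value_mem h hF hani hq hq0] at hv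
  linear_combination hv - h2

include h hF hani in
lemma polar_self_zero (x : ι → F) : polar Q x x = 0 := by
  rw [polar_self_mul, two_eq_zero hF, zero_mul]

/-- The members met by a vector. -/
noncomputable def supp (x : ι → F) : Finset (Fin t) :=
  letI := Classical.decEq (ι → F)
  Finset.univ.filter fun i => cp i x ≠ 0

lemma mem_supp {x : ι → F} {i : Fin t} : i ∈ supp h x ↔ cp i x ≠ 0 := by
  simp [supp]

include h hF hani in
lemma polar_sum (x y : ι → F) : polar Q x y = ∑ l, polar Q (cp l x) (cp l y) := by
  conv_lhs => rw [← Decomp.sum_comp h.dec.decomp.decomp y]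
  rw [← polarBilin_apply_apply, map_sum]
  refine Finset.sum_congr rfl fun l _ => ?_
  rw [polarBilin_apply_apply, polar_comp h.dec x (Decomp.comp_mem _ l y)]

include h hF hani in
lemma value_card (x : ι → F) : Q x = ((supp h x).card : F) := by
  classical
  have key : ∀ S : Finset (Fin t), Q (∑ l ∈ S, cp l x) = ((S ∩ supp h x).card : F) := by
    intro S
    induction S using Finset.induction_on with
    | empty => simp
    | insert a S ha ih =>
      rw [Finset.sum_insert ha, QuadraticMap.map_add (⇑Q), ih]
      have hp : polar Q (cp a x) (∑ l ∈ S, cp l x) = 0 := by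
        rw [← polarBilin_apply_apply, map_sum]
        refine Finset.sum_eq_zero fun l hl => ?_
        rw [polarBilin_apply_apply]
        exact orth_apply_blocks h.dec (fun e : a = l => ha (e ▸ hl)) (Decomp.comp_mem _ a x)
          (Decomp.comp_mem _ l x)
      rw [hp, add_zero]
      by_cases h0 : cp a x = 0
      · rw [h0, QuadraticMap.map_zero, zero_add, Finset.insert_inter_of_notMem]
        rw [mem_supp]; exact fun e => e h0
      · rw [value_mem h hF hani (Decomp.comp_mem _ a x) h0,
          Finset.insert_inter_of_mem ((mem_supp h).2 h0), Finset.card_insert_of_notMem (by simp [ha])]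
        push_cast; ring
  have := key Finset.univ
  rwa [Decomp.sum_comp, Finset.univ_inter] at this

include h hF hani in
lemma odd_supp {x : ι → F} (hx : Q x = 1) : Odd (supp h x).card := by
  rw [← Nat.not_even_iff_odd]
  rintro ⟨c, hc⟩
  rw [value_card h hF hani, hc] at hx
  push_cast at hx
  exact one_ne_zero (α := F) (by linear_combination -hx + (c : F) * two_eq_zero hF)

include h hF hani in
lemma cls_value {x : ι → F} (hx : Cls Q M D x) : Q x = 1 := eq_one hF hx.1

lemma comp_self (i l : Fin t) (x : ι → F) : cp l (cp i x) = if l = i then cp i x else 0 :=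
  Decomp.comp_of_mem _ (Decomp.comp_mem _ i x)

/-- Replace the component in the member `i`. -/
noncomputable def upd (i : Fin t) (p x : ι → F) : ι → F := x - cp i x + p

lemma comp_upd {i : Fin t} {p : ι → F} (hp : p ∈ D i) (x : ι → F) (l : Fin t) :
    cp l (upd h i p x) = if l = i then p else cp l x := by
  rw [upd, map_add, map_sub, comp_self h, Decomp.comp_of_mem h.dec.decomp.decomp hp]
  split_ifs with hl
  · subst hl; abel
  · abel

include h hF hani in
/-- A rotation of one member changes the component there arbitrarily. -/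
lemma cls_upd {x : ι → F} (hx : Cls Q M D x) {i : Fin t} {q : ι → F} (hq : q ∈ D i) (hq0 : q ≠ 0)
    (hi : cp i x ≠ 0) : Cls Q M D (upd h i q x) := by
  have h2 := two_eq_zero hF
  set p := cp i x with hp
  have hpD : p ∈ D i := Decomp.comp_mem _ i x
  by_cases hpq : p = q
  · rw [upd, ← hp, hpq, sub_add_cancel]; exact hx
  have hpol := polar_mem h hF hani hpD hq hi hq0 hpq
  have hr0 : p + q ≠ 0 := fun e => hpq (eq_of_add_zero hF e)
  have hr : Q (p + q) = 1 := value_mem h hF hani ((D i).add_mem hpD hq) hr0
  have hQp := value_mem h hF hani hpD hi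
  have := Cls.pair h hx (i := i) (j := i) (a := p + q) (b := p) ((D i).add_mem hpD hq) hpD
    (by rw [hr]; exact one_ne_zero) (by rw [hr, hQp])
  convert this using 1
  have hxp : polar Q x p = 0 := by
    rw [polar_comp h.dec x hpD, ← hp, polar_self_zero h hF hani]
  rw [upd, ← hp, ap_rf_one hF hQp, hxp, zero_smul, add_zero, ap_rf_one hF hr, polar_add_right, hxp,
    polar_comp h.dec x hq, ← hp, hpol]
  rw [vsub hF, zero_add, one_smul]
  abel

include h hF hani in
/-- An exchange of two members moves a component to another member. -/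
lemma cls_shift {x : ι → F} (hx : Cls Q M D x) {i j : Fin t} (hi : cp i x ≠ 0) (hj : cp j x = 0) :
    ∃ r ∈ D j, r ≠ 0 ∧ Cls Q M D (x + cp i x + r) := by
  classical
  have h2 := two_eq_zero hF
  have hij : i ≠ j := fun e => hi (e ▸ hj)
  set p := cp i x with hp
  have hpD : p ∈ D i := Decomp.comp_mem _ i x
  obtain ⟨q, hq, hpq⟩ := (h.dec.decomp.nondegenerate i p hpD hi).2
  have hq0 : q ≠ 0 := fun e => hpq (by simp [e, polar])
  have hne : p ≠ q := fun e => hpq (by rw [← e, polar_self_zero h hF hani])
  have hpol := polar_mem h hF hani hpD hq hi hq0 hne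
  obtain ⟨φ, hφ⟩ := h.dec.isometric i j
  set p' : ι → F := (φ ⟨p, hpD⟩ : ι → F) with hp'
  set q' : ι → F := (φ ⟨q, hq⟩ : ι → F) with hq'
  have hp'D : p' ∈ D j := (φ _).2
  have hq'D : q' ∈ D j := (φ _).2
  have hp'0 : p' ≠ 0 := fun e => hi (by
    have : φ ⟨p, hpD⟩ = 0 := Subtype.ext e
    exact congrArg Subtype.val (φ.map_eq_zero_iff.1 this))
  have hq'0 : q' ≠ 0 := fun e => hq0 (by
    have : φ ⟨q, hq⟩ = 0 := Subtype.ext e
    exact congrArg Subtype.val (φ.map_eq_zero_iff.1 this))
  have hne' : p' ≠ q' := fun e => hne (congrArg Subtype.val (φ.injective (Subtype.ext e)))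
  have hpol' := polar_mem h hF hani hp'D hq'D hp'0 hq'0 hne'
  have o1 : ∀ a ∈ D i, ∀ b ∈ D j, polar Q a b = 0 := fun a ha b hb =>
    orth_apply_blocks h.dec hij ha hb
  have o2 : ∀ a ∈ D j, ∀ b ∈ D i, polar Q a b = 0 := fun a ha b hb =>
    orth_apply_blocks h.dec hij.symm ha hb
  have hu : Q (p + p') = 0 := by
    rw [QuadraticMap.map_add (⇑Q), value_mem h hF hani hpD hi, value_mem h hF hani hp'D hp'0,
      o1 p hpD p' hp'D]
    linear_combination h2
  have hQw : Q (q + q') = 0 := by
    rw [QuadraticMap.map_add (⇑Q), value_mem h hF hani hq hq0, value_mem h hF hani hq'D hq'0,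
      o1 q hq q' hq'D]
    linear_combination h2
  have huw : polar Q (p + p') (q + q') = 0 := by
    simp only [polar_add_left, polar_add_right, hpol, hpol', o1 p hpD q' hq'D, o2 p' hp'D q hq]
    linear_combination h2
  set σ := sg Q (p + p') (q + q') hu huw with hσ
  -- the images of a basis of the two members
  have hspan : ∀ (l : Fin t) (a b : ι → F), a ∈ D l → b ∈ D l → a ≠ 0 → b ≠ 0 → a ≠ b →
      ∀ z ∈ D l, ∃ c d : F, z = c • a + d • b := by
    intro l a b ha hb ha0 hb0 hab z hz
    have hpab := polar_mem h hF hani ha hb ha0 hb0 hab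
    refine ⟨polar Q z b, polar Q z a, ?_⟩
    by_contra hzne
    set e := z + (polar Q z b • a + polar Q z a • b) with he
    have he0 : e ≠ 0 := fun e0 => hzne (eq_of_add_zero hF e0)
    obtain ⟨y, hy, hey⟩ := (h.dec.decomp.nondegenerate l e
      ((D l).add_mem hz ((D l).add_mem ((D l).smul_mem _ ha) ((D l).smul_mem _ hb))) he0).2
    have hea : polar Q e a = 0 := by
      simp only [he, polar_add_left, polar_smul_left, polar_self_zero h hF hani, smul_eq_mul,
        polar_comm Q b a, hpab]
      linear_combination polar Q z a * h2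
    have heb : polar Q e b = 0 := by
      simp only [he, polar_add_left, polar_smul_left, polar_self_zero h hF hani, smul_eq_mul, hpab]
      linear_combination polar Q z b * h2
    refine hey ?_
    rcases eq_or_ne y 0 with rfl | hy0
    · simp [polar]
    rcases eq_or_ne y a with rfl | hya
    · exact hea
    rcases eq_or_ne y b with rfl | hyb
    · exact heb
    -- the third non-zero vector is the sum of the other two
    have hy3 : y = a + b := by
      have hya' := polar_mem h hF hani hy ha hy0 ha0 hya
      have hyb' := polar_mem h hF hani hy hb hy0 hb0 hyb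
      by_contra hyne
      have hs : y + (a + b) ≠ 0 := fun e0 => hyne (eq_of_add_zero hF e0)
      have hv := value_mem h hF hani ((D l).add_mem hy ((D l).add_mem ha hb)) hs
      rw [QuadraticMap.map_add (⇑Q), QuadraticMap.map_add (⇑Q), polar_add_right, hya', hyb', hpab,
        value_mem h hF hani hy hy0, value_mem h hF hani ha ha0, value_mem h hF hani hb hb0] at hv
      exact one_ne_zero (α := F) (by linear_combination hv + (-2 : F) * h2 + (0 : F))
    rw [hy3, polar_add_right, hea, heb, add_zero]
  have hap : ∀ z, ap σ z = z + polar Q z (p + p') • (q + q') + polar Q z (q + q') • (p + p') := by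
    intro z
    rw [hσ, ap_sg, hQw, zero_mul, add_zero, vsub hF]
  have hmem : σ ∈ Cfsg.Geo.decompositionStabilizer D ⊓ Cfsg.Geo.omegaGL (⇑Q) := by
    refine ⟨mem_decompStab h.dec.decomp.decomp (π := Equiv.swap i j) fun l z hz => ?_,
      sg_mem h.nondeg h.card hu huw⟩
    by_cases hli : l = i
    · subst hli
      obtain ⟨c, d, rfl⟩ := hspan l p q hpD hq hi hq0 hne z hz
      rw [Equiv.swap_apply_left, ap_add, ap_smul, ap_smul]
      refine (D j).add_mem ((D j).smul_mem c ?_) ((D j).smul_mem d ?_)
      · convert hp'D using 1
        rw [hap, polar_add_right, polar_add_right, polar_self_zero h hF hani, o1 p hpD p' hp'D,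
          hpol, o1 p hpD q' hq'D]
        simp only [zero_add, add_zero, zero_smul, one_smul]
        rw [← add_assoc, vadd_self hF, zero_add]
      · convert hq'D using 1
        rw [hap, polar_add_right, polar_add_right, polar_self_zero h hF hani, o1 q hq p' hp'D,
          polar_comm Q q p, hpol, o1 q hq q' hq'D]
        simp only [zero_add, add_zero, zero_smul, one_smul]
        rw [← add_assoc, vadd_self hF, zero_add]
    · by_cases hlj : l = j
      · subst hlj
        obtain ⟨c, d, rfl⟩ := hspan l p' q' hp'D hq'D hp'0 hq'0 hne' z hz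
        rw [Equiv.swap_apply_right, ap_add, ap_smul, ap_smul]
        refine (D i).add_mem ((D i).smul_mem c ?_) ((D i).smul_mem d ?_)
        · convert hpD using 1
          rw [hap, polar_add_right, polar_add_right, polar_self_zero h hF hani, o2 p' hp'D p hpD,
            hpol', o2 p' hp'D q hq]
          simp only [zero_add, add_zero, zero_smul, one_smul]
          rw [add_left_comm, vadd_self hF, add_zero]
        · convert hq using 1
          rw [hap, polar_add_right, polar_add_right, polar_self_zero h hF hani, o2 q' hq'D p hpD,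
            polar_comm Q q' p', hpol', o2 q' hq'D q hq]
          simp only [zero_add, add_zero, zero_smul, one_smul]
          rw [add_left_comm, vadd_self hF, add_zero]
      · rw [Equiv.swap_apply_of_ne_of_ne hli hlj, hap,
          polar_add_right, orth_apply_blocks h.dec hli hz hpD, orth_apply_blocks h.dec hlj hz hp'D,
          polar_add_right, orth_apply_blocks h.dec hli hz hq, orth_apply_blocks h.dec hlj hz hq'D]
        simpa using hz
  refine ⟨p', hp'D, hp'0, ?_⟩
  convert Cls.stab h hmem hx using 1
  rw [hap, polar_add_right, polar_add_right, polar_comp h.dec x hpD, polar_comp h.dec x hp'D,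
    polar_comp h.dec x hq, polar_comp h.dec x hq'D, ← hp, hj, polar_self_zero h hF hani, hpol]
  simp [polar, add_assoc]

include h hF hani in
/-- The set of members met may be changed, keeping its size. -/
lemma cls_of_supp {x : ι → F} (hx : Cls Q M D x) {y : ι → F}
    (hy : (supp h y).card = (supp h x).card) : Cls Q M D y := by
  classical
  have h2 := two_eq_zero hF
  suffices key : ∀ (s : ℕ) (x : ι → F), Cls Q M D x → (supp h y).card = (supp h x).card →
      (supp h x \ supp h y).card + (Finset.univ.filter fun l => cp l x ≠ cp l y).card ≤ s →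
      Cls Q M D y from key _ x hx hy le_rfl
  intro s
  induction s with
  | zero =>
    intro x hx _ hs
    have : x = y := Decomp.ext_comp h.dec.decomp.decomp fun l => by
      by_contra hne
      have : l ∈ (∅ : Finset (Fin t)) := by
        rw [← Finset.card_eq_zero.1 (show (Finset.univ.filter fun l => cp l x ≠ cp l y).card = 0 by
          omega)]
        simp [hne]
      simp at this
    exact this ▸ hx
  | succ s ih =>
    intro x hx hcard hs
    by_cases hA : supp h x \ supp h y = ∅
    · -- equal supports: change one component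
      have hsupp : supp h x = supp h y :=
        Finset.eq_of_subset_of_card_le (Finset.sdiff_eq_empty_iff_subset.1 hA) (le_of_eq hcard)
      by_cases hd : ∀ l, cp l x = cp l y
      · exact Decomp.ext_comp h.dec.decomp.decomp hd ▸ hx
      push Not at hd
      obtain ⟨l, hl⟩ := hd
      have hlx : cp l x ≠ 0 := fun e => by
        have h1 : l ∉ supp h y := hsupp ▸ (fun h' => (mem_supp h).1 h' e)
        exact hl (e.trans (not_not.1 (fun h' => h1 ((mem_supp h).2 h'))).symm)
      have hly : cp l y ≠ 0 := (mem_supp h).1 (hsupp ▸ (mem_supp h).2 hlx)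
      have hyD : cp l y ∈ D l := Decomp.comp_mem _ l y
      have hx' := cls_upd h hF hani hx hyD hly hlx
      refine ih _ hx' ?_ ?_
      · rw [hcard]; congr 1
        ext r
        rw [mem_supp, mem_supp, comp_upd h hyD]
        split_ifs with hr
        · subst hr; simp [hlx, hly]
        · rfl
      · have hs1 : supp h (upd h l (cp l y) x) = supp h x := by
          ext r
          rw [mem_supp, mem_supp, comp_upd h hyD]
          split_ifs with hr
          · subst hr; simp [hlx, hly]
          · rfl
        have hlt : (Finset.univ.filter fun r => cp r (upd h l (cp l y) x) ≠ cp r y).card <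
            (Finset.univ.filter fun r => cp r x ≠ cp r y).card := by
          refine Finset.card_lt_card ⟨fun r => ?_, fun hsub => ?_⟩
          · simp only [Finset.mem_filter, Finset.mem_univ, true_and, comp_upd h hyD]
            split_ifs with hr
            · subst hr; simp
            · exact id
          · have := hsub (show l ∈ _ by simp [hl])
            simp [comp_upd h hyD] at this
        rw [hs1]; omega
    · -- move a member
      obtain ⟨i, hi⟩ := Finset.nonempty_iff_ne_empty.2 hA
      rw [Finset.mem_sdiff] at hi
      have hB : (supp h y \ supp h x).Nonempty := by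
        rw [Finset.nonempty_iff_ne_empty]
        intro e
        have hsub := Finset.sdiff_eq_empty_iff_subset.1 e
        exact hi.2 ((Finset.eq_of_subset_of_card_le hsub (le_of_eq hcard.symm)).symm ▸ hi.1)
      obtain ⟨j, hj⟩ := hB
      rw [Finset.mem_sdiff] at hj
      have hxi := (mem_supp h).1 hi.1
      have hxj : cp j x = 0 := not_not.1 fun e => hj.2 ((mem_supp h).2 e)
      have hyi : cp i y = 0 := not_not.1 fun e => hi.2 ((mem_supp h).2 e)
      have hyj : cp j y ≠ 0 := (mem_supp h).1 hj.1
      have hij : i ≠ j := fun e => hxi (e ▸ hxj)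
      obtain ⟨r, hr, hr0, hx1⟩ := cls_shift h hF hani hx hxi hxj
      have hc1 : ∀ l, cp l (x + cp i x + r) = if l = i then 0 else if l = j then r else cp l x := by
        intro l
        rw [map_add, map_add, comp_self h, Decomp.comp_of_mem h.dec.decomp.decomp hr]
        by_cases hli : l = i
        · subst hli
          simp only [if_true, if_neg hij, add_zero]
          exact vadd_self hF _
        · by_cases hlj : l = j
          · subst hlj; simp [hli, hxj]
          · simp [hli, hlj]
      have hx2 := cls_upd h hF hani hx1 (Decomp.comp_mem _ j y) hyj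
        (by rw [hc1, if_neg hij.symm, if_pos rfl]; exact hr0)
      set x2 := upd h j (cp j y) (x + cp i x + r)
      have hc2 : ∀ l, cp l x2 = if l = i then 0 else if l = j then cp j y else cp l x := by
        intro l
        rw [comp_upd h (Decomp.comp_mem _ j y), hc1]
        by_cases hlj : l = j
        · subst hlj; simp [hij.symm]
        · simp [hlj]
      have hs2 : supp h x2 = insert j ((supp h x).erase i) := by
        ext l
        rw [mem_supp, hc2, Finset.mem_insert, Finset.mem_erase, mem_supp]
        by_cases hli : l = i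
        · subst hli; simp [hij]
        · by_cases hlj : l = j
          · subst hlj; simp [hli, hyj]
          · simp [hli, hlj]
      have hjx : j ∉ (supp h x).erase i := fun e => hj.2 (Finset.mem_of_mem_erase e)
      refine ih _ hx2 ?_ ?_
      · rw [hs2, Finset.card_insert_of_notMem hjx, Finset.card_erase_of_mem hi.1, hcard]
        have := Finset.card_pos.2 ⟨i, hi.1⟩
        omega
      · have h1 : supp h x2 \ supp h y = (supp h x \ supp h y).erase i := by
          ext l
          simp only [hs2, Finset.mem_sdiff, Finset.mem_insert, Finset.mem_erase]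
          constructor
          · rintro ⟨rfl | ⟨a, b⟩, c⟩
            · exact absurd hj.1 c
            · exact ⟨a, b, c⟩
          · rintro ⟨a, b, c⟩
            exact ⟨Or.inr ⟨a, b⟩, c⟩
        have h3 : (Finset.univ.filter fun l => cp l x2 ≠ cp l y) ⊆
            Finset.univ.filter fun l => cp l x ≠ cp l y := by
          intro l
          simp only [Finset.mem_filter, Finset.mem_univ, true_and, hc2]
          by_cases hli : l = i
          · subst hli; simp [hyi]
          · by_cases hlj : l = j
            · subst hlj; simp [hli]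
            · simp [hli, hlj]
        rw [h1, Finset.card_erase_of_mem (Finset.mem_sdiff.2 hi)]
        have := Finset.card_le_card h3
        have := Finset.card_pos.2 ⟨i, Finset.mem_sdiff.2 hi⟩
        omega

include h hF hani in
/-- Adding a linked vector paired with another one. -/
lemma cls_add {x y : ι → F} (hx : Cls Q M D x) (hy : Cls Q M D y) (hxy : polar Q x y = 1) :
    Cls Q M D (x + y) := by
  have hqx := cls_value h hF hani hx
  have hqy := cls_value h hF hani hy
  have := Cls.reflect h hx hy (s := 1) (by rw [hqx, hqy]; ring)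
  rwa [ap_rf_one hF hqy, hxy, one_smul] at this

include h hF hani in
lemma exists_other {i : Fin t} {p : ι → F} (hp : p ∈ D i) (hp0 : p ≠ 0) :
    ∃ q ∈ D i, q ≠ 0 ∧ q ≠ p ∧ polar Q p q = 1 := by
  obtain ⟨q, hq, hpq⟩ := (h.dec.decomp.nondegenerate i p hp hp0).2
  refine ⟨q, hq, fun e => hpq (by simp [e, polar]), fun e => hpq ?_, eq_one hF hpq⟩
  rw [e, polar_self_zero h hF hani]

include h hF hani in
/-- A linked vector outside the members gives one meeting three of them. -/
lemma cls_three (ht : 4 ≤ t) {x : ι → F} (hx : Cls Q M D x) (hs : 2 ≤ (supp h x).card) :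
    ∃ z, Cls Q M D z ∧ (supp h z).card = 3 := by
  classical
  have h2 := two_eq_zero hF
  have hodd := odd_supp h hF hani (cls_value h hF hani hx)
  obtain ⟨a, b, c, ha, hb, hc, hab, hac, hbc⟩ := Finset.two_lt_card_iff.1
    (show 2 < (supp h x).card by obtain ⟨r, hr⟩ := hodd; omega)
  by_cases hfull : ∃ j, cp j x = 0
  · obtain ⟨j, hj⟩ := hfull
    have hxa := (mem_supp h).1 ha
    have hxb := (mem_supp h).1 hb
    have hja : j ≠ a := fun e => hxa (e ▸ hj)
    have hjb : j ≠ b := fun e => hxb (e ▸ hj)
    obtain ⟨r, hr, hr0, hx1⟩ := cls_shift h hF hani hx hxa hj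
    obtain ⟨q, hq, hq0, -, hbq⟩ := exists_other h hF hani (Decomp.comp_mem _ b x) hxb
    have hc1 : ∀ l, cp l (x + cp a x + r) = if l = a then 0 else if l = j then r else cp l x := by
      intro l
      rw [map_add, map_add, comp_self h, Decomp.comp_of_mem h.dec.decomp.decomp hr]
      by_cases hla : l = a
      · subst hla
        simp only [if_true, if_neg hja.symm, add_zero]
        exact vadd_self hF _
      · by_cases hlj : l = j
        · subst hlj; simp [hla, hj]
        · simp [hla, hlj]
    have hy := cls_upd h hF hani hx1 hq hq0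
      (by rw [hc1, if_neg hab.symm, if_neg (Ne.symm hjb)]; exact hxb)
    set y := upd h b q (x + cp a x + r)
    have hcy : ∀ l, cp l y =
        if l = b then q else if l = a then 0 else if l = j then r else cp l x := fun l => by
      rw [comp_upd h hq, hc1]
    have hpol : polar Q x y = 1 := by
      rw [polar_sum h hF hani, Finset.sum_eq_single b]
      · rw [hcy, if_pos rfl, hbq]
      · intro l _ hlb
        rw [hcy, if_neg hlb]
        by_cases hla : l = a
        · subst hla; simp [polar]
        · by_cases hlj : l = j
          · subst hlj; simp [hj, polar]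
          · rw [if_neg hla, if_neg hlj, polar_self_zero h hF hani]
      · simp
    refine ⟨x + y, cls_add h hF hani hx hy hpol, ?_⟩
    rw [Finset.card_eq_three]
    refine ⟨a, b, j, hab, hja.symm, hjb.symm, ?_⟩
    ext l
    rw [mem_supp, map_add, hcy]
    simp only [Finset.mem_insert, Finset.mem_singleton]
    by_cases hlb : l = b
    · subst hlb
      simp only [if_true, or_true, true_or, iff_true]
      intro e
      have : cp l x = q := eq_of_add_zero hF e
      rw [this, polar_self_zero h hF hani] at hbq
      exact zero_ne_one hbq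
    · by_cases hla : l = a
      · subst hla; simp [hlb, hxa]
      · by_cases hlj : l = j
        · subst hlj; simp [hlb, hla, hj, hr0]
        · simp only [if_neg hlb, if_neg hla, if_neg hlj, hla, hlb, hlj, or_self, iff_false, not_not]
          exact vadd_self hF _
  · push Not at hfull
    obtain ⟨qa, hqa, hqa0, -, hpa⟩ := exists_other h hF hani (Decomp.comp_mem _ a x) (hfull a)
    obtain ⟨qb, hqb, hqb0, -, hpb⟩ := exists_other h hF hani (Decomp.comp_mem _ b x) (hfull b)
    obtain ⟨qc, hqc, hqc0, -, hpc⟩ := exists_other h hF hani (Decomp.comp_mem _ c x) (hfull c)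
    have h1 := cls_upd h hF hani hx hqa hqa0 (hfull a)
    have h1' := cls_upd h hF hani h1 hqb hqb0
      (by rw [comp_upd h hqa, if_neg hab.symm]; exact hfull b)
    have hy := cls_upd h hF hani h1' hqc hqc0
      (by rw [comp_upd h hqb, if_neg hbc.symm, comp_upd h hqa, if_neg hac.symm]; exact hfull c)
    set y := upd h c qc (upd h b qb (upd h a qa x))
    have hcy : ∀ l, cp l y =
        if l = c then qc else if l = b then qb else if l = a then qa else cp l x := fun l => by
      rw [comp_upd h hqc, comp_upd h hqb, comp_upd h hqa]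
    have hpol : polar Q x y = 1 := by
      rw [polar_sum h hF hani, ← Finset.sum_subset (Finset.subset_univ {a, b, c})]
      · rw [Finset.sum_insert (by simp [hab, hac]), Finset.sum_insert (by simp [hbc]),
          Finset.sum_singleton]
        simp only [hcy, hab, hac, hbc, if_false, if_true, hpa, hpb, hpc]
        linear_combination h2
      · intro l _ hl
        simp only [Finset.mem_insert, Finset.mem_singleton, not_or] at hl
        rw [hcy, if_neg hl.2.2, if_neg hl.2.1, if_neg hl.1, polar_self_zero h hF hani]
    refine ⟨x + y, cls_add h hF hani hx hy hpol, ?_⟩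
    rw [Finset.card_eq_three]
    refine ⟨a, b, c, hab, hac, hbc, ?_⟩
    have hne : ∀ {p q : ι → F}, polar Q p q = 1 → p + q ≠ 0 := fun {p q} hpq e => by
      have : p = q := eq_of_add_zero hF e
      rw [this, polar_self_zero h hF hani] at hpq
      exact zero_ne_one hpq
    ext l
    rw [mem_supp, map_add, hcy]
    simp only [Finset.mem_insert, Finset.mem_singleton]
    by_cases hlc : l = c
    · subst hlc; simp [hne hpc]
    · by_cases hlb : l = b
      · subst hlb; simp [hlc, hne hpb]
      · by_cases hla : l = a
        · subst hla; simp [hlc, hlb, hne hpa]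
        · simp only [if_neg hlb, if_neg hla, if_neg hlc, hla, hlb, hlc, or_self, iff_false, not_not]
          exact vadd_self hF _

include h hF hani in
/-- A linked vector outside the members makes every vector of value one linked. -/
lemma cls_all (ht : 4 ≤ t) {x : ι → F} (hx : Cls Q M D x) (hs : 2 ≤ (supp h x).card) {w : ι → F}
    (hw : Q w = 1) : Cls Q M D w := by
  classical
  have h2 := two_eq_zero hF
  obtain ⟨z, hz, hz3⟩ := cls_three h hF hani ht hx hs
  suffices key : ∀ m : ℕ, ∀ w, Q w = 1 → (supp h w).card = m → Cls Q M D w from key _ w hw rfl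
  intro m
  induction m using Nat.strong_induction_on with
  | _ m ih =>
    intro w hw hm
    have hodd := odd_supp h hF hani hw
    rw [hm] at hodd
    obtain ⟨r, hr⟩ := hodd
    rcases r with _ | _ | r
    · obtain ⟨i, hi⟩ := Finset.card_eq_one.1 (hm.trans hr)
      have : w = cp i w := Decomp.ext_comp h.dec.decomp.decomp fun l => by
        rw [comp_self h]
        split_ifs with hl
        · rw [hl]
        · refine not_not.1 fun e => hl ?_
          have := (mem_supp h).2 e
          rwa [hi, Finset.mem_singleton] at this
      rw [this]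
      exact Cls.of_mem (Decomp.comp_mem _ i w) (by rw [← this, hw]; exact one_ne_zero)
    · exact cls_of_supp h hF hani hz (by rw [hm, hr, hz3]; rfl)
    · obtain ⟨a, b, c, ha, hb, hc, hab, hac, hbc⟩ := Finset.two_lt_card_iff.1
        (show 2 < (supp h w).card by omega)
      have hwa := (mem_supp h).1 ha
      have hwb := (mem_supp h).1 hb
      have hwc := (mem_supp h).1 hc
      obtain ⟨q, hq, hq0, hqne, hcq⟩ := exists_other h hF hani (Decomp.comp_mem _ c w) hwc
      set x₁ := cp a w + cp b w + q with hx₁
      set y₁ := w + x₁ with hy₁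
      have hqq : cp c w + q ≠ 0 := fun e => hqne (by
        exact (eq_of_add_zero hF e).symm)
      have hc₁ : ∀ l, cp l x₁ =
          if l = a then cp a w else if l = b then cp b w else if l = c then q else 0 := by
        intro l
        rw [hx₁, map_add, map_add, comp_self h, comp_self h,
          Decomp.comp_of_mem h.dec.decomp.decomp hq]
        by_cases hla : l = a
        · subst hla; simp [hab, hac]
        · by_cases hlb : l = b
          · subst hlb; simp [hla, hbc]
          · simp [hla, hlb]
      have hs₁ : (supp h x₁).card = 3 := by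
        rw [Finset.card_eq_three]
        refine ⟨a, b, c, hab, hac, hbc, ?_⟩
        ext l
        rw [mem_supp, hc₁]
        simp only [Finset.mem_insert, Finset.mem_singleton]
        by_cases hla : l = a
        · subst hla; simp [hwa]
        · by_cases hlb : l = b
          · subst hlb; simp [hla, hwb]
          · by_cases hlc : l = c
            · subst hlc; simp [hla, hlb, hq0]
            · simp [hla, hlb, hlc]
      have hx₁c : Cls Q M D x₁ := cls_of_supp h hF hani hz (by rw [hs₁, hz3])
      have hc₂ : ∀ l, cp l y₁ = if l = a ∨ l = b then 0 else if l = c then cp c w + q else cp l w := by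
        intro l
        rw [hy₁, map_add, hc₁]
        by_cases hla : l = a
        · subst hla
          simp only [if_true, true_or]
          exact vadd_self hF _
        · by_cases hlb : l = b
          · subst hlb
            simp only [hla, if_false, if_true, false_or]
            exact vadd_self hF _
          · by_cases hlc : l = c
            · subst hlc; simp [hla, hlb]
            · simp [hla, hlb, hlc]
      have hs₂ : (supp h y₁).card = m - 2 := by
        have : supp h y₁ = ((supp h w).erase a).erase b := by
          ext l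
          rw [mem_supp, hc₂, Finset.mem_erase, Finset.mem_erase, mem_supp]
          by_cases hla : l = a
          · subst hla; simp
          · by_cases hlb : l = b
            · subst hlb; simp
            · by_cases hlc : l = c
              · subst hlc; simp [hla, hlb, hqq, hwc]
              · simp [hla, hlb, hlc]
        rw [this, Finset.card_erase_of_mem (Finset.mem_erase.2 ⟨hab.symm, hb⟩),
          Finset.card_erase_of_mem ha, hm]
        omega
      have hpol : polar Q x₁ y₁ = 1 := by
        rw [polar_sum h hF hani, Finset.sum_eq_single c]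
        · rw [hc₁, hc₂, if_neg hac.symm, if_neg hbc.symm, if_pos rfl,
            if_neg (by simp [hac.symm, hbc.symm]), if_pos rfl, polar_add_right,
            polar_self_zero h hF hani, add_zero, polar_comm, hcq]
        · intro l _ hlc
          rw [hc₁, hc₂]
          by_cases hla : l = a
          · simp [hla, polar]
          · by_cases hlb : l = b
            · simp [hlb, polar]
            · simp [hla, hlb, hlc, polar]
        · simp
      have hQy : Q y₁ = 1 := by
        rw [value_card h hF hani, hs₂, show m - 2 = 2 * (r + 1) + 1 by omega]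
        push_cast
        linear_combination ((r : F) + 1) * h2
      have := cls_add h hF hani hx₁c (ih (m - 2) (by omega) y₁ hQy hs₂) hpol
      convert this using 1
      rw [hy₁, add_left_comm, vadd_self hF, add_zero]

include h hF hani in
/-- Linked vectors which all lie in members make an element moving one of them impossible. -/
lemma false_of_moved (hall : ∀ x, Cls Q M D x → (supp h x).card ≤ 1) {g : GL ι F} (hg : g ∈ M)
    {l : Fin t} {p : ι → F} (hp : p ∈ D l) (hp0 : p ≠ 0) (hs : 2 ≤ (supp h (ap g p)).card) :
    False := by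
  classical
  have h2 := two_eq_zero hF
  have hgI := h.isom hg
  set y := ap g p with hy
  have hQp := value_mem h hF hani hp hp0
  obtain ⟨i, hi, j, hj, hij⟩ := Finset.one_lt_card.1 (show 1 < (supp h y).card by omega)
  set a := cp i y with ha
  set b := cp j y with hb
  have haD : a ∈ D i := Decomp.comp_mem _ i y
  have hbD : b ∈ D j := Decomp.comp_mem _ j y
  have ha0 : a ≠ 0 := (mem_supp h).1 hi
  have hb0 : b ≠ 0 := (mem_supp h).1 hj
  have hQa := value_mem h hF hani haD ha0
  have hQb := value_mem h hF hani hbD hb0
  have hH := rf_pair_mem h.dec h.nondeg h.card haD hbD (by rw [hQa]; exact one_ne_zero)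
    (hQa.trans hQb.symm)
  set a' := ap g⁻¹ a with ha'
  set b' := ap g⁻¹ b with hb'
  have hiso : ∀ z, Q (ap g⁻¹ z) = Q z := fun z => mem_isometryGroup_iff.mp (inv_mem hgI) z
  have hQa' : Q a' = 1 := by rw [ha', hiso, hQa]
  have hQb' : Q b' = 1 := by rw [hb', hiso, hQb]
  have hya : polar Q y a = 0 := by rw [polar_comp h.dec y haD, ← ha, polar_self_zero h hF hani]
  have hyb : polar Q y b = 0 := by rw [polar_comp h.dec y hbD, ← hb, polar_self_zero h hF hani]
  -- the conjugated pair fixes `p`
  have hconj : g⁻¹ * (rf Q a * rf Q b) * g = rf Q a' * rf Q b' := by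
    rw [ha', hb', ← conj_rf (inv_mem hgI) a, ← conj_rf (inv_mem hgI) b, inv_inv]
    group
  have hxM : rf Q a' * rf Q b' ∈ M := hconj ▸ mul_mem (mul_mem (inv_mem hg) (h.stab hH)) hg
  have hfix : ap (rf Q a' * rf Q b') p = p := by
    rw [← hconj, ap_mul, ap_mul, ← hy, ap_mul, ap_rf_one hF hQb, hyb, zero_smul, add_zero,
      ap_rf_one hF hQa, hya, zero_smul, add_zero, hy, ap_inv_ap]
  have hpA : Cls Q M D p := Cls.of_mem hp (by rw [hQp]; exact one_ne_zero)
  have hkeep : ∀ q, ∀ r, q ∈ D r → q ≠ 0 →
      (supp h (q + polar Q q b' • b' + polar Q (q + polar Q q b' • b') a' • a')).card ≤ 1 := by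
    intro q r hq hq0
    have hQq := value_mem h hF hani hq hq0
    have := Cls.ap h hxM hpA (by rw [hfix]; exact hpA)
      (Cls.of_mem hq (by rw [hQq]; exact one_ne_zero)) (hQp.trans hQq.symm)
    rw [ap_mul, ap_rf_one hF hQb', ap_rf_one hF hQa'] at this
    exact hall _ this
  -- the new axes meet several members
  have hout : ∀ z w, Cls Q M D w → ap g⁻¹ w = z → 2 ≤ (supp h z).card ∨ (supp h y).card ≤ 1 := by
    intro z w hw hz
    by_cases hzA : 2 ≤ (supp h z).card
    · exact Or.inl hzA
    right
    refine hall _ ?_
    have hz1 : Q z = 1 := by rw [← hz, hiso, cls_value h hF hani hw]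
    obtain ⟨r, hr⟩ := Finset.card_eq_one.1 (show (supp h z).card = 1 by
      obtain ⟨e, he⟩ := odd_supp h hF hani hz1; omega)
    have hzD : z ∈ D r := by
      have : z = cp r z := Decomp.ext_comp h.dec.decomp.decomp fun s => by
        rw [comp_self h]
        split_ifs with hs
        · rw [hs]
        · refine not_not.1 fun e => hs ?_
          have := (mem_supp h).2 e
          rwa [hr, Finset.mem_singleton] at this
      rw [this]; exact Decomp.comp_mem _ r z
    have hzc : Cls Q M D z := Cls.of_mem hzD (by rw [hz1]; exact one_ne_zero)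
    have hgz : Cls Q M D (ap g z) := by rw [← hz, ap_ap_inv]; exact hw
    exact Cls.ap h hg hzc hgz hpA (hz1.trans hQp.symm)
  have hsa : 2 ≤ (supp h a').card :=
    (hout a' a (Cls.of_mem haD (by rw [hQa]; exact one_ne_zero)) rfl).resolve_right (by omega)
  have hsb : 2 ≤ (supp h b').card :=
    (hout b' b (Cls.of_mem hbD (by rw [hQb]; exact one_ne_zero)) rfl).resolve_right (by omega)
  have hab' : polar Q b' a' = 0 := by
    rw [ha', hb', polar_ap (inv_mem hgI), orth_apply_blocks h.dec hij.symm hbD haD]
  -- pairings with member vectors agree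
  have hsame : ∀ q r, q ∈ D r → q ≠ 0 → polar Q q a' = polar Q q b' := by
    intro q r hq hq0
    have hbig : ∀ v, 2 ≤ (supp h v).card → Q v = 1 → 2 ≤ (supp h (q + v)).card := by
      intro v hv hQv
      have h3 : 3 ≤ (supp h v).card := by
        obtain ⟨e, he⟩ := odd_supp h hF hani hQv; omega
      have hsub : (supp h v).erase r ⊆ supp h (q + v) := fun s hs => by
        rw [Finset.mem_erase] at hs
        rw [mem_supp, map_add, Decomp.comp_of_mem h.dec.decomp.decomp hq, if_neg hs.1, zero_add]
        exact (mem_supp h).1 hs.2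
      have := Finset.card_le_card hsub
      have := Finset.pred_card_le_card_erase (a := r) (s := supp h v)
      omega
    have hk := hkeep q r hq hq0
    rcases hF (polar Q q b') with e1 | e1 <;> rcases hF (polar Q q a') with e2 | e2
    · rw [e1, e2]
    · rw [e1, zero_smul, add_zero, e2, one_smul] at hk
      have := hbig a' hsa hQa'
      omega
    · rw [e1, one_smul, polar_add_left, e2, hab', add_zero, zero_smul, add_zero] at hk
      have := hbig b' hsb hQb'
      omega
    · rw [e1, e2]
  -- hence the axes are equal
  have heq : a' = b' := by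
    have h0 : a' + b' = 0 := h.nondeg _ fun z => by
      rw [← Decomp.sum_comp h.dec.decomp.decomp z, ← polarBilin_apply_apply, map_sum]
      refine Finset.sum_eq_zero fun r _ => ?_
      rw [polarBilin_apply_apply]
      by_cases hz : cp r z = 0
      · simp [hz, polar]
      rw [polar_add_left, polar_comm Q a', polar_comm Q b',
        hsame _ r (Decomp.comp_mem _ r z) hz]
      linear_combination polar Q (cp r z) b' * h2
    exact eq_of_add_zero hF h0
  have hab : a = b := ap_injective g⁻¹ heq
  have := Decomp.comp_of_mem h.dec.decomp.decomp (i := i) haD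
  rw [hab, Decomp.comp_of_mem h.dec.decomp.decomp hbD, if_neg hij, if_pos rfl] at this
  exact hb0 this.symm

include h hF hani in
/-- An element outside the stabiliser moves some member vector out of all members. -/
lemma exists_moved {g : GL ι F} (hg : g ∈ Cfsg.isometryGroup F (⇑Q))
    (hstab : g ∉ Cfsg.Geo.decompositionStabilizer D) :
    ∃ l, ∃ p ∈ D l, p ≠ 0 ∧ 2 ≤ (supp h (ap g p)).card := by
  classical
  have h2 := two_eq_zero hF
  by_contra! hall
  have hloc : ∀ l, ∀ p ∈ D l, p ≠ 0 → ∃ r, ap g p ∈ D r := by
    intro l p hp hp0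
    have hQ1 : Q (ap g p) = 1 := by
      rw [mem_isometryGroup_iff.mp hg, value_mem h hF hani hp hp0]
    obtain ⟨r, hr⟩ := Finset.card_eq_one.1 (show (supp h (ap g p)).card = 1 by
      have := hall l p hp hp0
      obtain ⟨e, he⟩ := odd_supp h hF hani hQ1
      omega)
    refine ⟨r, ?_⟩
    have : ap g p = cp r (ap g p) := Decomp.ext_comp h.dec.decomp.decomp fun s => by
      rw [comp_self h]
      split_ifs with hs
      · rw [hs]
      · refine not_not.1 fun e => hs ?_
        have := (mem_supp h).2 e
        rwa [hr, Finset.mem_singleton] at this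
    rw [this]; exact Decomp.comp_mem _ r _
  have key : ∀ l, ∃ r, ∀ x ∈ D l, ap g x ∈ D r := by
    intro l
    obtain ⟨p, hp, hp0⟩ := Decomp.exists_ne_zero_mem h.dec.decomp.decomp l
    obtain ⟨r, hr⟩ := hloc l p hp hp0
    refine ⟨r, fun x hx => ?_⟩
    by_cases hx0 : x = 0
    · rw [hx0, ap_zero]; exact (D r).zero_mem
    by_cases hxp : x = p
    · rw [hxp]; exact hr
    obtain ⟨r', hr'⟩ := hloc l x hx hx0
    by_cases hrr : r' = r
    · rw [← hrr]; exact hr'
    have := polar_mem h hF hani hp hx hp0 hx0 (Ne.symm hxp)
    rw [← polar_ap hg, orth_apply_blocks h.dec (Ne.symm hrr) hr hr'] at this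
    exact absurd this zero_ne_one
  choose π hπ using key
  have hmap : ∀ l, (D l).map (apEquiv g).toLinearMap = D (π l) := fun l =>
    Submodule.eq_of_le_of_finrank_eq (fun _ ⟨x, hx, e⟩ => e ▸ hπ l x hx)
      ((LinearEquiv.finrank_map_eq _ _).trans (by simp only [h.dec.decomp.decomp.finrank_eq]))
  have hinj : Function.Injective π := fun a b hab => by
    by_contra hne
    obtain ⟨x, hx, hx0⟩ := Decomp.exists_ne_zero_mem h.dec.decomp.decomp a
    obtain ⟨y, hy, hyx⟩ := ((hmap b).trans (congrArg D hab.symm)).ge (hπ a x hx)
    have hxy : y = x := ap_injective g hyx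
    subst hxy
    have h1 := Decomp.comp_of_mem h.dec.decomp.decomp (i := a) hx
    rw [Decomp.comp_of_mem h.dec.decomp.decomp (i := a) hy, if_pos rfl, if_neg hne] at h1
    exact hx0 h1.symm
  exact hstab (mem_decompStab h.dec.decomp.decomp
    (π := Equiv.ofBijective π (Finite.injective_iff_bijective.1 hinj)) hπ)

end Binary

open Binary in
/-- Over two elements the stabiliser in `omegaGL` of an orthogonal decomposition into planes without
singular vectors is maximal. -/
theorem binaryPlanes_isMaximalIn {ι : Type} [Fintype ι] [DecidableEq ι] {F : Type*} [Field F]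
    [Finite F] {Q : QuadraticForm F (ι → F)} {t : ℕ} {D : Fin t → Submodule F (ι → F)}
    (hQ : Nondeg Q) (hF : Nat.card F = 2) (ht : 4 ≤ t)
    (hD : Cfsg.Geo.IsOrthogonalMDecomposition (⇑Q) 2 D)
    (hani : ∀ i, ∀ x ∈ D i, Q x = 0 → x = 0) :
    Cfsg.Geo.IsMaximalIn (Cfsg.Geo.omegaGL (⇑Q))
      (Cfsg.Geo.decompositionStabilizer D ⊓ Cfsg.Geo.omegaGL (⇑Q)) := by
  classical
  have := Fintype.ofFinite F
  have hF2 : ∀ a : F, a = 0 ∨ a = 1 := fun a => by
    by_contra! hh
    have := Finset.card_le_univ ({0, 1, a} : Finset F)
    rw [Finset.card_eq_three.2 ⟨0, 1, a, zero_ne_one, Ne.symm hh.1, Ne.symm hh.2, rfl⟩,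
      ← Nat.card_eq_fintype_card, hF] at this
    omega
  have hn : 7 ≤ Fintype.card ι := by
    have := decomp_card_eq hD.decomp.decomp
    omega
  set H := Cfsg.Geo.decompositionStabilizer D ⊓ Cfsg.Geo.omegaGL (⇑Q) with hHdef
  have h0 : Over Q 2 D H := ⟨hQ, by omega, hD, le_rfl, le_rfl, inf_le_right.trans omegaGL_le⟩
  have h2 := two_eq_zero hF2
  refine ⟨lt_of_le_of_ne inf_le_right fun he => ?_, fun M hHM hMS => ?_⟩
  · -- a product of two reflections leaving the decomposition
    obtain ⟨a, b, c, hab, hac, hbc⟩ : ∃ a b c : Fin t, a ≠ b ∧ a ≠ c ∧ b ≠ c :=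
      ⟨⟨0, by omega⟩, ⟨1, by omega⟩, ⟨2, by omega⟩, by simp [Fin.ext_iff], by simp [Fin.ext_iff],
        by simp [Fin.ext_iff]⟩
    obtain ⟨d, -, hd⟩ := Finset.exists_mem_notMem_of_card_lt_card (s := ({a, b, c} : Finset (Fin t)))
      (t := Finset.univ) (by
        rw [Finset.card_univ, Fintype.card_fin]; exact lt_of_le_of_lt Finset.card_le_three (by omega))
    simp only [Finset.mem_insert, Finset.mem_singleton, not_or] at hd
    obtain ⟨pa, hpa, hpa0⟩ := Decomp.exists_ne_zero_mem hD.decomp.decomp a
    obtain ⟨pb, hpb, hpb0⟩ := Decomp.exists_ne_zero_mem hD.decomp.decomp b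
    obtain ⟨pc, hpc, hpc0⟩ := Decomp.exists_ne_zero_mem hD.decomp.decomp c
    obtain ⟨pd, hpd, hpd0⟩ := Decomp.exists_ne_zero_mem hD.decomp.decomp d
    obtain ⟨q, hq, hq0, -, haq⟩ := exists_other h0 hF2 hani hpa hpa0
    have o := fun {i j : Fin t} (hij : i ≠ j) {x y : ι → F} (hx : x ∈ D i) (hy : y ∈ D j) =>
      orth_apply_blocks hD hij hx hy
    have hv := fun {i : Fin t} {x : ι → F} (hx : x ∈ D i) (hx0 : x ≠ 0) =>
      value_mem h0 hF2 hani hx hx0
    have hQx : Q (pa + pb + pc) = 1 := by
      rw [QuadraticMap.map_add (⇑Q), QuadraticMap.map_add (⇑Q), polar_add_left, o hab hpa hpb,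
        o hac hpa hpc, o hbc hpb hpc, hv hpa hpa0, hv hpb hpb0, hv hpc hpc0]
      linear_combination h2
    have hm : rf Q (pa + pb + pc) * rf Q pd ∈ H := by
      rw [he]; exact rf_mul_rf_mem hQ (by omega) (by rw [hQx]; exact one_ne_zero)
        (hQx.trans (hv hpd hpd0).symm)
    obtain ⟨π, hπ⟩ := hm.1
    have hqmem : ap (rf Q (pa + pb + pc) * rf Q pd) q ∈ D (π a) := by
      rw [← hπ a]; exact ⟨q, hq, rfl⟩
    rw [ap_mul, ap_rf_one hF2 (hv hpd hpd0), o (Ne.symm hd.1) hq hpd, zero_smul, add_zero,
      ap_rf_one hF2 hQx, polar_add_right, polar_add_right, polar_comm Q q pa, haq,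
      o hab hq hpb, o hac hq hpc, add_zero, add_zero, one_smul] at hqmem
    have hb' := Decomp.comp_of_mem hD.decomp.decomp (i := b) hqmem
    have hc' := Decomp.comp_of_mem hD.decomp.decomp (i := c) hqmem
    simp only [map_add, Decomp.comp_of_mem hD.decomp.decomp hq,
      Decomp.comp_of_mem hD.decomp.decomp hpa, Decomp.comp_of_mem hD.decomp.decomp hpb,
      Decomp.comp_of_mem hD.decomp.decomp hpc, if_neg hab.symm, if_neg hbc, if_neg hac.symm,
      if_neg hbc.symm, if_true, zero_add, add_zero] at hb' hc'
    by_cases hπb : b = π a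
    · rw [if_neg (fun e => hbc.symm (e.trans hπb.symm))] at hc'
      exact hpc0 hc'
    · rw [if_neg hπb] at hb'
      exact hpb0 hb'
  by_cases hM : M ≤ Cfsg.Geo.decompositionStabilizer D
  · exact Or.inl (le_antisymm (le_inf hM hMS) hHM)
  refine Or.inr (le_antisymm hMS ?_)
  have hO : Over Q 2 D M := ⟨hQ, by omega, hD, le_rfl, hHM, hMS.trans omegaGL_le⟩
  obtain ⟨g, hgM, hg⟩ := SetLike.not_le_iff_exists.mp hM
  obtain ⟨l, p, hp, hp0, hs⟩ := exists_moved hO hF2 hani (hO.isom hgM) hg
  by_cases hall : ∀ x, Cls Q M D x → (supp hO x).card ≤ 1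
  · exact (false_of_moved hO hF2 hani hall hgM hp hp0 hs).elim
  push Not at hall
  obtain ⟨x, hx, hxs⟩ := hall
  exact omega_le_of_pairs hQ hn hF2 fun u v hu hv =>
    (cls_all hO hF2 hani (by omega) hx hxs hu).mul hO (cls_all hO hF2 hani (by omega) hx hxs hv)
      (hu.trans hv.symm)

end CfsgLib.Geometric.Orth.Blocks
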