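import Mathlib.NumberTheory.LegendreSymbol.QuadraticChar.Basic

/-!
Sums of quadratic characters and a selection lemma for the sets of values `e` such that the ratio
of the classes of `e` and `m - e` is the one of a plane without singular vectors.

For a non-zero `m` the set `valid m` consists of `m` and of the `e` other than `0` and `m` with
`χ e * χ (m - e) = -χ (-1)`. Among five such sets some two, three or four members sum to one with
product a square.
-/

set_option autoImplicit false
set_option linter.unusedSectionVars false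

namespace CfsgLib.Geometric.Orth.Blocks.CharSum

open Finset

variable {F : Type*} [Field F] [Fintype F] [DecidableEq F]

local notation "χ" => quadraticChar F

lemma char_mul_self {a : F} (ha : a ≠ 0) : χ a * χ a = 1 := by
  rw [← pow_two, quadraticChar_sq_one ha]

lemma sum_two (hF : ringChar F ≠ 2) {α β : F} (h : α ≠ β) :
    ∑ x : F, χ (x - α) * χ (x - β) = -1 := by
  have h0 : ∑ x : F, χ x * χ (x + (α - β)) = -1 := by
    set m := α - β with hm
    have hm0 : m ≠ 0 := sub_ne_zero.2 h
    have hbij : Function.Bijective fun x : F => 1 + m * x⁻¹ :=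
      ((Equiv.inv F).trans ((Equiv.mulLeft₀ m hm0).trans (Equiv.addLeft 1))).bijective
    have hall : ∑ x : F, χ (1 + m * x⁻¹) = 0 := by
      rw [hbij.sum_comp (fun y => χ y)]
      exact quadraticChar_sum_zero hF
    have h1 : ∀ x : F, χ x * χ (x + m) = χ (1 + m * x⁻¹) - if x = 0 then 1 else 0 := by
      intro x
      by_cases hx : x = 0
      · subst hx; simp
      · rw [if_neg hx, sub_zero, show x + m = x * (1 + m * x⁻¹) by field_simp, map_mul, ← mul_assoc,
          char_mul_self hx, one_mul]
    rw [Finset.sum_congr rfl fun x _ => h1 x, Finset.sum_sub_distrib, hall]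
    simp
  rw [← h0, ← (Equiv.subRight α).sum_comp (fun x => χ x * χ (x + (α - β)))]
  refine Finset.sum_congr rfl fun x _ => ?_
  simp only [Equiv.subRight_apply]
  congr 2
  ring

/-- The class ratio of a plane without singular vectors. -/
def sgn (F : Type*) [Field F] [Fintype F] [DecidableEq F] : ℤ := -quadraticChar F (-1)

lemma sgn_sq : sgn F * sgn F = 1 := by
  rw [sgn, neg_mul_neg, char_mul_self (neg_ne_zero.2 one_ne_zero)]

lemma sum_refl (hF : ringChar F ≠ 2) {m : F} (hm : m ≠ 0) :
    ∑ x : F, χ x * χ (m - x) = sgn F := by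
  have h : ∀ x : F, χ x * χ (m - x) = χ (-1) * (χ (x - 0) * χ (x - m)) := fun x => by
    rw [sub_zero, show m - x = -1 * (x - m) by ring, map_mul]; ring
  rw [Finset.sum_congr rfl fun x _ => h x, ← Finset.mul_sum, sum_two hF (Ne.symm hm), sgn]
  ring

/-- The valid values for `m`. -/
def valid (m : F) : Finset F :=
  univ.filter fun e => e ≠ 0 ∧ (e = m ∨ χ e * χ (m - e) = sgn F)

lemma mem_valid {m e : F} :
    e ∈ valid m ↔ e ≠ 0 ∧ (e = m ∨ χ e * χ (m - e) = sgn F) := by
  simp [valid]

lemma zero_notMem (m : F) : (0 : F) ∉ valid m := fun h => (mem_valid.1 h).1 rfl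

lemma self_mem {m : F} (hm : m ≠ 0) : m ∈ valid m := mem_valid.2 ⟨hm, Or.inl rfl⟩

lemma prod_of_mem {m e : F} (he : e ∈ valid m) (hne : e ≠ m) : χ e * χ (m - e) = sgn F :=
  (mem_valid.1 he).2.resolve_left hne

lemma pm_one {a : F} (ha : a ≠ 0) : χ a = 1 ∨ χ a = -1 := quadraticChar_dichotomy ha

lemma indicator (m : F) (hm : m ≠ 0) (e : F) :
    2 * (if e ∈ valid m then (1 : ℤ) else 0) =
      1 + sgn F * (χ e * χ (m - e)) + (if e = m then 1 else 0) - (if e = 0 then 1 else 0) := by
  by_cases he : e = 0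
  · subst he; simp [zero_notMem, Ne.symm hm]
  by_cases hem : e = m
  · subst hem; simp [self_mem hm, hm]
  have hs := sgn_sq (F := F)
  rw [if_neg he, if_neg hem, add_zero, sub_zero]
  have hme : m - e ≠ 0 := sub_ne_zero.2 (Ne.symm hem)
  by_cases hv : e ∈ valid m
  · rw [if_pos hv, prod_of_mem hv hem, hs]; ring
  · rw [if_neg hv]
    have hne : χ e * χ (m - e) ≠ sgn F := fun e' => hv (mem_valid.2 ⟨he, Or.inr e'⟩)
    rcases pm_one he with h1 | h1 <;> rcases pm_one hme with h2 | h2 <;>
      rcases pm_one (neg_ne_zero.2 (one_ne_zero (α := F))) with h3 | h3 <;>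
      simp_all [sgn]

lemma two_mul_card (hF : ringChar F ≠ 2) {m : F} (hm : m ≠ 0) :
    2 * (valid m).card = Fintype.card F + 1 := by
  have h : ∑ e : F, 2 * (if e ∈ valid m then (1 : ℤ) else 0) = (Fintype.card F : ℤ) + 1 := by
    rw [Finset.sum_congr rfl fun e _ => indicator m hm e, Finset.sum_sub_distrib,
      Finset.sum_add_distrib, Finset.sum_add_distrib, ← Finset.mul_sum, sum_refl hF hm, sgn_sq]
    simp
  rw [← Finset.mul_sum, Finset.sum_boole, Finset.filter_mem_eq_inter, Finset.univ_inter] at h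
  exact_mod_cast h

lemma exists_sum (hF : ringChar F ≠ 2) {m m' : F} (hm : m ≠ 0) (hm' : m' ≠ 0) (T : F) :
    ∃ a ∈ valid m, T - a ∈ valid m' := by
  by_contra! hall
  have hd : Disjoint (valid m) ((valid m').image (T - ·)) := by
    rw [Finset.disjoint_left]
    intro a ha hb
    obtain ⟨b, hb, rfl⟩ := Finset.mem_image.1 hb
    exact hall _ ha (by simpa using hb)
  have h1 := Finset.card_le_univ (valid m ∪ (valid m').image (T - ·))
  rw [Finset.card_union_of_disjoint hd,
    Finset.card_image_of_injective _ fun a b hab => by simpa using hab] at h1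
  have := two_mul_card hF hm
  have := two_mul_card hF hm'
  omega

/-- Twice the signed indicator, as a combination of characters. -/
def gch (m e : F) : ℤ := χ e + sgn F * χ (m - e)

/-- The signed indicator. -/
def hch (m e : F) : ℤ := if e ∈ valid m then χ e else 0

lemma two_mul_hch {m : F} (hm : m ≠ 0) (e : F) :
    2 * hch m e =
      gch m e + χ m * ((if e = m then 1 else 0) - sgn F * (if e = 0 then 1 else 0)) := by
  unfold hch gch
  by_cases he : e = 0
  · subst he
    simp [zero_notMem, Ne.symm hm]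
    ring
  by_cases hem : e = m
  · subst hem
    simp [self_mem hm, hm]
    ring
  have hs := sgn_sq (F := F)
  have hme : m - e ≠ 0 := sub_ne_zero.2 (Ne.symm hem)
  rw [if_neg hem, if_neg he, mul_zero, sub_zero, mul_zero, add_zero]
  by_cases hv : e ∈ valid m
  · rw [if_pos hv]
    have := prod_of_mem hv hem
    rcases pm_one he with h1 | h1 <;> rcases pm_one hme with h2 | h2 <;> rw [h1, h2] at this ⊢ <;>
      rw [← this] <;> norm_num
  · rw [if_neg hv]
    have hne : χ e * χ (m - e) ≠ sgn F := fun e' => hv (mem_valid.2 ⟨he, Or.inr e'⟩)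
    rcases pm_one he with h1 | h1 <;> rcases pm_one hme with h2 | h2 <;>
      rcases pm_one (neg_ne_zero.2 (one_ne_zero (α := F))) with h3 | h3 <;>
      simp_all [sgn]

lemma two_mul_hch_of_ne {m e : F} (hm : m ≠ 0) (he : e ≠ 0) (hem : e ≠ m) :
    2 * hch m e = gch m e := by
  rw [two_mul_hch hm, if_neg he, if_neg hem]; ring

lemma sum_gch (hF : ringChar F ≠ 2) {m m' T : F} (h0 : T ≠ 0) (h1 : T ≠ m) (h2 : T ≠ m')
    (h3 : T ≠ m + m') : ∑ a : F, gch m a * gch m' (T - a) = 0 := by
  have e1 : ∑ a : F, χ a * χ (T - a) = sgn F := sum_refl hF h0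
  have e2 : ∑ a : F, χ a * χ (m' - (T - a)) = -1 := by
    rw [← sum_two hF (α := 0) (β := T - m') (Ne.symm (sub_ne_zero.2 h2))]
    refine Finset.sum_congr rfl fun a _ => ?_
    rw [sub_zero]; congr 2; ring
  have e3 : ∑ a : F, χ (m - a) * χ (T - a) = -1 := by
    rw [← sum_two hF (α := m) (β := T) (Ne.symm h1)]
    refine Finset.sum_congr rfl fun a _ => ?_
    rw [show m - a = -1 * (a - m) by ring, show T - a = -1 * (a - T) by ring, map_mul, map_mul]
    linear_combination (χ (a - m) * χ (a - T)) *
      char_mul_self (neg_ne_zero.2 (one_ne_zero (α := F)))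
  have e4 : ∑ a : F, χ (m - a) * χ (m' - (T - a)) = sgn F := by
    have h : ∀ a : F, χ (m - a) * χ (m' - (T - a)) =
        χ (-1) * (χ (a - m) * χ (a - (T - m'))) := fun a => by
      rw [show m - a = -1 * (a - m) by ring, map_mul,
        show m' - (T - a) = a - (T - m') by ring]; ring
    rw [Finset.sum_congr rfl fun a _ => h a, ← Finset.mul_sum,
      sum_two hF (fun e => h3 (by linear_combination -e)), sgn]
    ring
  have hx : ∀ a : F, gch m a * gch m' (T - a) = χ a * χ (T - a) +
      sgn F * (χ a * χ (m' - (T - a))) + sgn F * (χ (m - a) * χ (T - a)) +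
      sgn F * sgn F * (χ (m - a) * χ (m' - (T - a))) := fun a => by unfold gch; ring
  rw [Finset.sum_congr rfl fun a _ => hx a]
  simp only [Finset.sum_add_distrib, ← Finset.mul_sum, e1, e2, e3, e4, sgn_sq]
  ring

/-- The exact signed number of representations. -/
lemma four_sum (hF : ringChar F ≠ 2) {m m' T : F} (hm : m ≠ 0) (hm' : m' ≠ 0) (h0 : T ≠ 0)
    (h1 : T ≠ m) (h2 : T ≠ m') (h3 : T ≠ m + m') :
    2 * ∑ a : F, hch m a * hch m' (T - a) =
      χ m * (hch m' (T - m) - sgn F * hch m' T) + χ m' * (hch m (T - m') - sgn F * hch m T) := by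
  have hx : ∀ a : F, 2 * hch m a * (2 * hch m' (T - a)) = gch m a * gch m' (T - a) +
      χ m * ((if a = m then gch m' (T - a) else 0) -
        sgn F * (if a = 0 then gch m' (T - a) else 0)) +
      χ m' * ((if a = T - m' then gch m a else 0) - sgn F * (if a = T then gch m a else 0)) := by
    intro a
    rw [two_mul_hch hm, two_mul_hch hm']
    have i1 : (T - a = m') ↔ a = T - m' :=
      ⟨fun e => by linear_combination -e, fun e => by linear_combination -e⟩
    have i2 : (T - a = 0) ↔ a = T := ⟨fun e => (sub_eq_zero.1 e).symm, fun e => by simp [e]⟩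
    simp only [i1, i2]
    by_cases ha : a = m
    · subst ha
      simp [Ne.symm h1, show a ≠ T - m' from fun e => h3 (by linear_combination -e), hm]
      ring
    by_cases ha0 : a = 0
    · subst ha0
      simp [Ne.symm h0, Ne.symm hm, show (0 : F) ≠ T - m' from fun e => h2 (by linear_combination -e)]
      ring
    simp only [if_neg ha, if_neg ha0]
    split_ifs <;> ring
  have h := Finset.sum_congr rfl (s₁ := (univ : Finset F)) (fun a _ => hx a)
  simp only [Finset.sum_add_distrib, ← Finset.mul_sum, Finset.sum_sub_distrib,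
    Finset.sum_ite_eq', Finset.mem_univ, if_true, sum_gch hF h0 h1 h2 h3, sub_zero] at h
  rw [← two_mul_hch_of_ne hm' (sub_ne_zero.2 h1) (fun e => h3 (by linear_combination e)),
    ← two_mul_hch_of_ne hm' h0 h2,
    ← two_mul_hch_of_ne hm (sub_ne_zero.2 h2) (fun e => h3 (by linear_combination e)),
    ← two_mul_hch_of_ne hm h0 h1] at h
  have h4 : ∑ a : F, 2 * hch m a * (2 * hch m' (T - a)) =
      4 * ∑ a : F, hch m a * hch m' (T - a) := by
    rw [Finset.mul_sum]; exact Finset.sum_congr rfl fun a _ => by ring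
  rw [h4] at h
  linarith

/-- The representations of `T`. -/
def reps (m m' T : F) : Finset F := univ.filter fun a => a ∈ valid m ∧ T - a ∈ valid m'

lemma mem_reps {m m' T a : F} : a ∈ reps m m' T ↔ a ∈ valid m ∧ T - a ∈ valid m' := by
  simp [reps]

lemma sum_card_reps (m m' : F) :
    ∑ T : F, (reps m m' T).card = (valid m).card * (valid m').card := by
  have h : ∀ T : F, (reps m m' T).card =
      ∑ a ∈ valid m, if T - a ∈ valid m' then 1 else 0 := fun T => by
    rw [← Finset.card_filter, reps]
    congr 1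
    ext a; simp
  rw [Finset.sum_congr rfl fun T _ => h T, Finset.sum_comm]
  have h' : ∀ a ∈ valid m, (∑ T : F, if T - a ∈ valid m' then 1 else 0) = (valid m').card := by
    intro a _
    rw [← Equiv.sum_comp (Equiv.addRight a) (fun T => if T - a ∈ valid m' then 1 else 0)]
    simp
  rw [Finset.sum_congr rfl h', Finset.sum_const, smul_eq_mul]

/-- All representations of `T` have products of the same class. -/
def Uniform (m m' T : F) : Prop :=
  ∀ a ∈ reps m m' T, ∀ b ∈ reps m m' T, χ (a * (T - a)) = χ (b * (T - b))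

lemma natAbs_hch (m e : F) : (hch m e).natAbs ≤ if e ∈ valid m then 1 else 0 := by
  unfold hch
  split_ifs with h
  · rcases pm_one (mem_valid.1 h).1 with h' | h' <;> simp [h']
  · simp

lemma uniform_bound (hF : ringChar F ≠ 2) {m m' T : F} (hm : m ≠ 0) (hm' : m' ≠ 0) (h0 : T ≠ 0)
    (h1 : T ≠ m) (h2 : T ≠ m') (h3 : T ≠ m + m') (hu : Uniform m m' T) :
    2 * (reps m m' T).card ≤
      (if T - m ∈ valid m' then 1 else 0) + (if T ∈ valid m' then 1 else 0) +
        ((if T - m' ∈ valid m then 1 else 0) + (if T ∈ valid m then 1 else 0)) := by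
  have hS : ∑ a : F, hch m a * hch m' (T - a) = ∑ a ∈ reps m m' T, χ (a * (T - a)) := by
    rw [reps, Finset.sum_filter]
    refine Finset.sum_congr rfl fun a _ => ?_
    unfold hch
    split_ifs <;> simp_all [quadraticCharFun_mul]
  have hn : (∑ a ∈ reps m m' T, χ (a * (T - a))).natAbs = (reps m m' T).card := by
    rcases (reps m m' T).eq_empty_or_nonempty with h | ⟨a, ha⟩
    · simp [h]
    rw [Finset.sum_congr rfl fun b hb => hu b hb a ha, Finset.sum_const, nsmul_eq_mul,
      Int.natAbs_mul, Int.natAbs_natCast]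
    obtain ⟨ha1, ha2⟩ := mem_reps.1 ha
    rcases pm_one (mul_ne_zero (mem_valid.1 ha1).1 (mem_valid.1 ha2).1) with h | h <;> simp [h]
  have h4 := four_sum hF hm hm' h0 h1 h2 h3
  rw [hS] at h4
  have key : ∀ (a : F), a ≠ 0 → ∀ x y : ℤ,
      (χ a * (x - sgn F * y)).natAbs ≤ x.natAbs + y.natAbs := fun a ha x y => by
    have hs : sgn F = 1 ∨ sgn F = -1 := by
      rcases pm_one (neg_ne_zero.2 (one_ne_zero (α := F))) with h | h <;> simp [sgn, h]
    rcases pm_one ha with h | h <;> rcases hs with h' | h' <;> rw [h, h'] <;> omega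
  have k1 := key m hm (hch m' (T - m)) (hch m' T)
  have k2 := key m' hm' (hch m (T - m')) (hch m T)
  have k3 := Int.natAbs_add_le (χ m * (hch m' (T - m) - sgn F * hch m' T))
    (χ m' * (hch m (T - m') - sgn F * hch m T))
  have k4 := natAbs_hch m' (T - m)
  have k5 := natAbs_hch m' T
  have k6 := natAbs_hch m (T - m')
  have k7 := natAbs_hch m T
  rw [← h4, Int.natAbs_mul, hn] at k3
  simp only [show (2 : ℤ).natAbs = 2 from rfl] at k3
  omega

/-- Not all targets outside four exceptions are uniform, if there are enough valid values. -/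
lemma exists_both (hF : ringChar F ≠ 2) {m m' : F} (hm : m ≠ 0) (hm' : m' ≠ 0)
    (hbig : 11 ≤ Fintype.card F ∨ (Fintype.card F = 9 ∧ m = m')) :
    ∃ T, ¬ Uniform m m' T := by
  by_contra! hu
  set N := (valid m).card with hN
  have hc := two_mul_card hF hm
  have hc' := two_mul_card hF hm'
  have hN' : (valid m').card = N := by omega
  set E : Finset F := {0, m, m', m + m'} with hE
  have hout : ∀ T ∈ univ \ E, T ≠ 0 ∧ T ≠ m ∧ T ≠ m' ∧ T ≠ m + m' := by
    intro T hT
    simpa [hE] using hT
  have hb : 2 * ∑ T ∈ univ \ E, (reps m m' T).card ≤ 4 * (N - 1) := by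
    rw [Finset.mul_sum]
    refine (Finset.sum_le_sum fun T hT => uniform_bound hF hm hm' (hout T hT).1 (hout T hT).2.1
      (hout T hT).2.2.1 (hout T hT).2.2.2 (hu T)).trans ?_
    simp only [Finset.sum_add_distrib, ← Finset.card_filter]
    have hle : ∀ (v : F → Prop) [DecidablePred v] (n n' : F) (c : F), n' ≠ 0 →
        (valid n').card = N → (∀ T ∈ univ \ E, v T → T - c ∈ valid n' ∧ T - c ≠ n') →
        ((univ \ E).filter v).card ≤ N - 1 := by
      intro v _ n n' c hn' hcard hv
      rw [← hcard, ← Finset.card_erase_of_mem (self_mem hn')]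
      refine Finset.card_le_card_of_injOn (· - c) (fun T hT => ?_) fun a _ b _ hab => by
        simpa using hab
      rw [Finset.coe_filter] at hT
      simp only [Finset.coe_erase, Set.mem_diff, Finset.mem_coe, Set.mem_singleton_iff]
      exact hv T hT.1 hT.2
    have b1 := hle (fun T => T - m ∈ valid m') m m' m hm' hN' fun T hT hv =>
      ⟨hv, fun e => (hout T hT).2.2.2 (by linear_combination e)⟩
    have b2 := hle (fun T => T ∈ valid m') m m' 0 hm' hN' fun T hT hv =>
      ⟨by simpa using hv, by simpa using (hout T hT).2.2.1⟩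
    have b3 := hle (fun T => T - m' ∈ valid m) m' m m' hm rfl fun T hT hv =>
      ⟨hv, fun e => (hout T hT).2.2.2 (by linear_combination e)⟩
    have b4 := hle (fun T => T ∈ valid m) m' m 0 hm rfl fun T hT hv =>
      ⟨by simpa using hv, by simpa using (hout T hT).2.1⟩
    omega
  have h0 : (reps m m' 0).card ≤ N := Finset.card_le_card fun a ha => (mem_reps.1 ha).1
  have h3 : (reps m m' (m + m')).card ≤ N := Finset.card_le_card fun a ha => (mem_reps.1 ha).1
  have h1 : (reps m m' m).card ≤ N - 1 := by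
    rw [hN, ← Finset.card_erase_of_mem (self_mem hm)]
    refine Finset.card_le_card fun a ha => Finset.mem_erase.2 ⟨fun e => ?_, (mem_reps.1 ha).1⟩
    exact zero_notMem m' (by simpa [e] using (mem_reps.1 ha).2)
  have h2 : (reps m m' m').card ≤ N - 1 := by
    rw [← hN', ← Finset.card_erase_of_mem (self_mem hm')]
    refine Finset.card_le_card_of_injOn (m' - ·) (fun a ha => ?_) fun a _ b _ hab => by
      simpa using hab
    obtain ⟨ha1, ha2⟩ := mem_reps.1 ha
    simp only [Finset.coe_erase, Set.mem_diff, Finset.mem_coe, Set.mem_singleton_iff]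
    exact ⟨ha2, fun e => (mem_valid.1 ha1).1 (by linear_combination -e)⟩
  have hsum := sum_card_reps m m'
  rw [← Finset.sum_sdiff (Finset.subset_univ E), hN', ← hN] at hsum
  have hins : ∀ (a : F) (s : Finset F), ∑ T ∈ insert a s, (reps m m' T).card ≤
      (reps m m' a).card + ∑ T ∈ s, (reps m m' T).card := fun a s => by
    by_cases h : a ∈ s
    · rw [Finset.insert_eq_of_mem h]; omega
    · rw [Finset.sum_insert h]
  rcases hbig with hq | ⟨hq, rfl⟩
  · have hEsum : ∑ T ∈ E, (reps m m' T).card ≤ (reps m m' 0).card + ((reps m m' m).card +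
        ((reps m m' m').card + (reps m m' (m + m')).card)) := by
      refine (hins _ _).trans (Nat.add_le_add_left ((hins _ _).trans
        (Nat.add_le_add_left ((hins _ _).trans ?_) _)) _)
      rw [Finset.sum_singleton]
    have h6 : 6 ≤ N := by omega
    have := Nat.mul_le_mul_right N h6
    omega
  · have hE' : E = {0, m, m + m} := by rw [hE]; ext; simp
    have hEsum : ∑ T ∈ E, (reps m m T).card ≤ (reps m m 0).card +
        ((reps m m m).card + (reps m m (m + m)).card) := by
      rw [hE']
      refine (hins _ _).trans (Nat.add_le_add_left ((hins _ _).trans ?_) _)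
      rw [Finset.sum_singleton]
    have h5 : N = 5 := by omega
    simp only [h5] at hsum h0 h1 h3 hb
    omega

lemma exists_signed (hF : ringChar F ≠ 2) {m m' : F} (hm : m ≠ 0) (hm' : m' ≠ 0) {n n' : F}
    (hn : n ≠ 0) (hn' : n' ≠ 0) (hT : ∃ T, ¬ Uniform m m' T) :
    ∃ a ∈ valid m, ∃ b ∈ valid m', ∃ a' ∈ valid n, ∃ b' ∈ valid n',
      a + b + a' + b' = 1 ∧ χ (a * b * a' * b') = 1 := by
  obtain ⟨T, hT⟩ := hT
  unfold Uniform at hT
  push Not at hT
  obtain ⟨a, ha, b, hb, hne⟩ := hT
  obtain ⟨c, hc, hd⟩ := exists_sum hF hn hn' (1 - T)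
  obtain ⟨ha1, ha2⟩ := mem_reps.1 ha
  obtain ⟨hb1, hb2⟩ := mem_reps.1 hb
  have ha0 := mul_ne_zero (mem_valid.1 ha1).1 (mem_valid.1 ha2).1
  have hb0 := mul_ne_zero (mem_valid.1 hb1).1 (mem_valid.1 hb2).1
  have hc0 := mul_ne_zero (mem_valid.1 hc).1 (mem_valid.1 hd).1
  by_cases hs : χ (a * (T - a)) = χ (c * (1 - T - c))
  · refine ⟨a, ha1, T - a, ha2, c, hc, 1 - T - c, hd, by ring, ?_⟩
    rw [show a * (T - a) * c * (1 - T - c) = a * (T - a) * (c * (1 - T - c)) by ring, map_mul, hs,
      char_mul_self hc0]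
  · refine ⟨b, hb1, T - b, hb2, c, hc, 1 - T - c, hd, by ring, ?_⟩
    have hbc : χ (b * (T - b)) = χ (c * (1 - T - c)) := by
      rcases pm_one ha0 with h | h <;> rcases pm_one hb0 with h' | h' <;>
        rcases pm_one hc0 with h'' | h'' <;> simp_all
    rw [show b * (T - b) * c * (1 - T - c) = b * (T - b) * (c * (1 - T - c)) by ring, map_mul, hbc,
      char_mul_self hc0]

variable {α : Type*} [Fintype α]

/-- Some two, three or four of five valid sets have members with sum one and square product. -/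
theorem exists_moves (hF : ringChar F ≠ 2) (hα : 5 ≤ Fintype.card α) (m : α → F)
    (hm : ∀ i, m i ≠ 0) :
    (∃ i j, i ≠ j ∧ ∃ a ∈ valid (m i), ∃ b ∈ valid (m j), a + b = 1 ∧ χ (a * b) = 1) ∨
    (∃ i j r, i ≠ j ∧ i ≠ r ∧ j ≠ r ∧ ∃ a ∈ valid (m i), ∃ b ∈ valid (m j), ∃ e ∈ valid (m r),
      a + b + e = 1 ∧ χ (a * b * e) = 1) ∨
    (∃ i j r s, i ≠ j ∧ i ≠ r ∧ i ≠ s ∧ j ≠ r ∧ j ≠ s ∧ r ≠ s ∧ ∃ a ∈ valid (m i),
      ∃ b ∈ valid (m j), ∃ a' ∈ valid (m r), ∃ b' ∈ valid (m s),
      a + b + a' + b' = 1 ∧ χ (a * b * a' * b') = 1) := by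
  classical
  have four : ∀ i j : α, i ≠ j → ∃ r s, i ≠ r ∧ i ≠ s ∧ j ≠ r ∧ j ≠ s ∧ r ≠ s := fun i j _ => by
    have h1 : 1 < ((univ : Finset α) \ {i, j}).card := by
      rw [Finset.card_sdiff_of_subset (Finset.subset_univ _), Finset.card_univ]
      have := Finset.card_le_two (a := i) (b := j)
      omega
    obtain ⟨r, hr, s, hs, hrs⟩ := Finset.one_lt_card.1 h1
    simp only [Finset.mem_sdiff, Finset.mem_univ, true_and, Finset.mem_insert,
      Finset.mem_singleton, not_or] at hr hs
    exact ⟨r, s, Ne.symm hr.1, Ne.symm hs.1, Ne.symm hr.2, Ne.symm hs.2, hrs⟩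
  obtain ⟨i₀, j₀, hij₀⟩ := Fintype.exists_pair_of_one_lt_card (show 1 < Fintype.card α by omega)
  rcases pm_one (neg_ne_zero.2 (one_ne_zero (α := F))) with h1 | h1
  swap
  · -- minus one is not a square
    obtain ⟨r, s, hir, his, hjr, hjs, hrs⟩ := four i₀ j₀ hij₀
    obtain ⟨a, ha, hb⟩ := exists_sum hF (hm r) (hm s) 1
    have hab0 := mul_ne_zero (mem_valid.1 ha).1 (mem_valid.1 hb).1
    rcases pm_one hab0 with hp | hp
    · exact Or.inl ⟨r, s, hrs, a, ha, 1 - a, hb, by ring, hp⟩
    obtain ⟨e, he, hf⟩ := exists_sum hF (hm i₀) (hm j₀) 0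
    refine Or.inr (Or.inr ⟨i₀, j₀, r, s, hij₀, hir, his, hjr, hjs, hrs, e, he, 0 - e, hf, a, ha,
      1 - a, hb, by ring, ?_⟩)
    rw [show e * (0 - e) * a * (1 - a) = -1 * (e * e) * (a * (1 - a)) by ring, map_mul, map_mul,
      map_mul, h1, hp, char_mul_self (mem_valid.1 he).1]
    norm_num
  have hsgn : sgn F = -1 := by rw [sgn, h1]
  by_cases hsq : ∃ i, χ (m i) = 1
  · -- a component of square class
    obtain ⟨i, hi⟩ := hsq
    obtain ⟨j, hji⟩ := Fintype.exists_ne_of_one_lt_card (show 1 < Fintype.card α by omega) i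
    obtain ⟨r, s, hir, his, hjr, hjs, hrs⟩ := four i j hji.symm
    obtain ⟨a, ha, hb⟩ := exists_sum hF (hm r) (hm s) (1 - m i)
    have hab0 := mul_ne_zero (mem_valid.1 ha).1 (mem_valid.1 hb).1
    rcases pm_one hab0 with hp | hp
    · refine Or.inr (Or.inl ⟨i, r, s, hir, his, hrs, m i, self_mem (hm i), a, ha, 1 - m i - a, hb,
        by ring, ?_⟩)
      rw [show m i * a * (1 - m i - a) = m i * (a * (1 - m i - a)) by ring, map_mul, hi, hp]
      norm_num
    obtain ⟨e, he, hf⟩ := exists_sum hF (hm i) (hm j) (m i)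
    have hne : e ≠ m i := fun e' => (mem_valid.1 hf).1 (by rw [e', sub_self])
    refine Or.inr (Or.inr ⟨i, j, r, s, hji.symm, hir, his, hjr, hjs, hrs, e, he, m i - e, hf, a,
      ha, 1 - m i - a, hb, by ring, ?_⟩)
    rw [show e * (m i - e) * a * (1 - m i - a) = (e * (m i - e)) * (a * (1 - m i - a)) by ring,
      map_mul, map_mul, prod_of_mem he hne, hp, hsgn]
    norm_num
  push Not at hsq
  have hns : ∀ i, χ (m i) = -1 := fun i => (pm_one (hm i)).resolve_left (hsq i)
  have hodd : Fintype.card F % 2 = 1 := FiniteField.odd_card_of_char_ne_two hF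
  have h4 : Fintype.card F % 4 ≠ 3 := FiniteField.isSquare_neg_one_iff.1
    ((quadraticChar_one_iff_isSquare (neg_ne_zero.2 one_ne_zero)).1 h1)
  have hne3 : Fintype.card F ≠ 1 := fun h => by
    have := Fintype.one_lt_card (α := F); omega
  by_cases hbig : 11 ≤ Fintype.card F
  · obtain ⟨r, s, hir, his, hjr, hjs, hrs⟩ := four i₀ j₀ hij₀
    exact Or.inr (Or.inr ⟨i₀, j₀, r, s, hij₀, hir, his, hjr, hjs, hrs,
      exists_signed hF (hm i₀) (hm j₀) (hm r) (hm s)
        (exists_both hF (hm i₀) (hm j₀) (Or.inl hbig))⟩)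
  obtain hq | hq : Fintype.card F = 5 ∨ Fintype.card F = 9 := by omega
  · -- five elements: one half is valid everywhere
    have h5 : (5 : F) = 0 := by
      have := Nat.cast_card_eq_zero F
      rw [hq] at this
      exact_mod_cast this
    have hch : ∀ a : F, a ≠ 0 → a * a = -1 → χ a = -1 := fun a ha hsq' => by
      refine (pm_one ha).resolve_left fun h => ?_
      have := quadraticChar_eq_pow_of_char_ne_two' hF a
      rw [h, hq] at this
      push_cast at this
      have h2 : (1 : F) = -1 := by linear_combination this + hsq'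
      exact Ring.neg_one_ne_one_of_char_ne_two hF h2.symm
    have hmv : ∀ i, (3 : F) ∈ valid (m i) := fun i => by
      have h30 : (3 : F) ≠ 0 := fun h => one_ne_zero (α := F)
        (by linear_combination 2 * h - h5)
      have hsq' := quadraticChar_eq_pow_of_char_ne_two' hF (m i)
      rw [hns i, hq] at hsq'
      push_cast at hsq'
      refine mem_valid.2 ⟨h30, ?_⟩
      rcases mul_eq_zero.1 (show (m i - 2) * (m i - 3) = 0 by
        linear_combination -hsq' + (1 - m i) * h5) with h | h
      · right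
        rw [show m i - 3 = -1 by linear_combination h, h1,
          hch 3 h30 (by linear_combination 2 * h5), hsgn]
        norm_num
      · exact Or.inl (sub_eq_zero.1 h).symm
    refine Or.inl ⟨i₀, j₀, hij₀, 3, hmv _, 3, hmv _, by linear_combination h5, ?_⟩
    rw [map_mul, char_mul_self (mem_valid.1 (hmv i₀)).1]
  · -- nine elements: two of the components have the same value
    have hcard : (univ.filter fun e : F => χ e = -1).card = 4 := by
      have hs := quadraticChar_sum_zero hF
      have h' : ∀ e : F, χ e =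
          1 - 2 * (if χ e = -1 then 1 else 0) - (if e = 0 then 1 else 0) := fun e => by
        by_cases he : e = 0
        · subst he; simp
        · rcases pm_one he with h | h <;> simp [h, he]
      rw [Finset.sum_congr rfl fun e _ => h' e] at hs
      simp only [Finset.sum_sub_distrib, ← Finset.mul_sum, Finset.sum_boole, Finset.sum_ite_eq',
        Finset.filter_eq', Finset.mem_univ, if_true, Finset.sum_const, Finset.card_univ, hq,
        Finset.card_singleton, nsmul_eq_mul] at hs
      push_cast at hs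
      omega
    obtain ⟨i, -, j, -, hij, hmij⟩ := Finset.exists_ne_map_eq_of_card_lt_of_maps_to
      (s := (univ : Finset α)) (t := univ.filter fun e : F => χ e = -1)
      (by rw [hcard, Finset.card_univ]; omega) (f := m) (fun a _ => Finset.mem_coe.2 (Finset.mem_filter.2 ⟨Finset.mem_univ _, hns a⟩))
    obtain ⟨r, s, hir, his, hjr, hjs, hrs⟩ := four i j hij
    exact Or.inr (Or.inr ⟨i, j, r, s, hij, hir, his, hjr, hjs, hrs,
      exists_signed hF (hm i) (hm j) (hm r) (hm s)
        (exists_both hF (hm i) (hm j) (Or.inr ⟨hq, hmij⟩))⟩)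

end CfsgLib.Geometric.Orth.Blocks.CharSum
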