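import Cfsg.Agent.Lib.Geometric.Orth.Blocks.Plane

/-!
In the space spanned by a plane and a vector orthogonal to it, one linked vector meeting both
makes every vector of its value linked, provided the plane rotations preserve linkage.
-/

namespace CfsgLib.Geometric.Orth.Blocks

open Matrix QuadraticMap CfsgLib.ClassicalForms

variable {ι : Type} [Fintype ι] [DecidableEq ι] {F : Type*} [Field F]
variable {Q : QuadraticForm F (ι → F)} {t k : ℕ} {D : Fin t → Submodule F (ι → F)}
variable {M : Subgroup (GL ι F)} {P : Submodule F (ι → F)}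

/-- A plane, a vector orthogonal to it and a linked vector `u + v` meeting both. -/
structure Base (Q : QuadraticForm F (ι → F)) (M : Subgroup (GL ι F))
    (D : Fin t → Submodule F (ι → F)) (P : Submodule F (ι → F)) (u v : ι → F) (c : F) : Prop where
  plane : IsPlane Q P
  perp : ∀ p ∈ P, polar Q p v = 0
  mem : u ∈ P
  ne_u : u ≠ 0
  ne_v : Q v ≠ 0
  ne_c : c ≠ 0
  value : Q u + Q v = c
  linked : Cls Q M D (u + v)
  turn : ∀ p ∈ P, ∀ p' ∈ P, ∀ β : F, p ≠ 0 → p' ≠ 0 → Q p = Q p' →
    Q p + β * β * Q v = c → Cls Q M D (p + β • v) → Cls Q M D (p' + β • v)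

variable {u v : ι → F} {c : F} (hb : Base Q M D P u v c)
include hb

lemma Base.value' {p : ι → F} (hp : p ∈ P) (β : F) :
    Q (p + β • v) = Q p + β * β * Q v := by
  rw [QuadraticMap.map_add (⇑Q), QuadraticMap.map_smul, polar_smul_right, hb.perp p hp,
    smul_eq_mul, smul_eq_mul, mul_zero, add_zero]

/-- `β` is reached: some vector with coordinate `β` at `v` and a part in the plane is linked. -/
def Reached (Q : QuadraticForm F (ι → F)) (M : Subgroup (GL ι F))
    (D : Fin t → Submodule F (ι → F)) (P : Submodule F (ι → F)) (v : ι → F) (c β : F) : Prop :=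
  ∃ p ∈ P, p ≠ 0 ∧ Q p + β * β * Q v = c ∧ Cls Q M D (p + β • v)

lemma Base.use {β : F} (hr : Reached Q M D P v c β) {p : ι → F} (hp : p ∈ P) (hp0 : p ≠ 0)
    (hQ : Q p + β * β * Q v = c) : Cls Q M D (p + β • v) := by
  obtain ⟨p', hp', hp'0, hQ', hl⟩ := hr
  exact hb.turn p' hp' p hp β hp'0 hp0 (by linear_combination hQ' - hQ) hQ' hl

lemma Base.one : Reached Q M D P v c 1 :=
  ⟨u, hb.mem, hb.ne_u, by rw [one_mul, one_mul]; exact hb.value, by rw [one_smul]; exact hb.linked⟩

lemma Base.reached_neg {β : F} (hr : Reached Q M D P v c β) : Reached Q M D P v c (-β) := by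
  obtain ⟨p, hp, hp0, hQ, hl⟩ := hr
  refine ⟨-p, P.neg_mem hp, neg_ne_zero.2 hp0, by rw [QuadraticMap.map_neg]; linear_combination hQ,
    ?_⟩
  rw [neg_smul, ← neg_add]
  exact hl.neg

omit [Fintype ι] [DecidableEq ι] hb in
lemma smul_sub_smul (p u v : ι → F) (β l : F) :
    p + β • v - l • (u + v) = (p - l • u) + (β - l) • v := by module

/-- The reflection along `u + v`. -/
lemma Base.image {p : ι → F} (hp : p ∈ P) (β : F) :
    ap (rf Q (u + v)) (p + β • v) =
      (p - (c⁻¹ * (polar Q u p + 2 * β * Q v)) • u) +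
        (β - c⁻¹ * (polar Q u p + 2 * β * Q v)) • v := by
  have hQ : Q (u + v) = c := by
    have := hb.value' hb.mem 1
    rw [one_smul, one_mul, one_mul, hb.value] at this
    exact this
  have hB : polar Q (p + β • v) (u + v) = polar Q u p + 2 * β * Q v := by
    rw [polar_add_left, polar_add_right, polar_add_right, polar_smul_left, polar_smul_left,
      hb.perp p hp, polar_comm Q v u, hb.perp u hb.mem, polar_self_mul, polar_comm Q p u,
      smul_eq_mul, smul_eq_mul]
    ring
  rw [ap_rf, hQ, hB, smul_sub_smul]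

variable [Finite F] (h : Over Q k D M)
include h

lemma Base.linked_iff {p : ι → F} (hp : p ∈ P) {β : F} (hQ : Q p + β * β * Q v = c)
    (hl : Cls Q M D (ap (rf Q (u + v)) (p + β • v))) : Cls Q M D (p + β • v) := by
  have h1 : Q (ap (rf Q (u + v)) (p + β • v)) = c := by
    rw [mem_isometryGroup_iff.mp (rf_mem_isom _), hb.value' hp, hQ]
  have h2 := Cls.reflect h hl hb.linked (s := 1) (by
    rw [h1, one_mul, one_mul]
    have := hb.value' hb.mem 1
    rwa [one_smul, one_mul, one_mul, hb.value] at this)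
  rwa [← ap_mul, Frame.rf_mul_self, ap_one] at h2

/-- From a reached coordinate to the coordinate of its mirror image. -/
lemma Base.forward {β : F} (hr : Reached Q M D P v c β) {p : ι → F} (hp : p ∈ P) (hp0 : p ≠ 0)
    (hQ : Q p + β * β * Q v = c) (hne : p - (c⁻¹ * (polar Q u p + 2 * β * Q v)) • u ≠ 0) :
    Reached Q M D P v c (β - c⁻¹ * (polar Q u p + 2 * β * Q v)) := by
  have hl := Cls.reflect h (hb.use hr hp hp0 hQ) hb.linked (s := 1) (by
    rw [hb.value' hp, hQ, one_mul, one_mul]
    have := hb.value' hb.mem 1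
    rwa [one_smul, one_mul, one_mul, hb.value] at this)
  rw [hb.image hp] at hl
  refine ⟨_, P.sub_mem hp (P.smul_mem _ hb.mem), hne, ?_, hl⟩
  rw [← hb.value' (P.sub_mem hp (P.smul_mem _ hb.mem)), ← hb.image hp,
    mem_isometryGroup_iff.mp (rf_mem_isom _), hb.value' hp, hQ]

/-- From a coordinate to one whose mirror image is reached. -/
lemma Base.backward {p : ι → F} (hp : p ∈ P) (hp0 : p ≠ 0) {β : F}
    (hQ : Q p + β * β * Q v = c)
    (hr : Reached Q M D P v c (β - c⁻¹ * (polar Q u p + 2 * β * Q v)))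
    (hne : p - (c⁻¹ * (polar Q u p + 2 * β * Q v)) • u ≠ 0) :
    Reached Q M D P v c β := by
  refine ⟨p, hp, hp0, hQ, hb.linked_iff h hp hQ ?_⟩
  rw [hb.image hp]
  refine hb.use hr (P.sub_mem hp (P.smul_mem _ hb.mem)) hne ?_
  rw [← hb.value' (P.sub_mem hp (P.smul_mem _ hb.mem)), ← hb.image hp,
    mem_isometryGroup_iff.mp (rf_mem_isom _), hb.value' hp, hQ]

/-- A singular part in the plane reaches everything. -/
lemma Base.all_of_singular (hu : Q u = 0) {p : ι → F} (hp : p ∈ P) (hp0 : p ≠ 0) {β : F}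
    (hQ : Q p + β * β * Q v = c) : Cls Q M D (p + β • v) := by
  classical
  have hv : Q v = c := by rw [← hb.value, hu, zero_add]
  by_cases hQp : Q p = 0
  · rw [hQp, zero_add, hv] at hQ
    have hβ : β * β = 1 := mul_right_cancel₀ hb.ne_c (by rw [one_mul]; exact hQ)
    refine hb.use ?_ hp hp0 (by rw [hQp, zero_add, hv]; exact hQ)
    rcases mul_self_eq_one_iff.1 hβ with rfl | rfl
    · exact hb.one
    · exact hb.reached_neg hb.one
  obtain ⟨σ, hσ, hb0⟩ : ∃ σ : F, (σ = 1 ∨ σ = -1) ∧ c * (β - σ) - 2 * β * Q v ≠ 0 := by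
    by_contra! hall
    have e1 := hall 1 (Or.inl rfl)
    have e2 := hall (-1) (Or.inr rfl)
    have h2 : (2 : F) = 0 := (mul_eq_zero.1
      (show 2 * c = 0 by linear_combination e2 - e1)).resolve_right hb.ne_c
    have hβ : β = 1 := sub_eq_zero.1 ((mul_eq_zero.1 (show c * (β - 1) = 0 by
      linear_combination e1 + (β * Q v) * h2)).resolve_left hb.ne_c)
    subst hβ
    exact hQp (by linear_combination hQ - hv)
  set b := c * (β - σ) - 2 * β * Q v with hbdef
  obtain ⟨y, hy, huy, -⟩ := hb.plane.partner hb.mem hb.ne_u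
  set f := y - Q y • u with hf
  have hfP : f ∈ P := P.sub_mem hy (P.smul_mem _ hb.mem)
  have hQf : Q f = 0 := by
    rw [hf, CfsgLib.ClassicalForms.map_sub_eq, QuadraticMap.map_smul, polar_smul_right, hu,
      polar_comm Q y u, huy, smul_eq_mul, smul_eq_mul]
    ring
  have huf : polar Q u f = 1 := by
    rw [hf, polar_sub_right, polar_smul_right, polar_self_mul, hu, huy, smul_eq_mul]; ring
  set p' := (Q p / b) • u + b • f with hp'
  have hp'P : p' ∈ P := P.add_mem (P.smul_mem _ hb.mem) (P.smul_mem _ hfP)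
  have hQp' : Q p' = Q p := by
    rw [hp', QuadraticMap.map_add (⇑Q), QuadraticMap.map_smul, QuadraticMap.map_smul,
      polar_smul_left, polar_smul_right, hu, hQf, huf, smul_eq_mul, smul_eq_mul, smul_eq_mul,
      smul_eq_mul]
    field_simp
    ring
  have hpair : polar Q u p' = b := by
    rw [hp', polar_add_right, polar_smul_right, polar_smul_right, polar_self_mul, hu, huf,
      smul_eq_mul, smul_eq_mul]
    ring
  have hp'0 : p' ≠ 0 := fun e => hQp (by rw [← hQp', e, QuadraticMap.map_zero])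
  have hl : β - c⁻¹ * (polar Q u p' + 2 * β * Q v) = σ := by
    rw [hpair, hbdef]
    have := hb.ne_c
    field_simp
    ring
  refine hb.use (hb.backward h hp'P hp'0 (by rw [hQp', hQ]) ?_ ?_) hp hp0 hQ
  · rw [hl]
    rcases hσ with rfl | rfl
    · exact hb.one
    · exact hb.reached_neg hb.one
  · intro e
    have := congrArg (polar Q u) e
    rw [polar_sub_right, polar_smul_right, hpair, polar_self_mul, hu,
      show polar Q u (0 : ι → F) = 0 by simp [polar]] at this
    simp at this
    exact hb0 (by linear_combination this)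

omit [Finite F] h in
/-- Changing the base vector. -/
lemma Base.rebase {β : F} {p : ι → F} (hp : p ∈ P) (hp0 : p ≠ 0) (hβ : β ≠ 0)
    (hQ : Q p + β * β * Q v = c) (hr : Cls Q M D (p + β • v)) :
    Base Q M D P p (β • v) c where
  plane := hb.plane
  perp x hx := by rw [polar_smul_right, hb.perp x hx, smul_zero]
  mem := hp
  ne_u := hp0
  ne_v := by rw [QuadraticMap.map_smul, smul_eq_mul]; exact mul_ne_zero (mul_ne_zero hβ hβ) hb.ne_v
  ne_c := hb.ne_c
  value := by rw [QuadraticMap.map_smul, smul_eq_mul]; exact hQ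
  linked := hr
  turn x hx x' hx' γ h0 h0' hxx hxv hl := by
    rw [smul_smul] at hl ⊢
    refine hb.turn x hx x' hx' _ h0 h0' hxx ?_ hl
    rw [QuadraticMap.map_smul, smul_eq_mul] at hxv
    linear_combination hxv

/-- A reached singular coordinate reaches everything. -/
lemma Base.all_of_zero {β : F} (hr : Reached Q M D P v c β) (hz : β * β * Q v = c) {p : ι → F}
    (hp : p ∈ P) (hp0 : p ≠ 0) {γ : F} (hQ : Q p + γ * γ * Q v = c) :
    Cls Q M D (p + γ • v) := by
  obtain ⟨e, he, he0, hQe, hl⟩ := hr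
  have hβ : β ≠ 0 := fun h0 => hb.ne_c (by rw [← hz, h0]; ring)
  have := (hb.rebase he he0 hβ hQe hl).all_of_singular h (by linear_combination hQe - hz) hp hp0
    (β := γ / β) (by rw [QuadraticMap.map_smul, smul_eq_mul]; field_simp; linear_combination hQ)
  rwa [smul_smul, div_mul_cancel₀ _ hβ] at this

/-- In a plane with singular vectors a coordinate with singular part is reached. -/
lemma Base.reached_singular (hna : ¬ Aniso Q P) (hu : Q u ≠ 0) {β : F}
    (hz : β * β * Q v = c) : Reached Q M D P v c β := by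
  obtain ⟨σ, hσ, hb0⟩ : ∃ σ : F, (σ = 1 ∨ σ = -1) ∧ c * (β - σ) - 2 * β * Q v ≠ 0 := by
    by_contra! hall
    have e1 := hall 1 (Or.inl rfl)
    have e2 := hall (-1) (Or.inr rfl)
    have h2 : (2 : F) = 0 := (mul_eq_zero.1
      (show 2 * c = 0 by linear_combination e2 - e1)).resolve_right hb.ne_c
    have hβ : β = 1 := sub_eq_zero.1 ((mul_eq_zero.1 (show c * (β - 1) = 0 by
      linear_combination e1 + (β * Q v) * h2)).resolve_left hb.ne_c)
    subst hβ
    exact hu (by linear_combination hb.value - hz)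
  set b := c * (β - σ) - 2 * β * Q v with hbdef
  simp only [Aniso, not_forall] at hna
  obtain ⟨e, he, hQe, he0⟩ := hna
  have hue : polar Q u e ≠ 0 := fun h0 => by
    have hli : ∀ s : F, e ≠ s • u := fun s hs => by
      rw [hs, QuadraticMap.map_smul, smul_eq_mul] at hQe
      rcases mul_eq_zero.1 hQe with h1 | h1
      · exact he0 (by rw [hs, mul_self_eq_zero.1 h1, zero_smul])
      · exact hu h1
    exact he0 (hb.plane.eq_zero hb.mem he hli hb.ne_u he (by rw [polar_comm]; exact h0)
      (by rw [polar_self_mul, hQe, mul_zero]))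
  set p' := (b / polar Q u e) • e with hp'
  have hp'P : p' ∈ P := P.smul_mem _ he
  have hQp' : Q p' = 0 := by rw [hp', QuadraticMap.map_smul, hQe, smul_zero]
  have hpair : polar Q u p' = b := by
    rw [hp', polar_smul_right, smul_eq_mul, div_mul_cancel₀ _ hue]
  have hl : β - c⁻¹ * (polar Q u p' + 2 * β * Q v) = σ := by
    rw [hpair, hbdef]
    have := hb.ne_c
    field_simp
    ring
  refine hb.backward h hp'P (fun e' => hb0 ?_) (by rw [hQp', zero_add, hz]) ?_ fun e' => hu ?_
  · rw [← hpair, e']; simp [polar]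
  · rw [hl]
    rcases hσ with rfl | rfl
    · exact hb.one
    · exact hb.reached_neg hb.one
  · have hs : Q ((c⁻¹ * (polar Q u p' + 2 * β * Q v)) • u) = 0 := by
      rw [← sub_eq_zero.1 e', hQp']
    rw [QuadraticMap.map_smul, smul_eq_mul] at hs
    rcases mul_eq_zero.1 hs with h1 | h1
    · refine absurd ?_ hb0
      rw [← hpair, sub_eq_zero.1 e', mul_self_eq_zero.1 h1, zero_smul]
      simp [polar]
    · exact h1

omit hb h [Fintype ι] [DecidableEq ι] [Finite F] in
/-- A finite set invariant under a non-zero translation has size zero in the field. -/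
lemma card_cast_eq_zero {S : Finset F} {τ : F} (hτ : τ ≠ 0) (hS : ∀ b ∈ S, b + τ ∈ S) :
    (S.card : F) = 0 := by
  classical
  have himg : S.image (· + τ) = S := Finset.eq_of_subset_of_card_le
    (fun x hx => by obtain ⟨b, hb, rfl⟩ := Finset.mem_image.1 hx; exact hS b hb)
    (by rw [Finset.card_image_of_injective _ (add_left_injective τ)])
  have hsum : ∑ b ∈ S, b = ∑ b ∈ S, (b + τ) := by
    conv_lhs => rw [← himg]
    rw [Finset.sum_image fun a _ b _ hab => add_left_injective τ hab]
  rw [Finset.sum_add_distrib, Finset.sum_const, nsmul_eq_mul, left_eq_add] at hsum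
  exact (mul_eq_zero.1 hsum).resolve_right hτ

omit hb h [Fintype ι] [DecidableEq ι] [Field F] [Finite F] in
/-- The count behind the closure. -/
lemma exists_mem_of_sum_gt [Fintype F] {A B : Finset F}
    (h : Fintype.card F < A.card + B.card) : ∃ x, x ∈ A ∧ x ∈ B := by
  classical
  by_contra! hall
  have hd : Disjoint A B := Finset.disjoint_left.2 fun x hx => hall x hx
  have := Finset.card_le_univ (A ∪ B)
  rw [Finset.card_union_of_disjoint hd] at this
  omega

/-- With enough reached coordinates of non-singular part, all coordinates are reached. -/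
lemma Base.all_of_count [Fintype F] (R : Finset F) (hR : ∀ β ∈ R, Reached Q M D P v c β)
    (hRne : ∀ β ∈ R, β * β * Q v ≠ c) (hu : Q u ≠ 0)
    (hcount : ∀ γ : F, γ ≠ 0 → 2 * Fintype.card F + 1 ≤ 2 * R.card + (circle Q P γ).card)
    {p : ι → F} (hp : p ∈ P) (hQp : Q p ≠ 0) {β : F} (hQ : Q p + β * β * Q v = c) :
    Cls Q M D (p + β • v) := by
  classical
  set A := (pairs Q P u (Q p)).image fun b => β - c⁻¹ * (b + 2 * β * Q v) with hA
  have hAcard : A.card = (pairs Q P u (Q p)).card :=
    Finset.card_image_of_injective _ fun a b hab => by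
      simpa [hb.ne_c] using hab
  obtain ⟨f, -, hf⟩ := hb.plane.two_mul_card_pairs hb.mem hu (Q p)
  have := hcount (Q p) hQp
  obtain ⟨x, hxA, hxR⟩ := exists_mem_of_sum_gt (A := A) (B := R) (by omega)
  obtain ⟨b, hbm, rfl⟩ := Finset.mem_image.1 hxA
  obtain ⟨p', hp', hQp', rfl⟩ := mem_pairs.1 hbm
  have hp'0 : p' ≠ 0 := fun e => hQp (by rw [← hQp', e, QuadraticMap.map_zero])
  have hp0 : p ≠ 0 := fun e => hQp (by rw [e, QuadraticMap.map_zero])
  refine hb.use (hb.backward h hp' hp'0 (by rw [hQp', hQ]) (hR _ hxR) fun e => hRne _ hxR ?_)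
    hp hp0 hQ
  have hv := hb.value' (P.sub_mem hp' (P.smul_mem (c⁻¹ * (polar Q u p' + 2 * β * Q v)) hb.mem))
    (β - c⁻¹ * (polar Q u p' + 2 * β * Q v))
  rw [← hb.image hp', mem_isometryGroup_iff.mp (rf_mem_isom _), hb.value' hp', hQp', hQ, e,
    QuadraticMap.map_zero, zero_add] at hv
  exact hv.symm

omit [Finite F] in
/-- The coordinates reached in one step from the base vector. -/
lemma Base.first [Fintype F] {b : F} (hm : b ∈ pairs Q P u (Q u)) (hu : Q u ≠ 0)
    (hb2 : b ≠ -(2 * Q u) ∨ (1 - c⁻¹ * (b + 2 * Q v)) * (1 - c⁻¹ * (b + 2 * Q v)) * Q v ≠ c) :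
    Reached Q M D P v c (1 - c⁻¹ * (b + 2 * Q v)) := by
  obtain ⟨p, hp, hQp, rfl⟩ := mem_pairs.1 hm
  have hp0 : p ≠ 0 := fun e => hu (by rw [← hQp, e, QuadraticMap.map_zero])
  have h1 := hb.forward h hb.one hp hp0 (by rw [hQp, one_mul, one_mul]; exact hb.value)
  rw [mul_one] at h1
  refine h1 fun e => ?_
  rcases hb2 with hb2 | hb2
  · set l := c⁻¹ * (polar Q u p + 2 * Q v) with hl
    have hpu := sub_eq_zero.1 e
    have hB : polar Q u p = 2 * l * Q u := by
      rw [hpu, polar_smul_right, polar_self_mul, smul_eq_mul]; ring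
    have hll : l * l = 1 := by
      have := hQp
      rw [hpu, QuadraticMap.map_smul, smul_eq_mul] at this
      exact mul_right_cancel₀ hu (by rw [one_mul]; exact this)
    rcases mul_self_eq_one_iff.1 hll with e1 | e1
    · rw [e1, mul_one] at hB
      rw [hl, hB, ← mul_add, hb.value] at e1
      field_simp [hb.ne_c] at e1
      exact one_ne_zero (α := F) (by linear_combination e1)
    · exact hb2 (by rw [hB, e1]; ring)
  · have hv := hb.value' (P.sub_mem hp (P.smul_mem (c⁻¹ * (polar Q u p + 2 * Q v)) hb.mem))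
      (1 - c⁻¹ * (polar Q u p + 2 * Q v))
    have hi := hb.image hp 1
    rw [mul_one, one_smul] at hi
    rw [← hi, mem_isometryGroup_iff.mp (rf_mem_isom _), e, QuadraticMap.map_zero, zero_add] at hv
    have h0 := hb.value' hp 1
    rw [one_smul, hQp, one_mul, one_mul, hb.value] at h0
    exact hb2 (hv.symm.trans h0)

/-- The closure in an anisotropic plane. -/
lemma Base.all_of_aniso [Fintype F] (ha : Aniso Q P) {p : ι → F} (hp : p ∈ P) (hp0 : p ≠ 0)
    {β : F} (hQ : Q p + β * β * Q v = c) : Cls Q M D (p + β • v) := by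
  classical
  have hu : Q u ≠ 0 := fun e => hb.ne_u (ha u hb.mem e)
  refine hb.all_of_count h (((pairs Q P u (Q u)).erase (-(2 * Q u))).image
    fun b => 1 - c⁻¹ * (b + 2 * Q v)) ?_ ?_ hu ?_ hp (fun e => hp0 (ha p hp e)) hQ
  · intro x hx
    obtain ⟨b, hbm, rfl⟩ := Finset.mem_image.1 hx
    exact hb.first h (Finset.mem_of_mem_erase hbm) hu (Or.inl (Finset.ne_of_mem_erase hbm))
  · intro x hx he
    obtain ⟨b, hbm, rfl⟩ := Finset.mem_image.1 hx
    obtain ⟨q, hq, hq0, hQq, -⟩ := hb.first h (Finset.mem_of_mem_erase hbm) hu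
      (Or.inl (Finset.ne_of_mem_erase hbm))
    exact hq0 (ha q hq (by linear_combination hQq - he))
  · intro γ hγ
    rw [Finset.card_image_of_injective _ fun a b hab => by simpa [hb.ne_c] using hab]
    obtain ⟨f, hf, hcard⟩ := hb.plane.two_mul_card_pairs hb.mem hu (Q u)
    have h1 := (hb.plane.circle_card hγ).1 ha
    have h2 := (hb.plane.circle_card hu).1 ha
    have hfu : u ∈ f := (hf u).2 ⟨mem_circle.2 ⟨hb.mem, rfl⟩, 1, (one_smul F u).symm⟩
    have hf1 := Finset.card_pos.2 ⟨u, hfu⟩
    have := Finset.pred_card_le_card_erase (s := pairs Q P u (Q u)) (a := -(2 * Q u))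
    omega

end CfsgLib.Geometric.Orth.Blocks
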