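import Cfsg.Agent.Lib.Geometric.Orth.Blocks.Circle

/-!
The closure in the space spanned by a plane and an orthogonal vector, for every type of plane.
-/

namespace CfsgLib.Geometric.Orth.Blocks

open Matrix QuadraticMap CfsgLib.ClassicalForms

variable {ι : Type} [Fintype ι] [DecidableEq ι] {F : Type*} [Field F] [Fintype F]
variable {Q : QuadraticForm F (ι → F)} {t k : ℕ} {D : Fin t → Submodule F (ι → F)}
variable {M : Subgroup (GL ι F)} {P : Submodule F (ι → F)}
variable {u v : ι → F} {c : F}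

/-- The balanced case in odd characteristic. -/
lemma Base.all_of_shift (hb : Base Q M D P u v c) (h : Over Q k D M) (hna : ¬ Aniso Q P)
    (h2 : (2 : F) ≠ 0) (hu : Q u ≠ 0) (hno : ∀ β : F, β * β * Q v ≠ c)
    (hκ : 1 - 2 * c⁻¹ * Q v ≠ 0) {p : ι → F} (hp : p ∈ P) {β : F}
    (hQ : Q p + β * β * Q v = c) : Cls Q M D (p + β • v) := by
  classical
  have hQp : Q p ≠ 0 := fun e => hno β (by linear_combination hQ - e)
  set S := pairs Q P u (Q u) with hS
  set R₀ := S.image fun b => 1 - c⁻¹ * (b + 2 * Q v) with hR₀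
  set R := R₀ ∪ R₀.image Neg.neg with hR
  refine hb.all_of_count h R ?_ (fun x _ => hno x) hu ?_ hp hQp hQ
  · intro x hx
    have h0 : ∀ x ∈ R₀, Reached Q M D P v c x := fun x hx => by
      obtain ⟨b, hbm, rfl⟩ := Finset.mem_image.1 hx
      exact hb.first h hbm hu (Or.inr (hno _))
    rcases Finset.mem_union.1 hx with hx | hx
    · exact h0 x hx
    · obtain ⟨y, hy, rfl⟩ := Finset.mem_image.1 hx
      exact hb.reached_neg (h0 y hy)
  · intro γ hγ
    have hR₀card : R₀.card = S.card :=
      Finset.card_image_of_injective _ fun a b hab => by simpa [hb.ne_c] using hab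
    obtain ⟨f, hf, hcard⟩ := hb.plane.two_mul_card_pairs hb.mem hu (Q u)
    have h1 := (hb.plane.circle_card hγ).2.2
    have hCu := (hb.plane.circle_card hu).2.1 hna
    have hne : -u ≠ u := fun e => hb.ne_u (by
      have h0 : (2 : F) • u = 0 := by rw [two_smul]; nth_rewrite 1 [← e]; exact neg_add_cancel u
      exact (smul_eq_zero.1 h0).resolve_left h2)
    have hfeq : f = {-u, u} := Finset.ext fun x => by
      rw [hf, mem_circle, Finset.mem_insert, Finset.mem_singleton]
      constructor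
      · rintro ⟨⟨-, hQx⟩, s, rfl⟩
        rw [QuadraticMap.map_smul, smul_eq_mul] at hQx
        rcases mul_self_eq_one_iff.1 (mul_right_cancel₀ hu (hQx.trans (one_mul _).symm)) with
          rfl | rfl
        · exact Or.inr (one_smul F u)
        · exact Or.inl (neg_one_smul F u)
      · rintro (rfl | rfl)
        · exact ⟨⟨P.neg_mem hb.mem, QuadraticMap.map_neg _ _⟩, -1, (neg_one_smul F u).symm⟩
        · exact ⟨⟨hb.mem, rfl⟩, 1, (one_smul F x).symm⟩
    rw [hfeq, Finset.card_pair hne] at hcard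
    rw [← hS] at hcard
    have hlt : R₀.card < R.card := by
      refine Finset.card_lt_card (lt_of_le_of_ne Finset.subset_union_left fun heq => ?_)
      have hsymm : ∀ b ∈ S, -b ∈ S := fun b hb' => by
        obtain ⟨q, hq, hQq, rfl⟩ := mem_pairs.1 hb'
        exact mem_pairs.2 ⟨-q, P.neg_mem hq, by rw [QuadraticMap.map_neg]; exact hQq,
          by rw [← neg_one_smul F q, polar_smul_right]; simp⟩
      have hshift : ∀ b ∈ S, b + 2 * c * (1 - 2 * c⁻¹ * Q v) ∈ S := by
        intro b hb'
        have hm : -(1 - c⁻¹ * (-b + 2 * Q v)) ∈ R₀ := by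
          rw [heq]
          exact Finset.mem_union_right _ (Finset.mem_image_of_mem _
            (Finset.mem_image_of_mem _ (hsymm b hb')))
        obtain ⟨b', hb'', he⟩ := Finset.mem_image.1 hm
        convert hb'' using 1
        have := hb.ne_c
        field_simp at he ⊢
        linear_combination he
      have hτ : 2 * c * (1 - 2 * c⁻¹ * Q v) ≠ 0 := mul_ne_zero (mul_ne_zero h2 hb.ne_c) hκ
      have hz := card_cast_eq_zero hτ hshift
      have hS2 : 2 * S.card = Fintype.card F + 1 := by omega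
      have hcast := congrArg (Nat.cast (R := F)) hS2
      push_cast at hcast
      rw [hz, mul_zero] at hcast
      simp at hcast
    omega

/-- One linked vector meeting the plane and the vector makes all of that value linked. -/
theorem Base.all (hb : Base Q M D P u v c) (h : Over Q k D M)
    (hq : (2 : F) ≠ 0 → ¬ Aniso Q P → 7 ≤ Fintype.card F) {p : ι → F} (hp : p ∈ P) (hp0 : p ≠ 0)
    {β : F} (hQ : Q p + β * β * Q v = c) : Cls Q M D (p + β • v) := by
  classical
  by_cases hna : Aniso Q P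
  · exact hb.all_of_aniso h hna hp hp0 hQ
  by_cases hu : Q u = 0
  · exact hb.all_of_singular h hu hp hp0 hQ
  by_cases hz : ∃ β₀ : F, β₀ * β₀ * Q v = c
  · obtain ⟨β₀, hz⟩ := hz
    exact hb.all_of_zero h (hb.reached_singular h hna hu hz) hz hp hp0 hQ
  push Not at hz
  have h2 : (2 : F) ≠ 0 := fun h2 => by
    have : CharP F 2 := CharTwo.of_one_ne_zero_of_two_eq_zero one_ne_zero h2
    obtain ⟨s, hs⟩ := isSquare_of_charTwo' (c / Q v)
    exact hz s (by rw [← hs, div_mul_cancel₀ _ hb.ne_v])
  by_cases hκ : 1 - 2 * c⁻¹ * Q v ≠ 0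
  · exact hb.all_of_shift h hna h2 hu hz hκ hp hQ
  push Not at hκ
  set S := pairs Q P u (Q u) with hS
  set R₀ := S.image fun b => 1 - c⁻¹ * (b + 2 * Q v) with hR₀
  have hR₀card : R₀.card = S.card :=
    Finset.card_image_of_injective _ fun a b hab => by simpa [hb.ne_c] using hab
  obtain ⟨f, hf, hcard⟩ := hb.plane.two_mul_card_pairs hb.mem hu (Q u)
  have hCu := (hb.plane.circle_card hu).2.1 hna
  have hfu : u ∈ f := (hf u).2 ⟨mem_circle.2 ⟨hb.mem, rfl⟩, 1, (one_smul F u).symm⟩
  have hf1 := Finset.card_pos.2 ⟨u, hfu⟩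
  have h7 := hq h2 hna
  rw [← hS] at hcard
  obtain ⟨β₁, hβ₁, hβ₁'⟩ := Finset.exists_mem_notMem_of_card_lt_card
    (s := ({0, 1, -1} : Finset F)) (t := R₀) (by
      have := Finset.card_le_three (a := (0 : F)) (b := 1) (c := -1)
      omega)
  simp only [Finset.mem_insert, Finset.mem_singleton, not_or] at hβ₁'
  obtain ⟨b, hbm, hbe⟩ := Finset.mem_image.1 hβ₁
  obtain ⟨q, hq', hq0, hQq, hl⟩ := hb.first h hbm hu (Or.inr (hz _))
  rw [hbe] at hQq hl
  have hb' := hb.rebase hq' hq0 hβ₁'.1 hQq hl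
  have hκ' : 1 - 2 * c⁻¹ * Q (β₁ • v) ≠ 0 := by
    rw [QuadraticMap.map_smul, smul_eq_mul]
    intro he
    have h3 : (1 : F) - β₁ * β₁ = 0 := by linear_combination he - β₁ * β₁ * hκ
    rcases mul_self_eq_one_iff.1 (sub_eq_zero.1 h3).symm with e | e
    · exact hβ₁'.2.1 e
    · exact hβ₁'.2.2 e
  have hno' : ∀ γ : F, γ * γ * Q (β₁ • v) ≠ c := fun γ => by
    rw [QuadraticMap.map_smul, smul_eq_mul]
    intro he
    exact hz (γ * β₁) (by linear_combination he)
  have := hb'.all_of_shift h hna h2 (fun e => hz β₁ (by linear_combination hQq - e)) hno' hκ'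
    (β := β / β₁) hp (by
      rw [QuadraticMap.map_smul, smul_eq_mul]
      field_simp [hβ₁'.1]
      linear_combination hQ)
  rwa [smul_smul, div_mul_cancel₀ _ hβ₁'.1] at this

end CfsgLib.Geometric.Orth.Blocks
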