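import Cfsg.Agent.Lib.Geometric.Orth.Blocks.Transport

/-!
When all vectors of a value meeting two members are linked, all vectors of that value are linked.
-/

namespace CfsgLib.Geometric.Orth.Blocks

open Matrix QuadraticMap CfsgLib.ClassicalForms

variable {ι : Type} [Fintype ι] [DecidableEq ι] {F : Type*} [Field F]
variable {Q : QuadraticForm F (ι → F)} {t k : ℕ} {D : Fin t → Submodule F (ι → F)}
variable {M : Subgroup (GL ι F)}

omit [DecidableEq ι] in
/-- The orthogonal complement of a pair with invertible Gram matrix. -/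
lemma nondeg_perp_gram {W : Submodule F (ι → F)}
    (hW : Cfsg.Geo.IsNondegenerateOn (polar (⇑Q)) W) {u w : ι → F} (hu : u ∈ W) (hw : w ∈ W)
    (hdet : polar Q u u * polar Q w w - polar Q u w * polar Q u w ≠ 0) :
    let W' := W ⊓ LinearMap.ker (pf Q u) ⊓ LinearMap.ker (pf Q w)
    Cfsg.Geo.IsNondegenerateOn (polar (⇑Q)) W' ∧
      Module.finrank F W ≤ Module.finrank F W' + 2 := by
  intro W'
  refine ⟨fun z hz hz0 => ?_, ?_⟩
  · obtain ⟨x, hx, hzx⟩ := (hW z hz.1.1 hz0).2
    have hzu : polar Q z u = 0 := hz.1.2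
    have hzw : polar Q z w = 0 := hz.2
    set Δ := polar Q u u * polar Q w w - polar Q u w * polar Q u w
    set μ := (polar Q x u * polar Q w w - polar Q x w * polar Q u w) / Δ with hμ
    set ν := (polar Q x w * polar Q u u - polar Q x u * polar Q u w) / Δ with hν
    set x' := x - μ • u - ν • w with hx'def
    have hx' : x' ∈ W' := by
      refine ⟨⟨W.sub_mem (W.sub_mem hx (W.smul_mem _ hu)) (W.smul_mem _ hw), ?_⟩, ?_⟩
      · show polar Q x' u = 0
        rw [hx'def, polar_sub_left, polar_sub_left, polar_smul_left, polar_smul_left,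
          polar_comm Q w u, smul_eq_mul, smul_eq_mul, hμ, hν]
        field_simp
        simp only [Δ]
        ring
      · show polar Q x' w = 0
        rw [hx'def, polar_sub_left, polar_sub_left, polar_smul_left, polar_smul_left, smul_eq_mul,
          smul_eq_mul, hμ, hν]
        field_simp
        simp only [Δ]
        ring
    have hne : polar Q z x' ≠ 0 := by
      rw [hx'def, polar_sub_right, polar_sub_right, polar_smul_right, polar_smul_right, hzu, hzw]
      simpa using hzx
    exact ⟨⟨x', hx', by rwa [polar_comm]⟩, ⟨x', hx', hne⟩⟩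
  · have e1 := finrank_le_inf_ker W (pf Q u)
    have e2 := finrank_le_inf_ker (W ⊓ LinearMap.ker (pf Q u)) (pf Q w)
    show Module.finrank F W ≤ Module.finrank F ↥(W ⊓ _ ⊓ _) + 2
    omega

variable (h : Over Q k D M)
include h

local notation3 "cp" => Decomp.comp (Over.dec h).decomp.decomp

lemma nondeg_sup (i j : Fin t) :
    Cfsg.Geo.IsNondegenerateOn (polar (⇑Q)) (D i ⊔ D j) := by
  intro z hz hz0
  obtain ⟨a, ha, b, hb, rfl⟩ := Submodule.mem_sup.1 hz
  by_cases hij : i = j
  · subst hij
    obtain ⟨x, hx, hne⟩ := (h.dec.decomp.nondegenerate i _ ((D i).add_mem ha hb) hz0).2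
    exact ⟨⟨x, Submodule.mem_sup_left hx, by rwa [polar_comm]⟩, ⟨x, Submodule.mem_sup_left hx, hne⟩⟩
  by_cases ha0 : a = 0
  · subst ha0
    rw [zero_add] at hz0 ⊢
    obtain ⟨x, hx, hne⟩ := (h.dec.decomp.nondegenerate j b hb hz0).2
    exact ⟨⟨x, Submodule.mem_sup_right hx, by rwa [polar_comm]⟩,
      ⟨x, Submodule.mem_sup_right hx, hne⟩⟩
  obtain ⟨x, hx, hne⟩ := (h.dec.decomp.nondegenerate i a ha ha0).2
  have hb0 : polar Q b x = 0 := orth_apply_blocks h.dec (Ne.symm hij) hb hx
  have hne' : polar Q (a + b) x ≠ 0 := by rw [polar_add_left, hb0, add_zero]; exact hne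
  exact ⟨⟨x, Submodule.mem_sup_left hx, by rwa [polar_comm]⟩, ⟨x, Submodule.mem_sup_left hx, hne'⟩⟩

lemma two_le_finrank_sup {i j : Fin t} (hij : i ≠ j) :
    4 ≤ Module.finrank F ↥(D i ⊔ D j) := by
  have h1 := Submodule.finrank_sup_add_finrank_inf_eq (D i) (D j)
  have h3 : D i ⊓ D j = ⊥ := by
    rw [Submodule.eq_bot_iff]
    rintro x ⟨hxi, hxj⟩
    have := Decomp.comp_of_mem h.dec.decomp.decomp (i := i) hxi
    rwa [Decomp.comp_of_mem h.dec.decomp.decomp (i := i) hxj, if_neg hij, if_pos rfl, eq_comm] at this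
  rw [h3, finrank_bot, h.dec.decomp.decomp.finrank_eq, h.dec.decomp.decomp.finrank_eq] at h1
  have := h.two
  omega

variable [Fintype F]

/-- The part of a vector in two members may be replaced. -/
lemma replace_pair {c : F} {i j : Fin t} (hij : i ≠ j) (hp : Pair Q M D c i j) {y u w : ι → F}
    (hu : u ∈ D i ⊔ D j) (hw : w ∈ D i ⊔ D j)
    (hrest : ∀ z ∈ D i ⊔ D j, polar Q (y - u) z = 0) (hQy : Q y = c) (hQ : Q u = Q w)
    (hdet : 4 * Q u * Q u - polar Q u w * polar Q u w ≠ 0)
    (hl : Cls Q M D (y - u + w)) : Cls Q M D y := by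
  classical
  set N := Q u with hN
  set b := polar Q u w with hb
  obtain ⟨hW', hd'⟩ := nondeg_perp_gram (nondeg_sup h i j) hu hw (by
    rw [polar_self_mul, polar_self_mul, ← hN, ← hQ]
    exact fun e => hdet (by linear_combination e))
  have := two_le_finrank_sup h hij
  have hb2 : 2 * N + b ≠ 0 := fun e => hdet (by linear_combination (2 * N - b) * e)
  set l := (2 * N - c) / (2 * N + b) with hl'
  obtain ⟨r, hr, hQr⟩ := exists_value' hW' (by omega) (N - Q (l • (u + w)))
  have hru : polar Q r u = 0 := hr.1.2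
  have hrw : polar Q r w = 0 := hr.2
  set m := l • (u + w) + r with hm
  have hmV : m ∈ D i ⊔ D j :=
    Submodule.add_mem _ (Submodule.smul_mem _ _ (Submodule.add_mem _ hu hw)) hr.1.1
  have hQm : Q m = N := by
    rw [hm, QuadraticMap.map_add (⇑Q), hQr, polar_smul_left, polar_add_left, polar_comm Q u r, hru,
      polar_comm Q w r, hrw]
    simp
  have hum : polar Q u m = 2 * N - c := by
    rw [hm, polar_add_right, polar_smul_right, polar_add_right, polar_comm Q u r, hru,
      polar_self_mul, ← hN, ← hb, smul_eq_mul, add_zero, hl', div_mul_cancel₀ _ hb2]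
  have hwm : polar Q w m = 2 * N - c := by
    rw [hm, polar_add_right, polar_smul_right, polar_add_right, polar_comm Q w r, hrw,
      polar_self_mul, ← hQ, polar_comm Q w u, ← hb, smul_eq_mul, add_zero, add_comm b, hl',
      div_mul_cancel₀ _ hb2]
  have hc : c ≠ 0 := fun e => hl.1 (by
    rw [QuadraticMap.map_add (⇑Q), hrest w hw, ← hQ, add_zero, ← e, ← hQy]
    conv_rhs => rw [← sub_add_cancel y u]
    rw [QuadraticMap.map_add (⇑Q), hrest u hu, add_zero])
  have step : ∀ p q : ι → F, p ∈ D i ⊔ D j → q ∈ D i ⊔ D j → Q p = N → Q q = N →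
      polar Q p q = 2 * N - c → Cls Q M D (y - u + p) → Cls Q M D (y - u + q) := by
    intro p q hp' hq' hQp hQq hpq hlp
    have hQd : Q (p - q) = c := by
      rw [CfsgLib.ClassicalForms.map_sub_eq, hQp, hQq, hpq]; ring
    obtain ⟨a, ha, b', hb', hab⟩ := Submodule.mem_sup.1 (Submodule.sub_mem _ hp' hq')
    have hz : Cls Q M D (p - q) := by
      rw [← hab]
      refine hp a ha b' hb' ?_
      rw [← value_pair h hij ha hb', hab, hQd]
    have hQyp : Q (y - u + p) = c := by
      rw [QuadraticMap.map_add (⇑Q), hrest p hp', hQp, add_zero, ← hQy]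
      conv_rhs => rw [← sub_add_cancel y u]
      rw [QuadraticMap.map_add (⇑Q), hrest u hu, add_zero]
    have := Cls.reflect h hlp hz (s := 1) (by rw [hQd, hQyp, one_mul, one_mul])
    convert this using 1
    rw [ap_rf, hQd, polar_add_left, hrest _ (Submodule.sub_mem _ hp' hq'), polar_sub_right,
      polar_self_mul, hQp, hpq,
      show c⁻¹ * (0 + (2 * N - (2 * N - c))) = 1 by field_simp; ring, one_smul]
    abel
  have := step m u hmV hu hQm rfl (by rw [polar_comm, hum])
    (step w m hw hmV hQ.symm hQm hwm hl)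
  rwa [sub_add_cancel] at this

/-- A target in one member. -/
lemma exists_target (hK : Kind Q k D) {i : Fin t} {a : ι → F} (ha : a ∈ D i) (ha0 : a ≠ 0) (N : F)
    (hN : N = 0 → ¬ Aniso Q (D i)) :
    ∃ w ∈ D i, Q w = N ∧ 4 * N * N - polar Q a w * polar Q a w ≠ 0 := by
  classical
  rcases hK with ⟨hk, hq4, hsp⟩ | ⟨h2, hk, -, -⟩
  swap
  · obtain ⟨z, hz, hz0⟩ := (h.dec.decomp.nondegenerate i a ha ha0).2
    obtain ⟨y, hy, hay⟩ : ∃ y ∈ D i, polar Q a y = 1 :=
      ⟨_, (D i).smul_mem (polar Q a z)⁻¹ hz,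
        by rw [polar_smul_right, smul_eq_mul, inv_mul_cancel₀ hz0]⟩
    obtain ⟨hW', hd'⟩ := nondeg_perp_pair (h.dec.decomp.nondegenerate i) h2 ha hy hay
    have hd : 4 ≤ Module.finrank F (D i) := by rw [h.dec.decomp.decomp.finrank_eq]; exact hk
    obtain ⟨w, hw, hQw⟩ := exists_value' hW' (by omega) (N - Q y)
    have hwa : polar Q w a = 0 := hw.1.2
    have hwy : polar Q w y = 0 := hw.2
    refine ⟨y + w, (D i).add_mem hy hw.1.1, ?_, ?_⟩
    · rw [QuadraticMap.map_add (⇑Q), hQw, polar_comm Q y w, hwy]; ring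
    · rw [polar_add_right, hay, polar_comm Q a w, hwa]
      intro e; exact one_ne_zero (α := F) (by linear_combination (2 * N * N) * h2 - e)
  have hP := isPlane_of_two h hk i
  by_cases hQa : Q a = 0
  · have h7 := hsp i fun hA => ha0 (hA a ha hQa)
    obtain ⟨y, hy, hay, -⟩ := hP.partner ha ha0
    set f := y - Q y • a with hf
    have hQf : Q f = 0 := by
      rw [hf, CfsgLib.ClassicalForms.map_sub_eq, QuadraticMap.map_smul, polar_smul_right, hQa,
        polar_comm Q y, hay, smul_eq_mul, smul_eq_mul]; ring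
    have haf : polar Q a f = 1 := by
      rw [hf, polar_sub_right, polar_smul_right, polar_self_mul, hQa, hay, smul_eq_mul]; ring
    obtain ⟨s, -, hs⟩ := Finset.exists_mem_notMem_of_card_lt_card
      (s := ({0, 2 * N, -(2 * N)} : Finset F)) (t := Finset.univ) (by
        rw [Finset.card_univ]; exact lt_of_le_of_lt Finset.card_le_three (by omega))
    simp only [Finset.mem_insert, Finset.mem_singleton, not_or] at hs
    refine ⟨(N / s) • a + s • f, (D i).add_mem ((D i).smul_mem _ ha)
      ((D i).smul_mem _ ((D i).sub_mem hy ((D i).smul_mem _ ha))), ?_, ?_⟩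
    · rw [QuadraticMap.map_add (⇑Q), QuadraticMap.map_smul, QuadraticMap.map_smul, polar_smul_left,
        polar_smul_right, hQa, hQf, haf, smul_eq_mul, smul_eq_mul, smul_eq_mul, smul_eq_mul]
      field_simp [hs.1]
      ring
    · rw [polar_add_right, polar_smul_right, polar_smul_right, polar_self_mul, hQa, haf,
        smul_eq_mul, smul_eq_mul]
      intro e
      rcases mul_eq_zero.1 (show (s - 2 * N) * (s + 2 * N) = 0 by linear_combination -e) with e | e
      · exact hs.2.1 (sub_eq_zero.1 e)
      · exact hs.2.2 (eq_neg_of_add_eq_zero_left e)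
  by_cases hN0 : N = 0
  · subst hN0
    have := hN rfl
    simp only [Aniso, not_forall] at this
    obtain ⟨e, he, hQe, he0⟩ := this
    refine ⟨e, he, hQe, ?_⟩
    have hae : polar Q a e ≠ 0 := fun h0 => he0 (hP.eq_zero ha he (fun s hs => by
      rw [hs, QuadraticMap.map_smul, smul_eq_mul] at hQe
      rcases mul_eq_zero.1 hQe with h1 | h1
      · exact he0 (by rw [hs, mul_self_eq_zero.1 h1, zero_smul])
      · exact hQa h1) ha0 he (by rw [polar_comm]; exact h0) (by rw [polar_self_mul, hQe, mul_zero]))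
    simpa using hae
  obtain ⟨f, hf, hcard⟩ := hP.two_mul_card_pairs ha hQa N
  have hC := hP.circle_card (Q := Q) hN0
  obtain ⟨b, hb, hb'⟩ := Finset.exists_mem_notMem_of_card_lt_card
    (s := ({2 * N, -(2 * N)} : Finset F)) (t := pairs Q (D i) a N) (by
      by_cases h2 : (2 : F) = 0
      · rw [h2, zero_mul, neg_zero, Finset.pair_eq_singleton, Finset.card_singleton]
        have := hC.2.2
        omega
      · refine lt_of_le_of_lt Finset.card_le_two ?_
        by_cases hA : Aniso Q (D i)
        · have := hC.1 hA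
          have : Fintype.card F % 2 = 1 := FiniteField.odd_card_of_char_ne_two fun e => h2 (by
            have := ringChar.Nat.cast_ringChar (R := F); rw [e] at this; exact_mod_cast this)
          omega
        · have := hC.2.2
          have := hsp i hA
          omega)
  simp only [Finset.mem_insert, Finset.mem_singleton, not_or] at hb'
  obtain ⟨w, hw, hQw, rfl⟩ := mem_pairs.1 hb
  refine ⟨w, hw, hQw, fun e => ?_⟩
  rcases mul_eq_zero.1 (show (polar Q a w - 2 * N) * (polar Q a w + 2 * N) = 0 by
    linear_combination -e) with e | e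
  · exact hb'.1 (sub_eq_zero.1 e)
  · exact hb'.2 (eq_neg_of_add_eq_zero_left e)

/-- The members meeting a vector. -/
noncomputable def members (x : ι → F) : Finset (Fin t) :=
  letI := Classical.decEq (ι → F)
  Finset.univ.filter fun l => cp l x ≠ 0

omit [Fintype F] in
lemma mem_members {x : ι → F} {l : Fin t} : l ∈ members h x ↔ cp l x ≠ 0 := by
  classical
  simp [members]

lemma sum_members (x : ι → F) : ∑ l ∈ members h x, cp l x = x := by
  classical
  conv_rhs => rw [← Decomp.sum_comp h.dec.decomp.decomp x]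
  exact Finset.sum_subset (Finset.subset_univ _) fun l _ hl => by
    rwa [mem_members, not_not] at hl

omit [Fintype F] in
lemma perp_rest {i j : Fin t} (hij : i ≠ j) (y : ι → F) :
    ∀ z ∈ D i ⊔ D j, polar Q (y - (cp i y + cp j y)) z = 0 := by
  intro z hz
  obtain ⟨a, ha, b, hb, rfl⟩ := Submodule.mem_sup.1 hz
  obtain ⟨h1, h3, -⟩ := comp_pair h hij (Decomp.comp_mem (Over.dec h).decomp.decomp i y) (Decomp.comp_mem (Over.dec h).decomp.decomp j y)
  rw [polar_add_right, polar_eq_zero_of_comp h ha (by rw [map_sub, h1, sub_self]),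
    polar_eq_zero_of_comp h hb (by rw [map_sub, h3, sub_self]), add_zero]

omit [Fintype F] in
lemma comp_replace {i j : Fin t} (hij : i ≠ j) (y : ι → F) {a b : ι → F} (ha : a ∈ D i)
    (hb : b ∈ D j) (l : Fin t) :
    cp l (y - (cp i y + cp j y) + (a + b)) = if l = i then a else if l = j then b else cp l y := by
  obtain ⟨h1, h3, h4⟩ := comp_pair h hij (Decomp.comp_mem (Over.dec h).decomp.decomp i y) (Decomp.comp_mem (Over.dec h).decomp.decomp j y)
  obtain ⟨g1, g3, g4⟩ := comp_pair h hij ha hb
  rw [map_add, map_sub]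
  split_ifs with e e'
  · subst e; rw [h1, g1, sub_self, zero_add]
  · subst e'; rw [h3, g3, sub_self, zero_add]
  · rw [h4 l e e', g4 l e e', sub_zero, add_zero]

/-- All vectors of value `c` are linked. -/
theorem sphere_of_pairs (hK : Kind Q k D) {c : F}
    (hp : ∀ i j : Fin t, i ≠ j → Pair Q M D c i j) {y : ι → F} (hy : Q y = c) : Cls Q M D y := by
  classical
  suffices ∀ n, ∀ y : ι → F, Q y = c → (members h y).card = n → Cls Q M D y from this _ y hy rfl
  intro n
  induction n using Nat.strong_induction_on with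
  | _ n ih =>
  intro y hy hn
  by_cases hsmall : (members h y).card ≤ 2
  · have ht := h.dec.decomp.decomp.two_le
    obtain ⟨T, hT, hT2⟩ := Finset.exists_superset_card_eq hsmall (by simpa using ht)
    obtain ⟨i, j, hij, rfl⟩ := Finset.card_eq_two.1 hT2
    have hy' : y = cp i y + cp j y := by
      conv_lhs => rw [← Decomp.sum_comp h.dec.decomp.decomp y]
      rw [← Finset.sum_subset (Finset.subset_univ ({i, j} : Finset (Fin t))) fun l _ hl => by
        have : l ∉ members h y := fun e => hl (hT e)
        rwa [mem_members, not_not] at this, Finset.sum_pair hij]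
    rw [hy']
    refine hp i j hij _ (Decomp.comp_mem (Over.dec h).decomp.decomp i y) _ (Decomp.comp_mem (Over.dec h).decomp.decomp j y) ?_
    rw [← value_pair h hij (Decomp.comp_mem (Over.dec h).decomp.decomp i y) (Decomp.comp_mem (Over.dec h).decomp.decomp j y), ← hy', hy]
  -- shrinking
  have shrink : ∀ y : ι → F, Q y = c → (members h y).card ≤ n → ∀ i j, i ≠ j → cp i y ≠ 0 →
      cp j y ≠ 0 → (Q (cp i y) + Q (cp j y) = 0 → ¬ Aniso Q (D i)) → Cls Q M D y := by
    intro y hy hn i j hij hi hj hN
    set u := cp i y + cp j y with hu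
    have hQu := value_pair h hij (Decomp.comp_mem (Over.dec h).decomp.decomp i y) (Decomp.comp_mem (Over.dec h).decomp.decomp j y)
    obtain ⟨w, hw, hQw, hdet⟩ := exists_target h hK (Decomp.comp_mem (Over.dec h).decomp.decomp i y) hi _ hN
    have hV := Submodule.add_mem (D i ⊔ D j) (Submodule.mem_sup_left (Decomp.comp_mem (Over.dec h).decomp.decomp i y))
      (Submodule.mem_sup_right (Decomp.comp_mem (Over.dec h).decomp.decomp j y))
    have hrest := perp_rest h hij y
    refine replace_pair h hij (hp i j hij) hV (Submodule.mem_sup_left hw) hrest hy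
      (hQu.trans hQw.symm) (by
        rw [hQu, polar_add_left, orth_apply_blocks h.dec (Ne.symm hij) (Decomp.comp_mem (Over.dec h).decomp.decomp j y) hw,
          add_zero]
        exact hdet) ?_
    refine ih (members h (y - u + w)).card (lt_of_lt_of_le
      (Finset.card_lt_card (Finset.ssubset_iff_of_subset ?_ |>.2 ⟨j, ?_, ?_⟩)) hn) _ ?_ rfl
    · intro l hl
      rw [mem_members] at hl ⊢
      have := comp_replace h hij y hw (D j).zero_mem l
      rw [add_zero] at this
      rw [this] at hl
      split_ifs at hl with e e'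
      · rw [e]; exact hi
      · rw [e']; exact hj
      · exact hl
    · exact (mem_members h).2 hj
    · rw [mem_members, not_not]
      have := comp_replace h hij y hw (D j).zero_mem j
      rw [add_zero, if_neg (Ne.symm hij), if_pos rfl] at this
      exact this
    · rw [QuadraticMap.map_add (⇑Q), hrest w (Submodule.mem_sup_left hw), hQw, ← hQu, ← hy]
      conv_rhs => rw [← sub_add_cancel y u]
      rw [QuadraticMap.map_add (⇑Q) (y - u), hrest u hV]
  by_cases hgood : ∃ i j, i ≠ j ∧ cp i y ≠ 0 ∧ cp j y ≠ 0 ∧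
      (Q (cp i y) + Q (cp j y) = 0 → ¬ Aniso Q (D i))
  · obtain ⟨i, j, hij, hi, hj, hN⟩ := hgood
    exact shrink y hy hn.le i j hij hi hj hN
  push Not at hgood
  obtain ⟨i, hi, j, hj, hij⟩ := Finset.one_lt_card.1 (show 1 < (members h y).card by omega)
  obtain ⟨l, hl, hli, hlj⟩ : ∃ l ∈ members h y, l ≠ i ∧ l ≠ j := by
    obtain ⟨l, hl, hl'⟩ := Finset.exists_mem_notMem_of_card_lt_card
      (s := ({i, j} : Finset (Fin t))) (t := members h y)
      (lt_of_le_of_lt Finset.card_le_two (by omega))
    simp only [Finset.mem_insert, Finset.mem_singleton, not_or] at hl'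
    exact ⟨l, hl, hl'.1, hl'.2⟩
  rw [mem_members] at hi hj hl
  have hani := (hgood i j hij hi hj).2
  have e1 := (hgood i j hij hi hj).1
  have e2 := (hgood i l (Ne.symm hli) hi hl).1
  have e3 := (hgood j l (Ne.symm hlj) hj hl).1
  have hQi : Q (cp i y) ≠ 0 := fun e => hi (hani _ (Decomp.comp_mem (Over.dec h).decomp.decomp i y) e)
  have h2 : (2 : F) = 0 := (mul_eq_zero.1
    (show 2 * Q (cp i y) = 0 by linear_combination e1 + e2 - e3)).resolve_right hQi
  obtain ⟨hk, hq4⟩ : k = 2 ∧ 4 ≤ Fintype.card F := by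
    rcases hK with ⟨hk, hq4, -⟩ | ⟨-, hk, -, -⟩
    · exact ⟨hk, hq4⟩
    · exfalso
      obtain ⟨P, hP, hPD, -, hall⟩ := exists_split_plane (h.dec.decomp.nondegenerate i)
        (by rw [h.dec.decomp.decomp.finrank_eq]; exact hk) h2 (Decomp.comp_mem (Over.dec h).decomp.decomp i y) hi
      obtain ⟨e, he, he0, hQe⟩ := hall 0
      exact he0 (hani e (hPD he) hQe)
  obtain ⟨α, -, hα⟩ := Finset.exists_mem_notMem_of_card_lt_card
    (s := ({0, Q (cp i y)} : Finset F)) (t := Finset.univ)
    (by rw [Finset.card_univ]; exact lt_of_le_of_lt Finset.card_le_two (by omega))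
  simp only [Finset.mem_insert, Finset.mem_singleton, not_or] at hα
  obtain ⟨a, ha, hQa⟩ := h.value i α
  have ha0 : a ≠ 0 := fun e => hα.1 (by rw [← hQa, e, QuadraticMap.map_zero])
  have hP := isPlane_of_two h hk j
  have hQj : Q (cp j y) = Q (cp i y) := by linear_combination e1 - Q (cp i y) * h2
  have hQl : Q (cp l y) = Q (cp i y) := by linear_combination e2 - Q (cp i y) * h2
  obtain ⟨f, hf, hcard⟩ := hP.two_mul_card_pairs (Decomp.comp_mem (Over.dec h).decomp.decomp j y) (hQj ▸ hQi) α
  have hC := (hP.circle_card (Q := Q) hα.1).2.2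
  obtain ⟨β, hβ, hβ'⟩ := Finset.exists_mem_notMem_of_card_lt_card
    (s := ({-polar Q (cp i y) a} : Finset F)) (t := pairs Q (D j) (cp j y) α)
    (by rw [Finset.card_singleton]; omega)
  simp only [Finset.mem_singleton] at hβ'
  obtain ⟨b, hb, hQb, rfl⟩ := mem_pairs.1 hβ
  have hb0 : b ≠ 0 := fun e => hα.1 (by rw [← hQb, e, QuadraticMap.map_zero])
  have hV := Submodule.add_mem (D i ⊔ D j) (Submodule.mem_sup_left (Decomp.comp_mem (Over.dec h).decomp.decomp i y))
      (Submodule.mem_sup_right (Decomp.comp_mem (Over.dec h).decomp.decomp j y))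
  have hV' := Submodule.add_mem (D i ⊔ D j) (Submodule.mem_sup_left ha) (Submodule.mem_sup_right hb)
  have hrest := perp_rest h hij y
  have hQu : Q (cp i y + cp j y) = 0 := by
    rw [value_pair h hij (Decomp.comp_mem (Over.dec h).decomp.decomp i y) (Decomp.comp_mem (Over.dec h).decomp.decomp j y), e1]
  have hQu' : Q (a + b) = 0 := by
    rw [value_pair h hij ha hb, hQa, hQb]; linear_combination α * h2
  refine replace_pair h hij (hp i j hij) hV hV' hrest hy (hQu.trans hQu'.symm) ?_ ?_
  · rw [hQu, polar_add_left, polar_add_right, polar_add_right,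
      orth_apply_blocks h.dec hij (Decomp.comp_mem (Over.dec h).decomp.decomp i y) hb,
      orth_apply_blocks h.dec (Ne.symm hij) (Decomp.comp_mem (Over.dec h).decomp.decomp j y) ha]
    intro e
    refine hβ' (eq_neg_of_add_eq_zero_left ?_)
    exact mul_self_eq_zero.1 (by linear_combination -e)
  set y' := y - (cp i y + cp j y) + (a + b) with hy'
  have hc' : ∀ m, cp m y' = if m = i then a else if m = j then b else cp m y :=
    comp_replace h hij y ha hb
  refine shrink y' ?_ ?_ i l (Ne.symm hli) ?_ ?_ fun e => absurd e ?_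
  · rw [hy', QuadraticMap.map_add (⇑Q), hrest _ hV', hQu', ← hy]
    conv_rhs => rw [← sub_add_cancel y (cp i y + cp j y)]
    rw [QuadraticMap.map_add (⇑Q), hrest _ hV, hQu]
  · rw [← hn]
    refine Finset.card_le_card fun m hm => ?_
    rw [mem_members, hc'] at hm
    rw [mem_members]
    split_ifs at hm with e e'
    · rw [e]; exact hi
    · rw [e']; exact hj
    · exact hm
  · rwa [hc', if_pos rfl]
  · rwa [hc', if_neg hli, if_neg hlj]
  · rw [hc', if_pos rfl, hc', if_neg hli, if_neg hlj, hQa, hQl]
    exact fun e => hα.2 (by linear_combination e - Q (cp i y) * h2)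

end CfsgLib.Geometric.Orth.Blocks
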