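import Cfsg.Agent.Lib.Geometric.Orth.Blocks.Descent

/-!
A group properly containing the stabiliser links some vector outside all members.
-/

namespace CfsgLib.Geometric.Orth.Blocks

open Matrix QuadraticMap CfsgLib.ClassicalForms
open CfsgLib.Geometric.Orth.Frame (rf_mul_self rf_mul_self_left rf_inv conj_rf rf_neg)

variable {ι : Type} [Fintype ι] [DecidableEq ι] {F : Type*} [Field F] [Fintype F]
variable {Q : QuadraticForm F (ι → F)} {t k : ℕ} {D : Fin t → Submodule F (ι → F)}
variable {M : Subgroup (GL ι F)}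

omit [DecidableEq ι] in
/-- Two vectors of equal value in a plane, neither proportional nor orthogonal. -/
lemma exists_nonorth {P : Submodule F (ι → F)} (hP : IsPlane Q P) (hq : 4 ≤ Fintype.card F)
    (hsplit : ¬ Aniso Q P → 7 ≤ Fintype.card F) {u : ι → F} (hu : u ∈ P) (hQu : Q u ≠ 0) :
    ∃ p ∈ P, Q p = Q u ∧ polar Q u p ≠ 0 ∧
      4 * Q u * Q u - polar Q u p * polar Q u p ≠ 0 ∧ ∀ s : F, p ≠ s • u := by
  classical
  set c := Q u with hc
  obtain ⟨f, hf, hcard⟩ := hP.two_mul_card_pairs hu hQu c
  have hC := hP.circle_card (Q := Q) hQu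
  have hfu : u ∈ f := (hf u).2 ⟨mem_circle.2 ⟨hu, rfl⟩, 1, (one_smul F u).symm⟩
  obtain ⟨b, hb, hb'⟩ := Finset.exists_mem_notMem_of_card_lt_card
    (s := ({0, 2 * c, -(2 * c)} : Finset F)) (t := pairs Q P u c) (by
      have := Finset.card_pos.2 ⟨u, hfu⟩
      have := hC.2.2
      by_cases h2 : (2 : F) = 0
      · simp only [h2, zero_mul, neg_zero, Finset.mem_singleton, Finset.insert_eq_of_mem,
          Finset.card_singleton]
        omega
      · refine lt_of_le_of_lt Finset.card_le_three ?_
        have hne : -u ≠ u := fun e => hQu (by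
          have h0 : (2 : F) • u = 0 := by rw [two_smul]; nth_rewrite 1 [← e]; exact neg_add_cancel u
          rw [hc, (smul_eq_zero.1 h0).resolve_left h2, QuadraticMap.map_zero])
        have hfn : -u ∈ f := (hf _).2 ⟨mem_circle.2 ⟨P.neg_mem hu, QuadraticMap.map_neg _ _⟩, -1,
          (neg_one_smul F u).symm⟩
        have h2f : 2 ≤ f.card := by
          rw [← Finset.card_pair hne]
          exact Finset.card_le_card fun a ha => by
            rcases Finset.mem_insert.1 ha with rfl | ha
            · exact hfn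
            · rw [Finset.mem_singleton.1 ha]; exact hfu
        have : Fintype.card F % 2 = 1 := FiniteField.odd_card_of_char_ne_two fun e => h2 (by
          have := ringChar.Nat.cast_ringChar (R := F); rw [e] at this; exact_mod_cast this)
        by_cases hA : Aniso Q P
        · have := hC.1 hA
          omega
        · have := hsplit hA
          omega)
  simp only [Finset.mem_insert, Finset.mem_singleton, not_or] at hb'
  obtain ⟨p, hp, hQp, rfl⟩ := mem_pairs.1 hb
  refine ⟨p, hp, hQp, hb'.1, fun e => ?_, fun s hs => ?_⟩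
  · rcases mul_eq_zero.1 (show (polar Q u p - 2 * c) * (polar Q u p + 2 * c) = 0 by
      linear_combination -e) with e | e
    · exact hb'.2.1 (sub_eq_zero.1 e)
    · exact hb'.2.2 (eq_neg_of_add_eq_zero_left e)
  · have hQs := hQp
    rw [hs, QuadraticMap.map_smul, smul_eq_mul, ← hc] at hQs
    have hB : polar Q u p = s * (2 * c) := by rw [hs, polar_smul_right, polar_self_mul, smul_eq_mul]
    rcases mul_self_eq_one_iff.1 (mul_right_cancel₀ hQu (hQs.trans (one_mul c).symm)) with e | e
    · exact hb'.2.1 (by rw [hB, e, one_mul])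
    · exact hb'.2.2 (by rw [hB, e]; ring)

variable (h : Over Q k D M)
include h

local notation3 "cp" => Decomp.comp (Over.dec h).decomp.decomp
local notation3 "cm" => Decomp.comp_mem (Over.dec h).decomp.decomp

omit [Fintype F] in
lemma eq_of_polar {l r : Fin t} {x y : ι → F} (hx : x ∈ D l) (hy : y ∈ D r)
    (hne : polar Q x y ≠ 0) : l = r := by
  by_contra e; exact hne (orth_apply_blocks h.dec e hx hy)

/-- An element mapping all vectors of a value in a member into members maps the member into one. -/
lemma maps_member (hK : Kind Q k D) {g : GL ι F} (hg : g ∈ M) (m : Fin t) {c : F} (hc : c ≠ 0)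
    (hmap : ∀ b ∈ D m, Q b = c → ∃ r, ap g b ∈ D r) : ∃ r, ∀ v ∈ D m, ap g v ∈ D r := by
  classical
  have hI := h.isom hg
  obtain ⟨b, hb, hQb⟩ := h.value m c
  have hQb0 : Q b ≠ 0 := hQb ▸ hc
  obtain ⟨r, hr⟩ := hmap b hb hQb
  refine ⟨r, ?_⟩
  rcases hK with ⟨hk, hq, hsp⟩ | ⟨h2, hk, hev, hex⟩
  · obtain ⟨p, hp, hQp, hbp, -, hli⟩ := exists_nonorth (isPlane_of_two h hk m) hq (hsp m) hb hQb0
    obtain ⟨r', hr'⟩ := hmap p hp (hQp.trans hQb)
    have := eq_of_polar h hr hr' (by rw [polar_ap hI]; exact hbp)
    subst this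
    intro v hv
    obtain ⟨α, β, rfl⟩ := (isPlane_of_two h hk m).coords hb hp hli
      (fun e => hQb0 (by rw [e, QuadraticMap.map_zero])) hv
    rw [ap_add, ap_smul, ap_smul]
    exact (D r).add_mem ((D r).smul_mem _ hr) ((D r).smul_mem _ hr')
  have : CharP F 2 := CharTwo.of_one_ne_zero_of_two_eq_zero one_ne_zero h2
  have hns : ∀ p ∈ D m, Q p ≠ 0 → ap g p ∈ D r := by
    have same : ∀ p ∈ D m, Q p = c → polar Q b p ≠ 0 → ap g p ∈ D r := fun p hp hQp hne => by
      obtain ⟨r', hr'⟩ := hmap p hp hQp
      rwa [eq_of_polar h hr hr' (by rw [polar_ap hI]; exact hne)]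
    have norm : ∀ p ∈ D m, Q p = c → ap g p ∈ D r := by
      intro p hp hQp
      by_cases hB : polar Q b p ≠ 0
      · exact same p hp hQp hB
      push Not at hB
      by_cases hbp : b = p
      · rwa [← hbp]
      obtain ⟨z, hz, -, hQz, hbz, hpz⟩ := exists_between (h.dec.decomp.nondegenerate m)
        (by rw [h.dec.decomp.decomp.finrank_eq]; exact hk) h2
        (by rwa [h.dec.decomp.decomp.finrank_eq])
        (fun hq hk4 => hex hq (by rwa [h.dec.decomp.decomp.finrank_eq] at hk4) m)
        hb hp (fun e => hQb0 (by rw [e, QuadraticMap.map_zero]))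
        (fun e => hc (by rw [← hQp, e, QuadraticMap.map_zero])) (hQb.trans hQp.symm) hB hbp
      obtain ⟨r', hr'⟩ := hmap p hp hQp
      rwa [eq_of_polar h (same z hz (hQz.trans hQb) hbz) hr'
        (by rw [polar_ap hI, polar_comm]; exact hpz)]
    intro p hp hQp
    obtain ⟨s, hs⟩ := isSquare_of_charTwo' (c / Q p)
    have hs0 : s ≠ 0 := fun e => div_ne_zero hc hQp (by rw [hs, e, mul_zero])
    have := norm (s • p) ((D m).smul_mem _ hp) (by
      rw [QuadraticMap.map_smul, smul_eq_mul, ← hs, div_mul_cancel₀ _ hQp])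
    rw [ap_smul] at this
    simpa [inv_smul_smul₀ hs0] using (D r).smul_mem s⁻¹ this
  intro v hv
  by_cases hQv : Q v ≠ 0
  · exact hns v hv hQv
  push Not at hQv
  by_cases hv0 : v = 0
  · rw [hv0, ap_zero]; exact zero_mem _
  obtain ⟨z, hz, hz0⟩ := ((h.dec.decomp.nondegenerate m) v hv hv0).2
  obtain ⟨hW', hd'⟩ := nondeg_perp_pair (h.dec.decomp.nondegenerate m) h2 hv
    ((D m).smul_mem (polar Q v z)⁻¹ hz) (by rw [polar_smul_right, smul_eq_mul, inv_mul_cancel₀ hz0])
  have := h.dec.decomp.decomp.finrank_eq m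
  obtain ⟨w, hw, hQw⟩ := exists_value' hW' (by omega) (1 : F)
  have h1 := hns w hw.1.1 (by rw [hQw]; exact one_ne_zero)
  have h3 := hns (v + w) ((D m).add_mem hv hw.1.1) (by
    rw [QuadraticMap.map_add (⇑Q), hQv, hQw, polar_comm, show polar Q w v = 0 from hw.1.2]; simp)
  rw [ap_add] at h3
  simpa using (D r).sub_mem h3 h1

/-- If no vector outside the members is linked, an element mapping one anisotropic vector of a
member into a member stabilises the decomposition. -/
lemma stab_of_block (hK : Kind Q k D) (hno : ∀ v, Cls Q M D v → ∃ r, v ∈ D r) {g : GL ι F}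
    (hg : g ∈ M) {l r : Fin t} {a : ι → F} (ha : a ∈ D l) (hQa : Q a ≠ 0) (hga : ap g a ∈ D r) :
    g ∈ Cfsg.Geo.decompositionStabilizer D := by
  classical
  have hI := h.isom hg
  have key : ∀ m, ∃ r, ∀ v ∈ D m, ap g v ∈ D r := fun m => maps_member h hK hg m hQa
    fun b hb hQb => hno _ ⟨by rw [mem_isometryGroup_iff.mp hI, hQb]; exact hQa, r, _, hga,
      by rw [mem_isometryGroup_iff.mp hI, mem_isometryGroup_iff.mp hI, hQb], by
        have hm := mul_mem (mul_mem hg (h.pair_mem hb ha (hQb ▸ hQa) hQb)) (inv_mem hg)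
        rw [← conj_rf hI, ← conj_rf hI]
        simpa [mul_assoc] using hm⟩
  choose π hπ using key
  have hmap : ∀ l, (D l).map (apEquiv g).toLinearMap = D (π l) := fun l =>
    Submodule.eq_of_le_of_finrank_eq (fun _ ⟨x, hx, e⟩ => e ▸ hπ l x hx)
      ((LinearEquiv.finrank_map_eq _ _).trans (by simp only [h.dec.decomp.decomp.finrank_eq]))
  have hinj : Function.Injective π := fun a b hab => by
    by_contra hne
    obtain ⟨x, hx, hx0⟩ := Decomp.exists_ne_zero_mem h.dec.decomp.decomp a
    obtain ⟨y, hy, hyx⟩ := ((hmap b).trans (congrArg D hab.symm)).ge (hπ a x hx)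
    have hxy : y = x := ap_injective g hyx
    subst hxy
    have h1 := Decomp.comp_of_mem h.dec.decomp.decomp (i := a) hx
    rw [Decomp.comp_of_mem h.dec.decomp.decomp (i := a) hy, if_pos rfl, if_neg hne] at h1
    exact hx0 h1.symm
  exact mem_decompStab h.dec.decomp.decomp
    (π := Equiv.ofBijective π (Finite.injective_iff_bijective.1 hinj)) hπ

omit [Fintype F] in
/-- A product of two reflections in the stabiliser meets two members only, and if its two vectors
span a non-degenerate plane and are not orthogonal they lie in a member. -/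
lemma rf_pair_stab {y y' : ι → F} (hy : Q y ≠ 0) (hy' : Q y' ≠ 0) (hli : ∀ s : F, y' ≠ s • y)
    (hf : rf Q y * rf Q y' ∈ Cfsg.Geo.decompositionStabilizer D) :
    (∃ l m, ∀ r, r ≠ l → r ≠ m → cp r y = 0) ∧
      (polar Q y y' ≠ 0 → 4 * Q y * Q y' - polar Q y y' * polar Q y y' ≠ 0 → ∃ l, y ∈ D l) := by
  classical
  obtain ⟨π, hπ⟩ := hf
  set f := rf Q y * rf Q y' with hfdef
  have hfI : f ∈ Cfsg.isometryGroup F (⇑Q) := mul_mem (rf_mem_isom y) (rf_mem_isom y')
  have hmap : ∀ r, ∀ z ∈ D r, ap f z ∈ D (π r) := fun r z hz => by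
    rw [← hπ r]; exact ⟨z, hz, rfl⟩
  set L : (ι → F) →ₗ[F] (ι → F) := (apEquiv f).toLinearMap - LinearMap.id with hL
  have hLap : ∀ z, L z = ap f z - z := fun z => by simp [hL]
  have hy0 : y ≠ 0 := fun e => hy (by rw [e, QuadraticMap.map_zero])
  set S := Submodule.span F (Set.range ![y, y']) with hS
  have hyS : y ∈ S := Submodule.subset_span ⟨0, rfl⟩
  have hy'S : y' ∈ S := Submodule.subset_span ⟨1, rfl⟩
  have hSdim : Module.finrank F S ≤ 2 := (finrank_range_le_card ![y, y']).trans (by simp)
  have himS : ∀ z, L z ∈ S := fun z => by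
    rw [hLap, hfdef, ap_mul, ap_rf y, ap_rf y',
      show ∀ a b : ι → F, z - a - b - z = -(a + b) from fun a b => by abel]
    exact S.neg_mem (S.add_mem (S.smul_mem _ hy'S) (S.smul_mem _ hyS))
  have hyim : y ∈ LinearMap.range L := by
    obtain ⟨z, hz1, hz2⟩ := exists_polar_pair h.nondeg (u := y') (x := y) (fun e => by
      obtain ⟨s, hs⟩ := Submodule.mem_span_singleton.1 e
      by_cases hs0 : s = 0
      · exact hy0 (by rw [← hs, hs0, zero_smul])
      · exact hli s⁻¹ (by rw [← hs, inv_smul_smul₀ hs0]))
    refine ⟨(-Q y) • z, ?_⟩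
    have hzy' : polar Q z y' = 0 := by rw [polar_comm]; exact hz1
    rw [map_smul, hLap, hfdef, ap_mul, ap_rf_fix hzy', ap_rf, polar_comm Q z y, hz2]
    match_scalars <;> field_simp <;> ring
  -- a vector of the span fixed by `f` is orthogonal to all of it
  have hfix : ∀ w, ap f w = w → polar Q w y = 0 := fun w hw => by
    obtain ⟨z, hz⟩ := hyim
    rw [← hz, hLap, polar_sub_right]
    nth_rewrite 1 [← hw]
    rw [polar_ap hfI, sub_self]
  -- `f` is never minus one on the span if the vectors are not orthogonal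
  have hneg : polar Q y y' ≠ 0 → ap f y ≠ -y := fun hB e => by
    rw [hfdef, ap_mul] at e
    have e' := congrArg (ap (rf Q y)) e
    rw [← ap_mul, rf_mul_self, ap_one, ap_rf y' y, ap_rf y (-y), polar_neg_left, polar_self_mul] at e'
    have h0 : ((Q y')⁻¹ * polar Q y y') • y' = 0 := by
      have h1 : (Q y)⁻¹ * -(2 * Q y) = -2 := by field_simp
      rw [h1] at e'
      linear_combination (norm := module) -e'
    rcases smul_eq_zero.1 h0 with h0 | h0
    · exact hB ((mul_eq_zero.1 h0).resolve_left (inv_ne_zero hy'))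
    · exact hy' (by rw [h0, QuadraticMap.map_zero])
  by_cases hπ1 : ∀ r, π r = r
  · have hcomm : ∀ r z, cp r (ap f z) = ap f (cp r z) := fun r z =>
      comp_ap h.dec (fun i x hx => by have := hmap i x hx; rwa [hπ1] at this) r z
    have hcS : ∀ r, cp r y ∈ S := fun r => by
      obtain ⟨z, hz⟩ := hyim
      rw [← hz, hLap, map_sub, hcomm, ← hLap]
      exact himS _
    have hSupp : ∀ l m r, l ≠ m → r ≠ l → r ≠ m → cp l y ≠ 0 → cp m y ≠ 0 → cp r y = 0 := by
      intro l m r hlm hrl hrm hl hm
      by_contra hr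
      have hI : LinearIndependent F ![cp l y, cp m y, cp r y] := by
        rw [Fintype.linearIndependent_iff]
        intro g hg
        rw [Fin.sum_univ_three] at hg
        simp only [Matrix.cons_val_zero, Matrix.cons_val_one, Matrix.cons_val_two,
          Matrix.tail_cons, Matrix.head_cons] at hg
        have e1 := congrArg (cp l) hg
        have e2 := congrArg (cp m) hg
        have e3 := congrArg (cp r) hg
        simp only [map_add, map_smul, map_zero, Decomp.comp_of_mem (Over.dec h).decomp.decomp (cm l y),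
          Decomp.comp_of_mem (Over.dec h).decomp.decomp (cm m y),
          Decomp.comp_of_mem (Over.dec h).decomp.decomp (cm r y), if_pos, hlm, Ne.symm hlm, hrl,
          Ne.symm hrl, hrm, Ne.symm hrm, if_false, smul_zero, add_zero, zero_add] at e1 e2 e3
        intro i
        fin_cases i
        · exact (smul_eq_zero.1 e1).resolve_right hl
        · exact (smul_eq_zero.1 e2).resolve_right hm
        · exact (smul_eq_zero.1 e3).resolve_right hr
      have hle : Submodule.span F (Set.range ![cp l y, cp m y, cp r y]) ≤ S := by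
        rw [Submodule.span_le]
        rintro _ ⟨i, rfl⟩
        fin_cases i <;> exact hcS _
      have := Submodule.finrank_mono hle
      rw [finrank_span_eq_card hI, Fintype.card_fin] at this
      omega
    obtain ⟨l, hl⟩ : ∃ l, cp l y ≠ 0 := by
      by_contra! h0
      exact hy0 (by rw [← Decomp.sum_comp h.dec.decomp.decomp y, Finset.sum_eq_zero fun l _ => h0 l])
    by_cases hone : ∀ r, r ≠ l → cp r y = 0
    · have hyl : y ∈ D l := by
        rw [← Decomp.sum_comp h.dec.decomp.decomp y,
          Finset.sum_eq_single l (fun r _ hr => hone r hr) (by simp)]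
        exact cm l y
      exact ⟨⟨l, l, fun r hr _ => hone r hr⟩, fun _ _ => ⟨l, hyl⟩⟩
    push Not at hone
    obtain ⟨m, hml, hm⟩ := hone
    have hsupp : ∀ r, r ≠ l → r ≠ m → cp r y = 0 := fun r hrl hrm =>
      hSupp l m r (Ne.symm hml) hrl hrm hl hm
    refine ⟨⟨l, m, hsupp⟩, fun hB hdet => absurd ?_ (hneg hB)⟩
    have hysum : y = cp l y + cp m y := by
      conv_lhs => rw [← Decomp.sum_comp h.dec.decomp.decomp y]
      rw [← Finset.sum_subset (Finset.subset_univ ({l, m} : Finset (Fin t))) fun r _ hr => by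
        simp only [Finset.mem_insert, Finset.mem_singleton, not_or] at hr
        exact hsupp r hr.1 hr.2, Finset.sum_pair (Ne.symm hml)]
    have hI : LinearIndependent F ![cp l y, cp m y] := by
      refine linearIndependent_fin2.2 ⟨by simpa using hm, fun s e => hl ?_⟩
      simp only [Matrix.cons_val_one, Matrix.cons_val_zero] at e
      have := congrArg (cp l) e
      rwa [map_smul, Decomp.comp_of_mem (Over.dec h).decomp.decomp (cm m y), if_neg (Ne.symm hml),
        smul_zero, Decomp.comp_of_mem (Over.dec h).decomp.decomp (cm l y), if_pos rfl, eq_comm] at this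
    have hSeq : Submodule.span F (Set.range ![cp l y, cp m y]) = S := by
      refine Submodule.eq_of_le_of_finrank_le ?_ ?_
      · rw [Submodule.span_le]
        rintro _ ⟨i, rfl⟩
        fin_cases i <;> exact hcS _
      · rw [finrank_span_eq_card hI, Fintype.card_fin]; exact hSdim
    have hperp : ∀ r s : Fin t, r ≠ s → cp r y ∈ S → polar Q (cp r y) (cp s y) = 0 :=
      fun r s hrs _ => orth_apply_blocks h.dec hrs (cm r y) (cm s y)
    have eig : ∀ r s : Fin t, r ≠ s → (∀ z ∈ S, ∃ α β : F, z = α • cp r y + β • cp s y) →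
        ap f (cp r y) = -cp r y := by
      intro r s hrs hspan
      have hr0 : cp r y ≠ 0 → Q (cp r y) ≠ 0 := fun hr e => by
        refine hr ?_
        obtain ⟨hW, -⟩ := nondeg_perp_gram (W := (⊤ : Submodule F (ι → F)))
          (fun z _ hz => by
            obtain ⟨w, hw⟩ : ∃ w, polar Q z w ≠ 0 := by
              by_contra! h0; exact hz (h.nondeg z h0)
            exact ⟨⟨w, trivial, by rwa [polar_comm]⟩, ⟨w, trivial, hw⟩⟩)
          (u := y) (w := y') trivial trivial
          (by rw [polar_self_mul, polar_self_mul]; exact fun e' => hdet (by linear_combination e'))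
        by_contra hne
        have horth : ∀ z ∈ S, polar Q (cp r y) z = 0 := fun z hz => by
          obtain ⟨α, β, rfl⟩ := hspan z hz
          rw [polar_add_right, polar_smul_right, polar_smul_right, polar_self_mul, e,
            hperp r s hrs (hcS r)]
          simp
        obtain ⟨w, hw, hne'⟩ := (hW (cp r y) ⟨⟨trivial, horth y hyS⟩, horth y' hy'S⟩ hne).2
        obtain ⟨α, β, hαβ⟩ : ∃ α β : F, cp r y = α • y + β • y' := by
          have := hcS r
          rw [hS, Submodule.mem_span_range_iff_exists_fun] at this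
          obtain ⟨g, hg⟩ := this
          exact ⟨g 0, g 1, by rw [← hg, Fin.sum_univ_two]; simp⟩
        apply hne'
        rw [hαβ, polar_add_left, polar_smul_left, polar_smul_left, polar_comm Q y w,
          polar_comm Q y' w, show polar Q w y = 0 from hw.1.2, show polar Q w y' = 0 from hw.2]
        simp
      by_cases hr : cp r y = 0
      · simp [hr, ap_zero]
      have hfr : ap f (cp r y) ∈ S := by
        have := S.add_mem (himS (cp r y)) (hcS r)
        rwa [hLap, sub_add_cancel] at this
      obtain ⟨α, β, hab⟩ := hspan _ hfr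
      have hfD := hmap r _ (cm r y)
      rw [hπ1] at hfD
      have hα : ap f (cp r y) = α • cp r y := by
        have := congrArg (cp r) hab
        rwa [Decomp.comp_of_mem (Over.dec h).decomp.decomp hfD, if_pos rfl, map_add, map_smul,
          map_smul, Decomp.comp_of_mem (Over.dec h).decomp.decomp (cm r y), if_pos rfl,
          Decomp.comp_of_mem (Over.dec h).decomp.decomp (cm s y), if_neg hrs, smul_zero,
          add_zero] at this
      have hQ := mem_isometryGroup_iff.mp hfI (cp r y)
      rw [hα, QuadraticMap.map_smul, smul_eq_mul] at hQ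
      rcases mul_self_eq_one_iff.1 (mul_right_cancel₀ (hr0 hr) (hQ.trans (one_mul _).symm)) with
        e | e
      · exfalso
        subst e
        have h1 := hfix (cp r y) (by rw [hα, one_smul])
        have h2y : polar Q (cp r y) y = 2 * Q (cp r y) := by
          rw [polar_comm, polar_comp h.dec y (cm r y), polar_self_mul]
        rw [h2y] at h1
        rcases mul_eq_zero.1 h1 with h2 | h2
        · apply hdet
          have hyy' : polar Q y y' = 0 := by
            obtain ⟨α, β, hy'⟩ := hspan y' hy'S
            rw [hy', polar_add_right, polar_smul_right, polar_smul_right, polar_comp h.dec y (cm r y),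
              polar_comp h.dec y (cm s y), polar_self_mul, polar_self_mul, h2]
            simp
          exact absurd hyy' hB
        · exact hr0 hr h2
      · rw [hα, e, neg_one_smul]
    have hspan : ∀ z ∈ S, ∃ α β : F, z = α • cp l y + β • cp m y := fun z hz => by
      rw [← hSeq, Submodule.mem_span_range_iff_exists_fun] at hz
      obtain ⟨g, rfl⟩ := hz
      exact ⟨g 0, g 1, by simp [Fin.sum_univ_two]⟩
    nth_rewrite 1 [hysum]
    rw [ap_add, eig l m (Ne.symm hml) hspan, eig m l hml (fun z hz => by
      obtain ⟨α, β, e⟩ := hspan z hz; exact ⟨β, α, by rw [e, add_comm]⟩), ← neg_add, ← hysum]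
  -- a moved member
  push Not at hπ1
  obtain ⟨l, hlm⟩ := hπ1
  set m := π l
  have hinj : ∀ z ∈ D l, L z ∈ D l → z = 0 := fun z hz hzl => by
    have h1 := (D l).add_mem hzl hz
    rw [hLap, sub_add_cancel] at h1
    have h3 := Decomp.comp_of_mem h.dec.decomp.decomp (i := m) h1
    rw [if_neg hlm, Decomp.comp_of_mem h.dec.decomp.decomp (i := m) (hmap l z hz),
      if_pos rfl] at h3
    exact ap_injective f (h3.trans (ap_zero f).symm)
  have himg : (D l).map L = S := by
    refine Submodule.eq_of_le_of_finrank_le (fun _ ⟨z, _, e⟩ => e ▸ himS z) ?_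
    have hk := h.dec.decomp.decomp.finrank_eq l
    have hi : Function.Injective (L.domRestrict (D l)) := by
      rw [injective_iff_map_eq_zero]
      intro z hz
      exact Subtype.ext (hinj z z.2 (by rw [show L (z : ι → F) = 0 from hz]; exact zero_mem _))
    have := LinearMap.finrank_range_of_inj hi
    rw [LinearMap.range_domRestrict] at this
    have := h.two
    omega
  have hSle : S ≤ D l ⊔ D m := by
    rw [← himg]
    rintro _ ⟨z, hz, rfl⟩
    rw [hLap]
    exact Submodule.sub_mem _ (Submodule.mem_sup_right (hmap l z hz)) (Submodule.mem_sup_left hz)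
  refine ⟨⟨l, m, fun r hrl hrm => ?_⟩, fun hB _ => absurd ?_ (hneg hB)⟩
  · obtain ⟨a, ha, b, hb, hab⟩ := Submodule.mem_sup.1 (hSle hyS)
    rw [← hab, (comp_pair h (Ne.symm hlm) ha hb).2.2 r hrl hrm]
  obtain ⟨z, hz, hzy⟩ : y ∈ (D l).map L := himg.ge hyS
  have hm : π m = l := by
    by_contra hne
    obtain ⟨w, hw, hw0⟩ := Decomp.exists_ne_zero_mem h.dec.decomp.decomp m
    obtain ⟨a, ha, b, hb, hab⟩ := Submodule.mem_sup.1 (hSle (himS w))
    have hfw : ap f w = a + (b + w) := by
      have := sub_eq_iff_eq_add.1 ((hLap w).symm.trans hab.symm)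
      rw [this]; abel
    have hne' : π m ≠ m := fun e => hlm (π.injective e)
    have h3 := (comp_pair h (Ne.symm hlm) ha ((D m).add_mem hb hw)).2.2 (π m) hne hne'
    rw [← hfw, Decomp.comp_of_mem h.dec.decomp.decomp (hmap m w hw), if_pos rfl] at h3
    exact hw0 (ap_injective f (h3.trans (ap_zero f).symm))
  have hff : ap f (ap f z) ∈ D l := by
    have := hmap m _ (hmap l z hz)
    rwa [hm] at this
  have h0 : ap f (ap f z) - z = 0 := by
    have hmem : ap f (ap f z) - z ∈ S := by
      rw [show ap f (ap f z) - z = L (ap f z) + L z by rw [hLap, hLap]; abel]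
      exact S.add_mem (himS _) (himS _)
    obtain ⟨w, hw, hwe⟩ := (himg.ge hmem : ap f (ap f z) - z ∈ (D l).map L)
    have := hinj w hw (by rw [hwe]; exact (D l).sub_mem hff hz)
    rw [← hwe, this, map_zero]
  rw [← hzy, hLap, ap_sub, sub_eq_zero.1 h0, neg_sub]

end CfsgLib.Geometric.Orth.Blocks
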