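import Cfsg.Agent.Lib.Geometric.Orth.Blocks.Entry
import Cfsg.Agent.Lib.Forms.OddFinite

/-!
A group properly containing the stabiliser links some vector outside all members: the proof.
-/

namespace CfsgLib.Geometric.Orth.Blocks

open Matrix QuadraticMap CfsgLib.ClassicalForms
open CfsgLib.Geometric.Orth.Frame (rf_mul_self rf_mul_self_left rf_inv conj_rf rf_neg)

variable {ι : Type} [Fintype ι] [DecidableEq ι] {F : Type*} [Field F] [Fintype F]
variable {Q : QuadraticForm F (ι → F)} {t k : ℕ} {D : Fin t → Submodule F (ι → F)}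
variable {M : Subgroup (GL ι F)}

omit [DecidableEq ι] [Fintype F] in
/-- The perpendicular of a vector in a plane. -/
lemma IsPlane.exists_perp {P : Submodule F (ι → F)} (hP : IsPlane Q P) {u : ι → F} (hu : u ∈ P)
    (hQu : Q u ≠ 0) : ∃ w ∈ P, Q w ≠ 0 ∧ polar Q u w = 0 := by
  have hu0 : u ≠ 0 := fun h => hQu (by rw [h, QuadraticMap.map_zero])
  obtain ⟨y, hy, huy, hli⟩ := hP.partner hu hu0
  refine ⟨u - (2 * Q u) • y, P.sub_mem hu (P.smul_mem _ hy), ?_, ?_⟩
  · rw [CfsgLib.ClassicalForms.map_sub_eq, QuadraticMap.map_smul, polar_smul_right, huy,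
      smul_eq_mul, smul_eq_mul]
    have := mul_ne_zero hQu (hP.det_ne hu hy hli hu0 huy)
    intro e; apply this; linear_combination e
  · rw [polar_sub_right, polar_smul_right, polar_self_mul, huy, smul_eq_mul, mul_one, sub_self]

omit [DecidableEq ι] [Fintype F] in
/-- The vectors of a split plane orthogonal to a singular one lie on its line. -/
lemma IsPlane.mem_line {P : Submodule F (ι → F)} (hP : IsPlane Q P) {e v : ι → F} (he : e ∈ P)
    (he0 : e ≠ 0) (hQe : Q e = 0) (hv : v ∈ P) (hev : polar Q e v = 0) : ∃ a : F, v = a • e := by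
  obtain ⟨y, hy, hey, hli⟩ := hP.partner he he0
  obtain ⟨a, b, rfl⟩ := hP.coords he hy hli he0 hv
  rw [polar_add_right, polar_smul_right, polar_smul_right, polar_self_mul, hQe, hey, smul_eq_mul,
    smul_eq_mul] at hev
  exact ⟨a, by rw [show b = 0 by linear_combination hev, zero_smul, add_zero]⟩

/-- Among three non-zero elements two are in the same class of squares. -/
lemma exists_same_class {a b c : F} (hb : b ≠ 0) :
    IsSquare (a / b) ∨ IsSquare (a / c) ∨ IsSquare (b / c) := by
  by_contra! hall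
  obtain ⟨h1, h3, h4⟩ := hall
  have := CfsgLib.Forms.isSquare_mul_of_not h1 h4
  rw [div_mul_div_cancel₀ hb] at this
  exact h3 this

variable (h : Over Q k D M)
include h

local notation3 "cp" => Decomp.comp (Over.dec h).decomp.decomp
local notation3 "cm" => Decomp.comp_mem (Over.dec h).decomp.decomp
local notation3 "stabD" => Cfsg.Geo.decompositionStabilizer D

/-- An element of `M` conjugate to a product of two block reflections fixes a block vector. -/
lemma pair_inside (hK : Kind Q k D) (hno : ∀ v, Cls Q M D v → ∃ r, v ∈ D r) {g : GL ι F}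
    (hg : g ∈ M) {l : Fin t} {a : ι → F} (ha : a ∈ D l) (hQa : Q a ≠ 0) {i j : Fin t}
    {b b' : ι → F} (hb : b ∈ D i) (hb' : b' ∈ D j) (hQb : Q b ≠ 0) (hbb' : Q b = Q b')
    (hxb : polar Q (ap g a) b = 0) (hxb' : polar Q (ap g a) b' = 0)
    (hli : ∀ s : F, b' ≠ s • b) :
    (∃ m n, ∀ r, r ≠ m → r ≠ n → cp r (ap g⁻¹ b) = 0) ∧
      (polar Q b b' ≠ 0 → 4 * Q b * Q b' - polar Q b b' * polar Q b b' ≠ 0 →
        ∃ m, ap g⁻¹ b ∈ D m) := by
  have hI := h.isom hg
  have hI' := Subgroup.inv_mem _ hI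
  set y := ap g⁻¹ b
  set y' := ap g⁻¹ b'
  have hf : rf Q y * rf Q y' ∈ M := by
    have := mul_mem (mul_mem (inv_mem hg) (h.pair_mem hb hb' hQb hbb')) hg
    simp only [y, y']
    rw [← conj_rf hI', ← conj_rf hI', inv_inv]
    simpa [mul_assoc] using this
  have hfa : ap (rf Q y * rf Q y') a = a := by
    have e : ∀ z, polar Q (ap g a) z = 0 → polar Q a (ap g⁻¹ z) = 0 := fun z hz => by
      rw [← polar_ap hI, ap_ap_inv]; exact hz
    rw [ap_mul, ap_rf_fix (e _ hxb'), ap_rf_fix (e _ hxb)]
  have hs := stab_of_block h hK hno hf ha hQa (by rw [hfa]; exact ha)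
  have e : ∀ z, Q (ap g⁻¹ z) = Q z := fun z => mem_isometryGroup_iff.mp hI' z
  have hp : polar Q y y' = polar Q b b' := polar_ap hI' b b'
  obtain ⟨h1, h3⟩ := rf_pair_stab h (by rw [e]; exact hQb) (by rw [e, ← hbb']; exact hQb)
    (fun s hse => hli s (ap_injective g⁻¹ (by rw [ap_smul]; exact hse))) hs
  exact ⟨h1, fun h4 h5 => h3 (by rwa [hp]) (by rw [hp, e, e]; exact h5)⟩

/-- An element of `M` outside the stabiliser maps block vectors outside all members. -/
lemma out_of_not_stab (hK : Kind Q k D) (hno : ∀ v, Cls Q M D v → ∃ r, v ∈ D r) {g : GL ι F}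
    (hg : g ∈ M) (hgs : g ∉ stabD) {l : Fin t} {a : ι → F} (ha : a ∈ D l) (hQa : Q a ≠ 0)
    (r : Fin t) : ap g a ∉ D r :=
  fun hmem => hgs (stab_of_block h hK hno hg ha hQa hmem)

/-- Planes: no zero component. -/
lemma comp_ne_zero_of_out (hk : k = 2) (hK : Kind Q k D) (hno : ∀ v, Cls Q M D v → ∃ r, v ∈ D r)
    {g : GL ι F} (hg : g ∈ M) (hgs : g ∉ stabD) {l : Fin t} {a : ι → F} (ha : a ∈ D l)
    (hQa : Q a ≠ 0) (i : Fin t) : cp i (ap g a) ≠ 0 := by
  intro h0
  obtain ⟨hq, hsp⟩ : 4 ≤ Fintype.card F ∧ (¬ Aniso Q (D i) → 7 ≤ Fintype.card F) := by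
    rcases hK with ⟨-, hq, hsp⟩ | ⟨-, hk4, -, -⟩
    · exact ⟨hq, hsp i⟩
    · omega
  obtain ⟨b, hb, hQb⟩ := h.value i (1 : F)
  have hQb0 : Q b ≠ 0 := hQb ▸ one_ne_zero
  obtain ⟨b', hb', hQb', hne, hdet, hli⟩ := exists_nonorth (isPlane_of_two h hk i) hq hsp hb hQb0
  obtain ⟨m, hm⟩ := (pair_inside h hK hno hg ha hQa hb hb' hQb0 hQb'.symm
    (polar_eq_zero_of_comp h hb h0) (polar_eq_zero_of_comp h hb' h0) hli).2 hne (hQb'.symm ▸ hdet)
  exact out_of_not_stab h hK hno (inv_mem hg) (fun e => hgs (by simpa using inv_mem e)) hb hQb0 m hm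

/-- Planes: at most two anisotropic components. -/
lemma not_three (hk : k = 2) (hK : Kind Q k D) (hno : ∀ v, Cls Q M D v → ∃ r, v ∈ D r)
    (ht : 3 ≤ t) {g : GL ι F} (hg : g ∈ M) (hgs : g ∉ stabD) {o : Fin t} {a : ι → F}
    (ha : a ∈ D o) (hQa : Q a ≠ 0) {i j l : Fin t} (hij : i ≠ j) (hil : i ≠ l) (hjl : j ≠ l)
    (hi : Q (cp i (ap g a)) ≠ 0) (hj : Q (cp j (ap g a)) ≠ 0) : Q (cp l (ap g a)) = 0 := by
  classical
  by_contra hl
  obtain ⟨wi, hwi, hQwi, hpi⟩ := (isPlane_of_two h hk i).exists_perp (cm i (ap g a)) hi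
  obtain ⟨wj, hwj, hQwj, hpj⟩ := (isPlane_of_two h hk j).exists_perp (cm j (ap g a)) hj
  obtain ⟨wl, hwl, hQwl, hpl⟩ := (isPlane_of_two h hk l).exists_perp (cm l (ap g a)) hl
  have key : ∀ (p q : Fin t) (u v : ι → F), p ≠ q → u ∈ D p → v ∈ D q → Q u ≠ 0 → Q v ≠ 0 →
      polar Q (cp p (ap g a)) u = 0 → polar Q (cp q (ap g a)) v = 0 →
      IsSquare (Q u / Q v) → False := by
    intro p q u v hpq hu hv hQu hQv hpu hqv hsq
    obtain ⟨s, hs⟩ := hsq
    have hs0 : s ≠ 0 := fun e => div_ne_zero hQu hQv (by rw [hs, e, mul_zero])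
    obtain ⟨m, n, hmn⟩ := (pair_inside h hK hno hg ha hQa (b := u) (b' := s • v) hu
      ((D q).smul_mem s hv) hQu
      (by rw [QuadraticMap.map_smul, smul_eq_mul, ← hs, div_mul_cancel₀ _ hQv])
      (by rw [polar_comp h.dec _ hu]; exact hpu)
      (by rw [polar_smul_right, polar_comp h.dec _ hv, hqv, smul_zero])
      (fun r hr => by
        have := congrArg (cp q) hr
        rw [map_smul, map_smul, Decomp.comp_of_mem (Over.dec h).decomp.decomp hv, if_pos rfl,
          Decomp.comp_of_mem (Over.dec h).decomp.decomp hu, if_neg (Ne.symm hpq), smul_zero] at this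
        rcases smul_eq_zero.1 this with e | e
        · exact hs0 e
        · exact hQv (by rw [e, QuadraticMap.map_zero]))).1
    obtain ⟨r, -, hr⟩ := Finset.exists_mem_notMem_of_card_lt_card
      (s := ({m, n} : Finset (Fin t))) (t := Finset.univ)
      (by rw [Finset.card_univ, Fintype.card_fin]; exact lt_of_le_of_lt Finset.card_le_two ht)
    simp only [Finset.mem_insert, Finset.mem_singleton, not_or] at hr
    exact comp_ne_zero_of_out h hk hK hno (inv_mem hg) (fun e => hgs (by simpa using inv_mem e)) hu hQu r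
      (hmn r hr.1 hr.2)
  rcases exists_same_class (a := Q wi) (c := Q wl) hQwj with e | e | e
  · exact key i j wi wj hij hwi hwj hQwi hQwj hpi hpj e
  · exact key i l wi wl hil hwi hwl hQwi hQwl hpi hpl e
  · exact key j l wj wl hjl hwj hwl hQwj hQwl hpj hpl e

/-- Split planes: two members in which the image of the same singular vector vanishes. -/
lemma false_of_shared (hk : k = 2) (hK : Kind Q k D) (hno : ∀ v, Cls Q M D v → ∃ r, v ∈ D r)
    (hq : 7 ≤ Fintype.card F) {g : GL ι F} (hg : g ∈ M) (hgs : g ∉ stabD) {o l l' : Fin t}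
    (hll' : l ≠ l') {e f : ι → F} (he : e ∈ D o) (hf : f ∈ D o) (hQe : Q e = 0) (hQf : Q f = 0)
    (hef : polar Q e f = 1) (hl : cp l (ap g e) = 0) (hl' : cp l' (ap g e) = 0) : False := by
  classical
  have hP := isPlane_of_two h hk o
  obtain ⟨β, -, hβ⟩ := Finset.exists_mem_notMem_of_card_lt_card
    (s := ({0, 1, -1} : Finset F) ∪ Finset.univ.filter fun s : F => s * s = -1) (t := Finset.univ) (by
      have h1 := Finset.card_union_le ({0, 1, -1} : Finset F)
        (Finset.univ.filter fun s : F => s * s = -1)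
      have h3 := Finset.card_le_three (a := (0 : F)) (b := 1) (c := -1)
      have h4 : (Finset.univ.filter fun s : F => s * s = -1).card ≤ 2 := by
        rcases (Finset.univ.filter fun s : F => s * s = -1).eq_empty_or_nonempty with h0 | ⟨s₀, hs₀⟩
        · simp [h0]
        refine (Finset.card_le_card (t := {s₀, -s₀}) fun m hm => ?_).trans Finset.card_le_two
        simp at hm hs₀
        rw [Finset.mem_insert, Finset.mem_singleton]
        exact mul_self_eq_mul_self_iff.1 (hm.trans hs₀.symm)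
      rw [Finset.card_univ]
      omega)
  simp only [Finset.mem_union, Finset.mem_insert, Finset.mem_singleton, Finset.mem_filter,
    Finset.mem_univ, true_and, not_or] at hβ
  obtain ⟨⟨hβ0, hβ1, hβn⟩, hβi⟩ := hβ
  set b := e + f with hbdef
  set b' := β • e + β⁻¹ • f with hb'def
  have hb : b ∈ D o := (D o).add_mem he hf
  have hb' : b' ∈ D o := (D o).add_mem ((D o).smul_mem _ he) ((D o).smul_mem _ hf)
  have hQb : Q b = 1 := by rw [hbdef, QuadraticMap.map_add (⇑Q), hQe, hQf, hef]; ring
  have hQb' : Q b' = 1 := by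
    rw [hb'def, QuadraticMap.map_add (⇑Q), QuadraticMap.map_smul, QuadraticMap.map_smul, hQe, hQf,
      polar_smul_left, polar_smul_right, hef, smul_eq_mul, smul_eq_mul, smul_eq_mul, smul_eq_mul]
    field_simp
    ring
  have hbb : polar Q b b' = β + β⁻¹ := by
    rw [hbdef, hb'def, polar_add_left, polar_add_right, polar_add_right, polar_smul_right,
      polar_smul_right, polar_smul_right, polar_smul_right, polar_self_mul, polar_self_mul, hQe, hQf,
      hef, polar_comm Q f e, hef, smul_eq_mul, smul_eq_mul, smul_eq_mul, smul_eq_mul]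
    ring
  have hbb0 : polar Q b b' ≠ 0 := by
    rw [hbb]; intro e0
    field_simp at e0
    exact hβi (by linear_combination e0)
  have hI := h.isom hg
  have hiso := mem_isometryGroup_iff.mp hI
  set F' := rf Q (ap g b) * rf Q (ap g b') with hF'
  have hFeq : F' = g * (rf Q b * rf Q b') * g⁻¹ := by
    rw [hF', ← conj_rf hI, ← conj_rf hI]
    simp [mul_assoc]
  have hFM : F' ∈ M := by
    rw [hFeq]
    exact mul_mem (mul_mem hg (h.pair_mem hb hb' (by rw [hQb]; exact one_ne_zero)
      (hQb.trans hQb'.symm))) (inv_mem hg)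
  have hFs : F' ∉ stabD := fun hs => by
    obtain ⟨m, hm⟩ := (rf_pair_stab h (by rw [hiso, hQb]; exact one_ne_zero)
      (by rw [hiso, hQb']; exact one_ne_zero)
      (fun s hse => by
        have e' := ap_injective g (hse.trans (ap_smul g s b).symm)
        have h1 := congrArg (polar Q e) e'
        have h3 := congrArg (polar Q f) e'
        rw [hb'def, hbdef, polar_add_right, polar_smul_right, polar_smul_right, polar_smul_right,
          polar_add_right, polar_self_mul, hQe, hef] at h1
        rw [hb'def, hbdef, polar_add_right, polar_smul_right, polar_smul_right, polar_smul_right,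
          polar_add_right, polar_self_mul, hQf, polar_comm Q f e, hef] at h3
        simp at h1 h3
        have h4 : β * β = 1 := by
          rw [← h1] at h3; field_simp at h3; linear_combination h3
        exact (mul_self_eq_one_iff.1 h4).elim hβ1 hβn) hs).2
      (by rwa [polar_ap hI]) (by
        rw [polar_ap hI, hiso, hiso, hQb, hQb', hbb]
        intro e0
        field_simp at e0
        have h4 : (β * β - 1) * (β * β - 1) = 0 := by linear_combination -e0
        exact (mul_self_eq_one_iff.1 (sub_eq_zero.1 (mul_self_eq_zero.1 h4))).elim hβ1 hβn)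
    exact out_of_not_stab h hK hno hg hgs hb (by rw [hQb]; exact one_ne_zero) m hm
  obtain ⟨a, ha, hQa⟩ := h.value l (1 : F)
  refine comp_ne_zero_of_out h hk hK hno hFM hFs ha (hQa ▸ one_ne_zero) l' ?_
  set w := ap g⁻¹ a with hw
  have hgw : ap g w = a := ap_ap_inv g a
  obtain ⟨μ, hμ⟩ : ∃ μ : F, cp o w = μ • e := by
    refine hP.mem_line he (fun e0 => by rw [e0] at hef; simp [polar] at hef) hQe (cm o w) ?_
    rw [polar_comm, ← polar_comp h.dec w he, ← polar_ap hI, hgw, polar_comm]
    exact (polar_comp h.dec (ap g e) ha).trans (by rw [hl]; simp [polar])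
  have hre : ∃ ν : F, ap (rf Q b * rf Q b') e = ν • e := by
    refine hP.mem_line he (fun e0 => by rw [e0] at hef; simp [polar] at hef) hQe
      (by rw [ap_mul]; exact ap_rf_mem hb (ap_rf_mem hb' he)) ?_
    rw [ap_mul, ap_rf b' e, ap_rf b, hQb, hQb', hb'def, hbdef]
    simp only [polar_sub_right, polar_sub_left, polar_add_left, polar_add_right, polar_smul_left,
      polar_smul_right, polar_self_mul, hQe, hQf, hef, polar_comm Q f e, smul_eq_mul]
    field_simp
    ring
  obtain ⟨ν, hν⟩ := hre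
  have hwsub : ∀ z ∈ D o, polar Q (w - cp o w) z = 0 := fun z hz => by
    rw [polar_comm]; exact polar_sub_comp h hz
  have hrw : ap (rf Q b * rf Q b') w = (w - cp o w) + (μ * ν) • e := by
    conv_lhs => rw [← sub_add_cancel w (cp o w)]
    rw [ap_add, hμ, ap_smul, hν, smul_smul]
    congr 1
    rw [← hμ, ap_mul, ap_rf_fix (hwsub b' hb'), ap_rf_fix (hwsub b hb)]
  rw [hFeq, ap_mul, ap_mul, ← hw, hrw, ap_add, ap_sub, hgw, hμ, ap_smul, ap_smul, map_add, map_sub,
    map_smul, map_smul, hl', Decomp.comp_of_mem (Over.dec h).decomp.decomp ha, if_neg (Ne.symm hll')]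
  simp

/-- Planes. -/
lemma false_of_planes (hk : k = 2) (hK : Kind Q k D) (ht : 6 ≤ t)
    (hno : ∀ v, Cls Q M D v → ∃ r, v ∈ D r) {g : GL ι F} (hg : g ∈ M) (hgs : g ∉ stabD) :
    False := by
  classical
  set o : Fin t := ⟨0, by omega⟩
  have hP := isPlane_of_two h hk o
  by_cases hA : Aniso Q (D o)
  · obtain ⟨a, ha, hQa⟩ := h.value o (1 : F)
    have hne : ∀ i, Q (cp i (ap g a)) ≠ 0 := fun i e => by
      refine comp_ne_zero_of_out h hk hK hno hg hgs ha (hQa ▸ one_ne_zero) i ?_
      obtain ⟨φ, hφ⟩ := h.dec.isometric i o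
      have h0 : φ ⟨_, cm i (ap g a)⟩ = 0 := Subtype.ext (hA _ (φ _).2 (by rw [hφ]; exact e))
      simpa using congrArg Subtype.val ((map_eq_zero_iff φ φ.injective).1 h0)
    exact hne ⟨2, by omega⟩ (not_three h hk hK hno (by omega) hg hgs ha (hQa ▸ one_ne_zero)
      (i := ⟨0, by omega⟩) (j := ⟨1, by omega⟩) (by simp [Fin.ext_iff]) (by simp [Fin.ext_iff])
      (by simp [Fin.ext_iff]) (hne _) (hne _))
  have hq : 7 ≤ Fintype.card F := by
    rcases hK with ⟨-, -, hsp⟩ | ⟨-, hk4, -, -⟩
    · exact hsp o hA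
    · omega
  simp only [Aniso, not_forall] at hA
  obtain ⟨e, he, hQe, he0⟩ := hA
  obtain ⟨y, hy, hey, -⟩ := hP.partner he he0
  set f := y - Q y • e with hfdef
  have hfD : f ∈ D o := (D o).sub_mem hy ((D o).smul_mem _ he)
  have hQf : Q f = 0 := by
    rw [hfdef, CfsgLib.ClassicalForms.map_sub_eq, QuadraticMap.map_smul, polar_smul_right, hQe,
      polar_comm Q y e, hey, smul_eq_mul, smul_eq_mul]; ring
  have hef : polar Q e f = 1 := by
    rw [hfdef, polar_sub_right, polar_smul_right, polar_self_mul, hQe, hey, smul_eq_mul]; ring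
  have hval : ∀ s : F, Q (e + s • f) = s := fun s => by
    rw [QuadraticMap.map_add (⇑Q), QuadraticMap.map_smul, polar_smul_right, hQe, hQf, hef]; simp
  have hmem : ∀ s : F, e + s • f ∈ D o := fun s => (D o).add_mem he ((D o).smul_mem _ hfD)
  set N := (Finset.univ : Finset F).erase 0 with hN
  have hNcard : N.card = Fintype.card F - 1 := by
    rw [hN, Finset.card_erase_of_mem (Finset.mem_univ _), Finset.card_univ]
  set R := Finset.univ.filter fun l : Fin t => Q (cp l (ap g e)) = 0 ∧
    Q (cp l (ap g f)) = 0 ∧ polar Q (cp l (ap g e)) (cp l (ap g f)) = 0 with hR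
  have hB : (Rᶜ).card * (N.card - 2) ≤ N.card * 2 := by
    refine Finset.card_mul_le_card_mul (fun l s => Q (cp l (ap g (e + s • f))) ≠ 0)
      (fun l hl => ?_) fun s hs => ?_
    · -- at most two singular parameters
      by_contra! hlt
      have hz : 3 ≤ (N.filter fun s => Q (cp l (ap g (e + s • f))) = 0).card := by
        have := Finset.card_filter_add_card_filter_not
          (fun s => Q (cp l (ap g (e + s • f))) = 0) (s := N)
        have e' : (N.filter fun s => ¬ Q (cp l (ap g (e + s • f))) = 0) =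
            Finset.bipartiteAbove (fun l s => Q (cp l (ap g (e + s • f))) ≠ 0) N l := rfl
        rw [e'] at this
        omega
      obtain ⟨s₁, s₂, s₃, h1, h2, h3, h12, h13, h23⟩ :=
        Finset.two_lt_card_iff.1 hz
      have hform : ∀ s : F, Q (cp l (ap g (e + s • f))) = Q (cp l (ap g e)) +
          s * polar Q (cp l (ap g e)) (cp l (ap g f)) + s * s * Q (cp l (ap g f)) := fun s => by
        rw [ap_add, ap_smul, map_add, map_smul, QuadraticMap.map_add (⇑Q), QuadraticMap.map_smul,
          polar_smul_right, smul_eq_mul, smul_eq_mul]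
        ring
      simp only [Finset.mem_filter] at h1 h2 h3
      obtain ⟨-, h1⟩ := h1; obtain ⟨-, h2⟩ := h2; obtain ⟨-, h3⟩ := h3
      rw [hform] at h1 h2 h3
      set A := Q (cp l (ap g e))
      set B := polar Q (cp l (ap g e)) (cp l (ap g f))
      set C := Q (cp l (ap g f))
      have e12 : B + C * (s₁ + s₂) = 0 := (mul_eq_zero.1
        (show (s₁ - s₂) * (B + C * (s₁ + s₂)) = 0 by linear_combination h1 - h2)).resolve_left
        (sub_ne_zero.2 h12)
      have e13 : B + C * (s₁ + s₃) = 0 := (mul_eq_zero.1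
        (show (s₁ - s₃) * (B + C * (s₁ + s₃)) = 0 by linear_combination h1 - h3)).resolve_left
        (sub_ne_zero.2 h13)
      have hC : C = 0 := (mul_eq_zero.1
        (show (s₂ - s₃) * C = 0 by linear_combination e12 - e13)).resolve_left (sub_ne_zero.2 h23)
      have hB0 : B = 0 := by linear_combination e12 - (s₁ + s₂) * hC
      have hA0 : A = 0 := by linear_combination h1 - s₁ * hB0 - s₁ * s₁ * hC
      exact (Finset.mem_compl.1 hl) (Finset.mem_filter.2 ⟨Finset.mem_univ l, hA0, hC, hB0⟩)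
    · -- at most two anisotropic components
      by_contra! hlt
      obtain ⟨i, j, l, h1, h2, h3, hij, hil, hjl⟩ :=
        Finset.two_lt_card_iff.1 hlt
      simp only [Finset.bipartiteBelow, Finset.mem_filter] at h1 h2 h3
      exact h3.2 (not_three h hk hK hno (by omega) hg hgs (hmem s)
        (by rw [hval]; exact (Finset.mem_erase.1 hs).1) hij hil hjl h1.2 h2.2)
  have hRc : 3 ≤ R.card := by
    have := Finset.card_compl_add_card R
    rw [Fintype.card_fin] at this
    by_contra! hlt
    have h5 : 4 ≤ (Rᶜ).card := by omega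
    have := (Nat.mul_le_mul_right (N.card - 2) h5).trans hB
    omega
  have hker : ∀ l ∈ R, cp l (ap g e) = 0 ∨ cp l (ap g f) = 0 := by
    intro l hl
    obtain ⟨-, hA0, hC0, hB0⟩ := Finset.mem_filter.1 hl
    by_contra! hne
    obtain ⟨s, hs⟩ := (isPlane_of_two h hk l).mem_line (cm l _) hne.1 hA0 (cm l _) hB0
    have hs0 : s ≠ 0 := fun e0 => hne.2 (by rw [hs, e0, zero_smul])
    refine comp_ne_zero_of_out h hk hK hno hg hgs (hmem (-s⁻¹)) (by rw [hval]; simp [hs0]) l ?_
    rw [ap_add, ap_smul, map_add, map_smul, hs, smul_smul, neg_mul, inv_mul_cancel₀ hs0,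
      neg_one_smul, add_neg_cancel]
  have hsplit : 2 ≤ (R.filter fun l => cp l (ap g e) = 0).card ∨
      2 ≤ (R.filter fun l => cp l (ap g f) = 0).card := by
    have h1 : R ⊆ (R.filter fun l => cp l (ap g e) = 0) ∪ R.filter fun l => cp l (ap g f) = 0 :=
      fun l hl => by
        rcases hker l hl with e' | e'
        · exact Finset.mem_union_left _ (Finset.mem_filter.2 ⟨hl, e'⟩)
        · exact Finset.mem_union_right _ (Finset.mem_filter.2 ⟨hl, e'⟩)
    have := (Finset.card_le_card h1).trans (Finset.card_union_le _ _)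
    omega
  rcases hsplit with h1 | h1
  · obtain ⟨l, hl, l', hl', hne⟩ := Finset.one_lt_card.1 h1
    exact false_of_shared h hk hK hno hq hg hgs hne he hfD hQe hQf hef
      (Finset.mem_filter.1 hl).2 (Finset.mem_filter.1 hl').2
  · obtain ⟨l, hl, l', hl', hne⟩ := Finset.one_lt_card.1 h1
    exact false_of_shared h hk hK hno hq hg hgs hne hfD he hQf hQe (by rw [polar_comm]; exact hef)
      (Finset.mem_filter.1 hl).2 (Finset.mem_filter.1 hl').2

omit [Fintype F] in
/-- Members of larger dimension: two non-orthogonal vectors of value one in a member orthogonal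
to a given vector. -/
lemma exists_nonorth_perp [Fintype F] (h2 : (2 : F) = 0) (hk : 4 ≤ k) (hev : Even k)
    (hex : Fintype.card F = 2 → k = 4 → ∀ i, ¬ Cfsg.Geo.IsPlusTypeOn (⇑Q) (D i)) (i : Fin t)
    (x : ι → F) :
    ∃ b ∈ D i, ∃ b' ∈ D i, Q b = 1 ∧ Q b' = 1 ∧ polar Q x b = 0 ∧ polar Q x b' = 0 ∧
      polar Q b b' ≠ 0 := by
  classical
  have : CharP F 2 := CharTwo.of_one_ne_zero_of_two_eq_zero one_ne_zero h2
  have hdim := h.dec.decomp.decomp.finrank_eq i
  obtain ⟨W, hWD, hW, hWd, hxW⟩ : ∃ W, W ≤ D i ∧ Cfsg.Geo.IsNondegenerateOn (polar (⇑Q)) W ∧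
      (cp i x ≠ 0 → k ≤ Module.finrank F W + 2) ∧
      (∀ z ∈ W, polar Q (cp i x) z = 0) ∧ (cp i x = 0 → k ≤ Module.finrank F W) := by
    by_cases h0 : cp i x = 0
    · exact ⟨D i, le_rfl, h.dec.decomp.nondegenerate i, fun e => absurd h0 e,
        fun z _ => by rw [h0]; simp [polar], fun _ => hdim.ge⟩
    obtain ⟨z, hz, hz0⟩ := ((h.dec.decomp.nondegenerate i) _ (cm i x) h0).2
    obtain ⟨hW', hd'⟩ := nondeg_perp_pair (h.dec.decomp.nondegenerate i) h2 (cm i x)
      ((D i).smul_mem (polar Q (cp i x) z)⁻¹ hz)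
      (by rw [polar_smul_right, smul_eq_mul, inv_mul_cancel₀ hz0])
    exact ⟨_, inf_le_left.trans inf_le_left, hW', fun _ => hdim ▸ hd',
      fun w hw => by rw [polar_comm]; exact hw.1.2, fun e => absurd e h0⟩
  obtain ⟨hxW, hWd0⟩ := hxW
  have hperp : ∀ z ∈ W, polar Q x z = 0 := fun z hz => by
    rw [polar_comp h.dec x (hWD hz)]; exact hxW z hz
  have h2W : 2 ≤ Module.finrank F W := by
    by_cases h0 : cp i x = 0
    · have := hWd0 h0; omega
    · have := hWd h0; omega
  obtain ⟨b, hb, hQb⟩ := exists_value' hW h2W (1 : F)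
  have hb0 : b ≠ 0 := fun e => one_ne_zero (α := F) (by rw [← hQb, e, QuadraticMap.map_zero])
  obtain ⟨z₀, hz₀, hz₀0⟩ := ((hW b hb hb0)).2
  obtain ⟨z, hz, hbz⟩ : ∃ z ∈ W, polar Q b z = 1 :=
    ⟨_, W.smul_mem (polar Q b z₀)⁻¹ hz₀, by rw [polar_smul_right, smul_eq_mul, inv_mul_cancel₀ hz₀0]⟩
  suffices ∃ p ∈ D i, Q p ≠ 0 ∧ polar Q x p = 0 ∧ polar Q b p ≠ 0 by
    obtain ⟨p, hp, hQp, hxp, hbp⟩ := this
    obtain ⟨s, hs⟩ := isSquare_of_charTwo' (Q p)⁻¹
    have hs0 : s ≠ 0 := fun e => inv_ne_zero hQp (by rw [hs, e, mul_zero])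
    refine ⟨b, hWD hb, s • p, (D i).smul_mem _ hp, hQb, ?_, hperp b hb, ?_, ?_⟩
    · rw [QuadraticMap.map_smul, smul_eq_mul, ← hs, inv_mul_cancel₀ hQp]
    · rw [polar_smul_right, hxp, smul_zero]
    · rw [polar_smul_right, smul_eq_mul]; exact mul_ne_zero hs0 hbp
  by_cases hQz : Q z ≠ 0
  · exact ⟨z, hWD hz, hQz, hperp z hz, by rw [hbz]; exact one_ne_zero⟩
  push Not at hQz
  by_cases hν : ∃ ν : F, ν ≠ 0 ∧ ν ≠ 1
  · obtain ⟨ν, hν0, hν1⟩ := hν
    refine ⟨z + ν • b, (D i).add_mem (hWD hz) ((D i).smul_mem _ (hWD hb)), ?_, ?_, ?_⟩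
    · rw [QuadraticMap.map_add (⇑Q), QuadraticMap.map_smul, polar_smul_right, hQz, hQb,
        polar_comm Q z b, hbz, smul_eq_mul, smul_eq_mul]
      intro e
      rcases mul_eq_zero.1 (show ν * (ν + 1) = 0 by linear_combination e) with e | e
      · exact hν0 e
      · exact hν1 (by linear_combination e - h2)
    · rw [polar_add_right, polar_smul_right, hperp z hz, hperp b hb]; simp
    · rw [polar_add_right, polar_smul_right, polar_self_mul, hbz, h2]; simp
  push Not at hν
  have hcard : Fintype.card F = 2 := by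
    rw [← Nat.card_eq_fintype_card, Nat.card_eq_two_iff]
    exact ⟨0, 1, zero_ne_one, Set.eq_univ_of_forall fun a => by
      by_cases ha : a = 0
      · exact Or.inl ha
      · exact Or.inr (hν a ha)⟩
  obtain ⟨e, he, hQe, hxe, hbe, hze⟩ : ∃ e ∈ D i, Q e = 1 ∧ polar Q x e = 0 ∧ polar Q b e = 0 ∧
      polar Q z e = 0 := by
    by_cases hx1 : Q (cp i x) = 1
    · refine ⟨cp i x, cm i x, hx1, ?_, ?_, ?_⟩
      · rw [polar_comp h.dec x (cm i x), polar_self_mul, h2, zero_mul]
      · rw [polar_comm]; exact hxW b hb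
      · rw [polar_comm]; exact hxW z hz
    have hbig : 4 ≤ Module.finrank F W := by
      by_cases h0 : cp i x = 0
      · have := hWd0 h0; omega
      by_contra hlt
      have := hWd h0
      have hk4 : k = 4 := by
        obtain ⟨r, hr⟩ := hev
        omega
      have hx0 : Q (cp i x) = 0 := by
        by_contra e; exact hx1 (hν _ e)
      refine hex hcard hk4 i ⟨Submodule.span F (Set.range ![cp i x, z]), ?_, ?_, ?_⟩
      · rw [Submodule.span_le]
        rintro _ ⟨l, rfl⟩
        fin_cases l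
        · exact cm i x
        · exact hWD hz
      · intro e he
        rw [Submodule.mem_span_range_iff_exists_fun] at he
        obtain ⟨c, rfl⟩ := he
        rw [Fin.sum_univ_two, QuadraticMap.map_add (⇑Q), QuadraticMap.map_smul,
          QuadraticMap.map_smul, polar_smul_left, polar_smul_right]
        simp only [Matrix.cons_val_zero, Matrix.cons_val_one]
        rw [hx0, hQz, hxW z hz]
        simp
      · have hli : LinearIndependent F ![cp i x, z] := by
          refine linearIndependent_fin2.2 ⟨fun e => ?_, fun a e => ?_⟩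
          · have e' : z = 0 := by simpa using e
            rw [e'] at hbz; simp [polar] at hbz
          · simp at e
            have := congrArg (polar Q b) e
            rw [polar_smul_right, hbz, polar_comm Q b, hxW b hb] at this
            simp at this
            rw [this, zero_smul] at e
            exact h0 e.symm
        rw [finrank_span_eq_card hli, hdim, hk4]
        rfl
    obtain ⟨hW'', hd''⟩ := nondeg_perp_pair hW h2 hb hz hbz
    obtain ⟨e, he, hQe⟩ := exists_value' hW'' (by omega) (1 : F)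
    exact ⟨e, hWD he.1.1, hQe, hperp e he.1.1, by rw [polar_comm]; exact he.1.2,
      by rw [polar_comm]; exact he.2⟩
  refine ⟨z + e, (D i).add_mem (hWD hz) he, ?_, ?_, ?_⟩
  · rw [QuadraticMap.map_add (⇑Q), hQz, hQe, hze]; simp
  · rw [polar_add_right, hperp z hz, hxe, add_zero]
  · rw [polar_add_right, hbz, hbe, add_zero]; exact one_ne_zero

/-- A group with an element outside the stabiliser links a vector outside all members. -/
theorem exists_linked_out (hK : Kind Q k D) (ht : k = 2 → 6 ≤ t)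
    (hM : ¬ M ≤ stabD) : ∃ x, Cls Q M D x ∧ ∀ i, x ∉ D i := by
  classical
  by_contra hall
  push Not at hall
  obtain ⟨g, hg, hgs⟩ := SetLike.not_le_iff_exists.mp hM
  rcases id hK with ⟨hk, -, -⟩ | ⟨h2, hk, hev, hex⟩
  · exact false_of_planes h hk hK (ht hk) hall hg hgs
  have : CharP F 2 := CharTwo.of_one_ne_zero_of_two_eq_zero one_ne_zero h2
  obtain ⟨i⟩ : Nonempty (Fin t) := ⟨⟨0, by have := h.dec.decomp.decomp.two_le; omega⟩⟩
  obtain ⟨a, ha, hQa⟩ := h.value i (1 : F)
  obtain ⟨b, hb, b', hb', hQb, hQb', hxb, hxb', hbb⟩ :=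
    exists_nonorth_perp h h2 hk hev hex i (ap g a)
  obtain ⟨m, hm⟩ := (pair_inside h hK hall hg ha (hQa ▸ one_ne_zero) hb hb'
    (by rw [hQb]; exact one_ne_zero) (hQb.trans hQb'.symm) hxb hxb'
    (fun s hs => hbb (by rw [hs, polar_smul_right, polar_self_mul, h2]; simp))).2 hbb
    (fun e => hbb (mul_self_eq_zero.1 (by rw [hQb, hQb'] at e; linear_combination -e + (2 : F) * h2)))
  exact out_of_not_stab h hK hall (inv_mem hg) (fun e => hgs (by simpa using inv_mem e)) hb
    (by rw [hQb]; exact one_ne_zero) m hm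

end CfsgLib.Geometric.Orth.Blocks
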