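import Cfsg.Agent.Lib.Geometric.Orth.Blocks.Descent
import Cfsg.Agent.Lib.Geometric.Orth.Full

/-!
When all vectors of one value are linked the group contains all of `omegaGL`.
-/

namespace CfsgLib.Geometric.Orth.Blocks

open Matrix QuadraticMap CfsgLib.ClassicalForms

variable {ι : Type} [Fintype ι] [DecidableEq ι] {F : Type*} [Field F] [Finite F]
variable {Q : QuadraticForm F (ι → F)} {t k : ℕ} {D : Fin t → Submodule F (ι → F)}
variable {M : Subgroup (GL ι F)}

omit [DecidableEq ι] in
/-- A non-zero singular vector in any subspace of dimension three. -/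
lemma exists_singular' {W : Submodule F (ι → F)} (hW : 3 ≤ Module.finrank F W) :
    ∃ e ∈ W, e ≠ 0 ∧ Q e = 0 := by
  by_cases h2 : (2 : F) = 0
  swap
  · exact exists_singular (Q := Q) h2 hW
  have : CharP F 2 := CharTwo.of_one_ne_zero_of_two_eq_zero one_ne_zero h2
  obtain ⟨v, hv, hv0⟩ := Submodule.exists_mem_ne_zero_of_ne_bot
    (show W ≠ ⊥ from fun e => by rw [e, finrank_bot] at hW; omega)
  by_cases hQv : Q v = 0
  · exact ⟨v, hv, hv0, hQv⟩
  obtain ⟨w, hw, hwv⟩ : ∃ w ∈ W ⊓ LinearMap.ker (pf Q v), w ∉ Submodule.span F {v} := by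
    by_contra! hall
    have h1 := Submodule.finrank_mono (show W ⊓ LinearMap.ker (pf Q v) ≤ Submodule.span F {v}
      from hall)
    rw [finrank_span_singleton hv0] at h1
    have := finrank_le_inf_ker W (pf Q v)
    omega
  by_cases hQw : Q w = 0
  · exact ⟨w, hw.1, fun e => hwv (by rw [e]; exact zero_mem _), hQw⟩
  have := Fintype.ofFinite F
  obtain ⟨s, hs⟩ := isSquare_of_charTwo' (Q v / Q w)
  refine ⟨v + s • w, W.add_mem hv (W.smul_mem _ hw.1), fun e => ?_, ?_⟩
  · by_cases hs0 : s = 0
    · rw [hs0, zero_smul, add_zero] at e; exact hv0 e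
    · refine hwv (Submodule.mem_span_singleton.2 ⟨-s⁻¹, ?_⟩)
      rw [eq_neg_of_add_eq_zero_left e, smul_neg, neg_smul, neg_neg, inv_smul_smul₀ hs0]
  · rw [QuadraticMap.map_add (⇑Q), QuadraticMap.map_smul, polar_smul_right, polar_comm Q v w,
      show polar Q w v = 0 from hw.2, ← hs, smul_eq_mul, div_mul_cancel₀ _ hQw, smul_zero]
    linear_combination Q v * h2

omit [DecidableEq ι] in
/-- A vector of given value, orthogonal to `u`, with given pairing with `z`. -/
lemma exists_split_vector (hQ : Nondeg Q) (hn : 7 ≤ Fintype.card ι) {u z : ι → F}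
    (hu : Q u = 0) (hz : polar Q u z = 0) (c : F) :
    ∃ a, polar Q u a = 0 ∧ polar Q a z = Q z ∧ Q a = c := by
  classical
  set S := Submodule.span F (Set.range ![u, z]) with hS
  set W := LinearMap.ker (pf Q u) ⊓ LinearMap.ker (pf Q z) with hW
  obtain ⟨C, hC⟩ := S.exists_isCompl
  have hS2 : Module.finrank F S ≤ 2 := (finrank_range_le_card ![u, z]).trans (by simp)
  have hCd := Submodule.finrank_add_eq_of_isCompl hC
  rw [Module.finrank_fintype_fun_eq_card] at hCd
  have h1 := finrank_le_inf_ker C (pf Q u)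
  have h3 := finrank_le_inf_ker (C ⊓ LinearMap.ker (pf Q u)) (pf Q z)
  obtain ⟨e, he, he0, hQe⟩ := exists_singular' (Q := Q)
    (W := C ⊓ LinearMap.ker (pf Q u) ⊓ LinearMap.ker (pf Q z)) (by omega)
  have heS : e ∉ S := fun h => he0 (Submodule.disjoint_def.1 hC.disjoint e h he.1.1)
  have heu : polar Q e u = 0 := he.1.2
  have hez : polar Q e z = 0 := he.2
  obtain ⟨x, hx, hex⟩ := exists_polar_sep hQ heS
  have hxu : polar Q u x = 0 := hx u (Submodule.subset_span ⟨0, rfl⟩)
  have hxz : polar Q z x = 0 := hx z (Submodule.subset_span ⟨1, rfl⟩)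
  obtain ⟨a₀, hau, haz⟩ : ∃ a₀, polar Q u a₀ = 0 ∧ polar Q a₀ z = Q z := by
    by_cases hzu : z ∈ Submodule.span F {u}
    · obtain ⟨s, rfl⟩ := Submodule.mem_span_singleton.1 hzu
      exact ⟨0, by simp [polar], by rw [QuadraticMap.map_smul, hu, smul_zero]; simp [polar]⟩
    obtain ⟨w, hw1, hw2⟩ := exists_polar_pair hQ hzu
    refine ⟨Q z • w, by rw [polar_smul_right, hw1, smul_zero], ?_⟩
    rw [polar_smul_left, polar_comm Q w z, hw2, smul_eq_mul, mul_one]
  set a₁ := a₀ + (1 - polar Q a₀ e) • x with ha₁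
  have hae : polar Q a₁ e = 1 := by
    rw [ha₁, polar_add_left, polar_smul_left, polar_comm Q x e, hex, smul_eq_mul]; ring
  refine ⟨a₁ + (c - Q a₁) • e, ?_, ?_, ?_⟩
  · rw [polar_add_right, ha₁, polar_add_right, polar_smul_right, polar_smul_right, hau, hxu,
      polar_comm Q u e, heu]
    simp
  · rw [polar_add_left, ha₁, polar_add_left, polar_smul_left, polar_smul_left, haz, hez,
      polar_comm Q x z, hxz]
    simp
  · rw [QuadraticMap.map_add (⇑Q), QuadraticMap.map_smul, polar_smul_right, hae, hQe, smul_eq_mul,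
      smul_eq_mul]
    ring

/-- All vectors of a value linked gives all of `omegaGL`. -/
theorem omega_le_of_sphere (h : Over Q k D M) (hn : 7 ≤ Fintype.card ι) {c : F} (hc : c ≠ 0)
    (hs : ∀ v, Q v = c → Cls Q M D v) : Cfsg.Geo.omegaGL (⇑Q) ≤ M := by
  refine Full.of_forall h.nondeg h.card fun u _ hu z hz => ?_
  have key : ∀ a, ∀ ha : polar Q u a = 0, Q a = c → sg Q u a hu ha ∈ M := by
    intro a ha hQa
    have hb : Q (a + c • u) = c := by
      rw [QuadraticMap.map_add (⇑Q), QuadraticMap.map_smul, hu, polar_smul_right, polar_comm Q a u,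
        ha, hQa]
      simp
    have := Cls.mul h (hs a hQa) (hs _ hb) (hQa.trans hb.symm)
    convert this using 1
    refine gl_ext fun x => ?_
    rw [ap_mul, ap_sg, ap_rf a, ap_rf (a + c • u), hb, hQa, polar_sub_left, polar_smul_left,
      polar_add_left, polar_smul_left, polar_self_mul, hQa, ha, polar_add_right, polar_smul_right]
    simp only [smul_eq_mul]
    match_scalars <;> field_simp <;> ring
  obtain ⟨a, ha, haz, hQa⟩ := exists_split_vector h.nondeg hn hu hz c
  have hb : polar Q u (z - a) = 0 := by rw [polar_sub_right, hz, ha, sub_zero]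
  have hQb : Q (z - a) = c := by
    rw [CfsgLib.ClassicalForms.map_sub_eq, hQa, polar_comm Q z a, haz]; ring
  have := mul_mem (key a ha hQa) (key _ hb hQb)
  rwa [sg_add', sg_congr rfl (add_sub_cancel a z)] at this

end CfsgLib.Geometric.Orth.Blocks
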