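import Cfsg.Agent.Lib.Geometric.Orth.Blocks.Odd
import Cfsg.Agent.Lib.Geometric.Orth.Blocks.Finish

/-!
The stabiliser in `omegaGL` of an orthogonal decomposition into isometric planes, or into members
of larger even dimension in characteristic two, is maximal.
-/

namespace CfsgLib.Geometric.Orth.Blocks

open Matrix QuadraticMap CfsgLib.ClassicalForms

variable {ι : Type} [Fintype ι] [DecidableEq ι] {F : Type*} [Field F] [Fintype F]
variable {Q : QuadraticForm F (ι → F)} {t k : ℕ} {D : Fin t → Submodule F (ι → F)}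
variable {M : Subgroup (GL ι F)}

/-- A linked vector outside the members gives one meeting exactly two. -/
lemma two_of_linked_out (h : Over Q k D M) (hK : Kind Q k D) (ht : k = 2 → 6 ≤ t) {x : ι → F}
    (hx : Cls Q M D x) (hnb : ∀ i, x ∉ D i) : Two Q M D (Q x) := by
  classical
  rcases hK with ⟨rfl, hq, hsp⟩ | ⟨h2, hk, hev, hex⟩
  · by_cases h2 : (2 : F) = 0
    · by_cases hA : ∀ i, Aniso Q (D i)
      · exact two_of_anisotropic h hq hA (J := ∅) (by simp) (flex_of_two h h2 x) hx hnb
      push Not at hA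
      obtain ⟨i₀, hi₀⟩ := hA
      exact two_of_split h (hsp i₀ hi₀) (fun i hAi => hi₀ (aniso_member h hAi i₀)) (J := ∅)
        (by simp) (flex_of_two h h2 x) hx hnb
    · have hodd : Fintype.card F % 2 = 1 := FiniteField.odd_card_of_char_ne_two fun e => h2 (by
        have := ringChar.Nat.cast_ringChar (R := F); rw [e] at this; exact_mod_cast this)
      exact two_of_odd h h2 (by omega) hsp (ht rfl) hx hnb
  · exact two_of_large h h2 hk hev
      (fun hq => hex (by rwa [Nat.card_eq_fintype_card] at hq)) hx hnb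

/-- A group with an element outside the stabiliser contains all of `omegaGL`. -/
theorem omega_le_of_not_stab (h : Over Q k D M) (hn : 7 ≤ Fintype.card ι) (hK : Kind Q k D)
    (ht : k = 2 → 6 ≤ t) (hM : ¬ M ≤ Cfsg.Geo.decompositionStabilizer D) :
    Cfsg.Geo.omegaGL (⇑Q) ≤ M := by
  classical
  obtain ⟨x, hx, hnb⟩ := exists_linked_out h hK ht hM
  obtain ⟨i, j, hij, a, ha, b, hb, ha0, hb0, hab, hl⟩ := two_of_linked_out h hK ht hx hnb
  have hside : (2 : F) = 0 ∨ 3 ≤ t := by
    rcases hK with ⟨hk, -, -⟩ | ⟨h2, -, -, -⟩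
    · exact Or.inr (le_trans (by norm_num) (ht hk))
    · exact Or.inl h2
  have hp := pair_of_linked h hK hside hij ha hb ha0 hb0 hl
  rw [hab] at hp
  refine omega_le_of_sphere h hn hx.1 fun v hv => sphere_of_pairs h hK (fun i' j' hij' => ?_) hv
  exact Pair.all h hij hp hij'

/-- Not every element of `omegaGL` stabilises the decomposition. -/
lemma omega_not_le_stab (h : Over Q k D M) (hK : Kind Q k D) (ht : k = 2 → 6 ≤ t) :
    ¬ Cfsg.Geo.omegaGL (⇑Q) ≤ Cfsg.Geo.decompositionStabilizer D := by
  classical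
  intro hle
  have hd := h.dec.decomp.decomp
  rcases id hK with ⟨hk, -, -⟩ | ⟨h2, hk, hev, hex⟩
  · have := ht hk
    set i : Fin t := ⟨0, by omega⟩
    set j : Fin t := ⟨1, by omega⟩
    set l : Fin t := ⟨2, by omega⟩
    have hij : i ≠ j := by simp [i, j, Fin.ext_iff]
    have hil : i ≠ l := by simp [i, l, Fin.ext_iff]
    have hjl : j ≠ l := by simp [j, l, Fin.ext_iff]
    obtain ⟨a, ha, hQa⟩ := h.value i (1 : F)
    obtain ⟨b, hb, hQb⟩ := h.value j (-1 : F)
    obtain ⟨e, he, hQe⟩ := h.value l (1 : F)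
    set v := a + b + e with hv
    have hQv : Q v = 1 := by
      rw [hv, QuadraticMap.map_add (⇑Q), QuadraticMap.map_add (⇑Q) a b, hQa, hQb, hQe,
        polar_add_left, orth_apply_blocks h.dec hij ha hb, orth_apply_blocks h.dec hil ha he,
        orth_apply_blocks h.dec hjl hb he]
      ring
    have hc : ∀ s, Decomp.comp hd s v = (if s = i then a else 0) + (if s = j then b else 0) +
        if s = l then e else 0 := fun s => by
      rw [hv, map_add, map_add, Decomp.comp_of_mem hd ha, Decomp.comp_of_mem hd hb,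
        Decomp.comp_of_mem hd he]
    have h3 : ∀ s, s = i ∨ s = j ∨ s = l → Decomp.comp hd s v ≠ 0 := by
      rintro s (rfl | rfl | rfl) e0 <;> rw [hc] at e0
      · simp [hij, hil] at e0
        rw [e0, QuadraticMap.map_zero] at hQa
        exact zero_ne_one hQa
      · simp [Ne.symm hij, hjl] at e0
        rw [e0, QuadraticMap.map_zero] at hQb
        exact neg_ne_zero.2 one_ne_zero hQb.symm
      · simp [Ne.symm hil, Ne.symm hjl] at e0
        rw [e0, QuadraticMap.map_zero] at hQe
        exact zero_ne_one hQe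
    obtain ⟨⟨p, q, hpq⟩, -⟩ := rf_pair_stab h (y := v) (y' := a) (by rw [hQv]; exact one_ne_zero)
      (by rw [hQa]; exact one_ne_zero) (fun s hs => by
        have := congrArg (Decomp.comp hd j) hs
        rw [map_smul, Decomp.comp_of_mem hd ha, if_neg (Ne.symm hij)] at this
        rcases smul_eq_zero.1 this.symm with e0 | e0
        · rw [e0, zero_smul] at hs
          rw [hs, QuadraticMap.map_zero] at hQa
          exact zero_ne_one hQa
        · exact h3 j (Or.inr (Or.inl rfl)) e0)
      (hle (rf_mul_rf_mem h.nondeg h.card (by rw [hQv]; exact one_ne_zero) (hQv.trans hQa.symm)))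
    have key : ∀ s, s = i ∨ s = j ∨ s = l → s = p ∨ s = q := fun s hs => by
      by_contra! hne
      exact h3 s hs (hpq s hne.1 hne.2)
    rcases key i (Or.inl rfl) with e1 | e1 <;> rcases key j (Or.inr (Or.inl rfl)) with e2 | e2 <;>
      rcases key l (Or.inr (Or.inr rfl)) with e3 | e3
    all_goals first
      | exact hij (e1.trans e2.symm)
      | exact hil (e1.trans e3.symm)
      | exact hjl (e2.trans e3.symm)
  · set i : Fin t := ⟨0, by have := hd.two_le; omega⟩
    set j : Fin t := ⟨1, by have := hd.two_le; omega⟩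
    have hij : i ≠ j := by simp [i, j, Fin.ext_iff]
    obtain ⟨a, ha, b, hb, hQa, hQb, -, -, hab⟩ :=
      exists_nonorth_perp h h2 hk hev hex i (0 : ι → F)
    obtain ⟨e, he, he0, hQe⟩ := exists_singular' (Q := Q) (W := D j)
      (by rw [hd.finrank_eq]; omega)
    have hQv : Q (b + e) = 1 := by
      rw [value_pair h hij hb he, hQb, hQe, add_zero]
    have hB : polar Q (b + e) a ≠ 0 := by
      rw [polar_add_left, polar_comm Q e a, orth_apply_blocks h.dec hij ha he, add_zero, polar_comm]
      exact hab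
    obtain ⟨m, hm⟩ := (rf_pair_stab h (y := b + e) (y' := a) (by rw [hQv]; exact one_ne_zero)
      (by rw [hQa]; exact one_ne_zero) (fun s hs => hB (by
        rw [hs, polar_smul_right, polar_self_mul, h2]; simp))
      (hle (rf_mul_rf_mem h.nondeg h.card (by rw [hQv]; exact one_ne_zero)
        (hQv.trans hQa.symm)))).2 hB (fun e0 => hB (mul_self_eq_zero.1 (by
          rw [hQv, hQa] at e0; linear_combination -e0 + (2 : F) * h2)))
    have hb0 : b ≠ 0 := fun e0 => by rw [e0, QuadraticMap.map_zero] at hQb; exact zero_ne_one hQb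
    by_cases e1 : i = m
    · have := Decomp.comp_of_mem hd (i := j) hm
      rw [if_neg fun e2 => hij (e1.trans e2.symm), (comp_pair h hij hb he).2.1] at this
      exact he0 this
    · have := Decomp.comp_of_mem hd (i := i) hm
      rw [if_neg e1, (comp_pair h hij hb he).1] at this
      exact hb0 this

omit M in
/-- The stabiliser in `omegaGL` of a decomposition into planes (at least six, `4 ≤ q`, and `7 ≤ q`
for planes with singular vectors), or into members of even dimension at least four in
characteristic two, is maximal. -/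
theorem blocks_isMaximalIn (hQ : Nondeg Q) (hn : 7 ≤ Fintype.card ι)
    (hD : Cfsg.Geo.IsOrthogonalMDecomposition (⇑Q) k D) (hK : Kind Q k D) (ht : k = 2 → 6 ≤ t) :
    Cfsg.Geo.IsMaximalIn (Cfsg.Geo.omegaGL (⇑Q))
      (Cfsg.Geo.decompositionStabilizer D ⊓ Cfsg.Geo.omegaGL (⇑Q)) := by
  classical
  have h2k : 2 ≤ k := by rcases hK with ⟨hk, -, -⟩ | ⟨-, hk, -, -⟩ <;> omega
  set H := Cfsg.Geo.decompositionStabilizer D ⊓ Cfsg.Geo.omegaGL (⇑Q) with hH
  have h0 : Over Q k D H := ⟨hQ, by omega, hD, h2k, le_rfl, inf_le_right.trans omegaGL_le⟩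
  refine ⟨lt_of_le_of_ne inf_le_right fun he =>
    omega_not_le_stab h0 hK ht (fun g hg => (he ▸ hg : g ∈ H).1), fun M hHM hMS => ?_⟩
  by_cases hM : M ≤ Cfsg.Geo.decompositionStabilizer D
  · exact Or.inl (le_antisymm (le_inf hM hMS) hHM)
  exact Or.inr (le_antisymm hMS (omega_le_of_not_stab
    ⟨hQ, by omega, hD, h2k, hHM, hMS.trans omegaGL_le⟩ hn hK ht hM))

end CfsgLib.Geometric.Orth.Blocks
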