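import Cfsg.Agent.Lib.Geometric.Orth.Blocks.SupportPlane

/-!
Planes through a vector of a member and transitivity on vectors of equal value inside a member,
for members of dimension two or of larger dimension in characteristic two.
-/

namespace CfsgLib.Geometric.Orth.Blocks

open Matrix QuadraticMap CfsgLib.ClassicalForms

variable {ι : Type} [Fintype ι] [DecidableEq ι] {F : Type*} [Field F] [Fintype F]
variable {Q : QuadraticForm F (ι → F)} {t k : ℕ} {D : Fin t → Submodule F (ι → F)}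
variable {M : Subgroup (GL ι F)}

/-- The decompositions treated here: planes, or members of larger even dimension in
characteristic two. -/
def Kind (Q : QuadraticForm F (ι → F)) (k : ℕ) (D : Fin t → Submodule F (ι → F)) : Prop :=
  (k = 2 ∧ 4 ≤ Fintype.card F ∧ ∀ i, ¬ Aniso Q (D i) → 7 ≤ Fintype.card F) ∨
    ((2 : F) = 0 ∧ 4 ≤ k ∧ Even k ∧
      (Fintype.card F = 2 → k = 4 → ∀ i, ¬ Cfsg.Geo.IsPlusTypeOn (⇑Q) (D i)))

omit [DecidableEq ι] in
/-- In characteristic two every non-zero vector of a space of dimension at least four lies in a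
plane of plus type. -/
lemma exists_split_plane {W : Submodule F (ι → F)}
    (hW : Cfsg.Geo.IsNondegenerateOn (polar (⇑Q)) W) (hd : 4 ≤ Module.finrank F W)
    (h2 : (2 : F) = 0) {u : ι → F} (hu : u ∈ W) (hu0 : u ≠ 0) :
    ∃ P, IsPlane Q P ∧ P ≤ W ∧ u ∈ P ∧ ∀ γ : F, ∃ p ∈ P, p ≠ 0 ∧ Q p = γ := by
  classical
  obtain ⟨z, hz, hz0⟩ := (hW u hu hu0).2
  set y := (polar Q u z)⁻¹ • z
  have huy : polar Q u y = 1 := by rw [polar_smul_right, smul_eq_mul, inv_mul_cancel₀ hz0]
  have hy : y ∈ W := W.smul_mem _ hz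
  obtain ⟨hW', hd'⟩ := nondeg_perp_pair hW h2 hu hy huy
  obtain ⟨w, hw, hQw⟩ := exists_value' hW' (by omega) (Q y)
  set e := y + w with he
  have hwu : polar Q w u = 0 := hw.1.2
  have hwy : polar Q w y = 0 := hw.2
  have hQe : Q e = 0 := by
    rw [he, QuadraticMap.map_add (⇑Q), hQw, polar_comm Q y w, hwy]; linear_combination Q y * h2
  have hue : polar Q u e = 1 := by rw [he, polar_add_right, huy, polar_comm Q u w, hwu, add_zero]
  have hli : ∀ s : F, e ≠ s • u := fun s hs => by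
    rw [hs, polar_smul_right, polar_self_mul, h2] at hue; simp at hue
  have hI : LinearIndependent F ![u, e] := by
    refine linearIndependent_fin2.2 ⟨fun h => hli 0 (by simpa using h), fun a h => ?_⟩
    simp at h
    by_cases ha : a = 0
    · rw [ha, zero_smul] at h; exact hu0 h.symm
    · exact hli a⁻¹ (by rw [← h, inv_smul_smul₀ ha])
  set P := Submodule.span F (Set.range ![u, e]) with hP
  have huP : u ∈ P := Submodule.subset_span ⟨0, rfl⟩
  have heP : e ∈ P := Submodule.subset_span ⟨1, rfl⟩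
  have he0 : e ≠ 0 := fun h => by rw [h] at hue; simp [polar] at hue
  refine ⟨P, ⟨by rw [hP, finrank_span_eq_card hI]; rfl, fun x hx hx0 => ?_⟩, ?_, huP, fun γ => ?_⟩
  · have : ∃ x' ∈ P, polar Q x x' ≠ 0 := by
      rw [hP, Submodule.mem_span_range_iff_exists_fun] at hx
      obtain ⟨c, rfl⟩ := hx
      rw [Fin.sum_univ_two]
      simp only [Matrix.cons_val_zero, Matrix.cons_val_one]
      by_contra! hall
      have h1 := hall e heP
      have h3 := hall u huP
      rw [polar_add_left, polar_smul_left, polar_smul_left, hue, polar_self_mul, hQe] at h1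
      rw [polar_add_left, polar_smul_left, polar_smul_left, polar_comm Q e u, hue, polar_self_mul,
        h2] at h3
      simp at h1 h3
      exact hx0 (by simp [Fin.sum_univ_two, h1, h3])
    obtain ⟨x', hx', hne⟩ := this
    exact ⟨⟨x', hx', by rwa [polar_comm]⟩, ⟨x', hx', hne⟩⟩
  · rw [hP, Submodule.span_le]
    rintro _ ⟨i, rfl⟩
    fin_cases i
    · exact hu
    · exact W.add_mem hy hw.1.1
  · refine ⟨u + (γ - Q u) • e, P.add_mem huP (P.smul_mem _ heP), fun h0 => ?_, ?_⟩
    · exact ((linearIndependent_fin2.1 hI).2 (-(γ - Q u)) (by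
        simp only [Matrix.cons_val_zero, Matrix.cons_val_one]
        rw [neg_smul, eq_comm, ← add_eq_zero_iff_eq_neg]; exact h0)).elim
    · rw [QuadraticMap.map_add (⇑Q), QuadraticMap.map_smul, hQe, polar_smul_right, hue, smul_eq_mul,
        smul_eq_mul]
      ring

omit [DecidableEq ι] in
/-- A common neighbour of two vectors of equal value, in characteristic two. -/
lemma exists_between {W : Submodule F (ι → F)}
    (hW : Cfsg.Geo.IsNondegenerateOn (polar (⇑Q)) W) (hd : 4 ≤ Module.finrank F W)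
    (h2 : (2 : F) = 0)
    (hev : Even (Module.finrank F W))
    (hex : Fintype.card F = 2 → Module.finrank F W = 4 → ¬ Cfsg.Geo.IsPlusTypeOn (⇑Q) W)
    {u p : ι → F} (hu : u ∈ W) (hp : p ∈ W) (hu0 : u ≠ 0) (hp0 : p ≠ 0) (hQ : Q u = Q p)
    (hup : polar Q u p = 0) (hne : u ≠ p) :
    ∃ z ∈ W, z ≠ 0 ∧ Q z = Q u ∧ polar Q u z ≠ 0 ∧ polar Q p z ≠ 0 := by
  classical
  suffices ∃ z ∈ W, Q z = Q u ∧ polar Q u z ≠ 0 ∧ polar Q p z ≠ 0 by
    obtain ⟨z, hz, h1, h3, h4⟩ := this
    exact ⟨z, hz, fun e => h3 (by rw [e]; simp [polar]), h1, h3, h4⟩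
  obtain ⟨z, hz, hz0⟩ := (hW u hu hu0).2
  obtain ⟨y₁, hy₁, huy⟩ : ∃ y ∈ W, polar Q u y = 1 :=
    ⟨_, W.smul_mem (polar Q u z)⁻¹ hz, by rw [polar_smul_right, smul_eq_mul, inv_mul_cancel₀ hz0]⟩
  by_cases hpar : p = polar Q p y₁ • u
  · set s := polar Q p y₁
    have hs : s ≠ 0 := fun e => hp0 (by rw [hpar, e, zero_smul])
    obtain ⟨hW', hd'⟩ := nondeg_perp_pair hW h2 hu hy₁ huy
    obtain ⟨w, hw, hQw⟩ := exists_value' hW' (by omega) (Q u - Q y₁)
    have hwu : polar Q w u = 0 := hw.1.2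
    have hwy : polar Q w y₁ = 0 := hw.2
    have huz : polar Q u (y₁ + w) = 1 := by
      rw [polar_add_right, huy, polar_comm Q u w, hwu, add_zero]
    refine ⟨y₁ + w, W.add_mem hy₁ hw.1.1, ?_, by rw [huz]; exact one_ne_zero, ?_⟩
    · rw [QuadraticMap.map_add (⇑Q), hQw, polar_comm Q y₁ w, hwy]; ring
    · rw [hpar, polar_smul_left, huz, smul_eq_mul, mul_one]; exact hs
  obtain ⟨x, hx, hx0⟩ := (hW (p - polar Q p y₁ • u) (W.sub_mem hp (W.smul_mem _ hu))
    (sub_ne_zero.2 hpar)).2
  set y₂ := x - polar Q u x • y₁ with hy₂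
  have hy₂W : y₂ ∈ W := W.sub_mem hx (W.smul_mem _ hy₁)
  have huy₂ : polar Q u y₂ = 0 := by
    rw [hy₂, polar_sub_right, polar_smul_right, huy, smul_eq_mul, mul_one, sub_self]
  have hpy₂ : polar Q p y₂ ≠ 0 := by
    rw [hy₂, polar_sub_right, polar_smul_right, smul_eq_mul]
    rw [polar_sub_left, polar_smul_left, smul_eq_mul] at hx0
    intro e; apply hx0; linear_combination e
  obtain ⟨y, hy⟩ : ∃ y, y = y₁ + ((1 - polar Q p y₁) / polar Q p y₂) • y₂ := ⟨_, rfl⟩
  have hyW : y ∈ W := hy ▸ W.add_mem hy₁ (W.smul_mem _ hy₂W)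
  have huy' : polar Q u y = 1 := by
    rw [hy, polar_add_right, polar_smul_right, huy, huy₂, smul_zero, add_zero]
  have hpy' : polar Q p y = 1 := by
    rw [hy, polar_add_right, polar_smul_right, smul_eq_mul, div_mul_cancel₀ _ hpy₂]; ring
  set g := u + p with hg
  have hgW : g ∈ W := W.add_mem hu hp
  have hgu : polar Q g u = 0 := by
    rw [hg, polar_add_left, polar_self_mul, h2, polar_comm Q p u, hup]; simp
  have hgy : polar Q g y = 0 := by rw [hg, polar_add_left, huy', hpy', one_add_one_eq_two, h2]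
  have hQg : Q g = 0 := by
    rw [hg, QuadraticMap.map_add (⇑Q), hup, hQ]; linear_combination Q p * h2
  have hg0 : g ≠ 0 := fun e => hne (by
    have : u = -p := eq_neg_of_add_eq_zero_left e
    rwa [neg_eq_iff_add_eq_zero.2 (show p + p = 0 by rw [← two_smul F, h2, zero_smul])] at this)
  obtain ⟨hW', hd'⟩ := nondeg_perp_pair hW h2 hu hyW huy'
  obtain ⟨g₀, hg₀, hgg₀⟩ := (hW' g ⟨⟨hgW, hgu⟩, hgy⟩ hg0).2
  obtain ⟨g₁, hg₁, hgg₁⟩ : ∃ g₁ ∈ W ⊓ LinearMap.ker (pf Q u) ⊓ LinearMap.ker (pf Q y),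
      polar Q g g₁ = 1 :=
    ⟨_, Submodule.smul_mem _ (polar Q g g₀)⁻¹ hg₀,
      by rw [polar_smul_right, smul_eq_mul, inv_mul_cancel₀ hgg₀]⟩
  have hgW' : g ∈ W ⊓ LinearMap.ker (pf Q u) ⊓ LinearMap.ker (pf Q y) := ⟨⟨hgW, hgu⟩, hgy⟩
  obtain ⟨g', hg', hg'W'⟩ : ∃ g', g' = g₁ - Q g₁ • g ∧
      g' ∈ W ⊓ LinearMap.ker (pf Q u) ⊓ LinearMap.ker (pf Q y) :=
    ⟨_, rfl, Submodule.sub_mem _ hg₁ (Submodule.smul_mem _ (Q g₁) hgW')⟩
  have hQg' : Q g' = 0 := by
    rw [hg', CfsgLib.ClassicalForms.map_sub_eq, QuadraticMap.map_smul, polar_smul_right, hQg,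
      polar_comm Q g₁ g, hgg₁, smul_eq_mul, smul_eq_mul]; ring
  have hgg' : polar Q g g' = 1 := by
    rw [hg', polar_sub_right, polar_smul_right, hgg₁, polar_self_mul, hQg]; simp
  have hg'u : polar Q u g' = 0 := by rw [polar_comm]; exact hg'W'.1.2
  have hg'y : polar Q y g' = 0 := by rw [polar_comm]; exact hg'W'.2
  have hpu : p = u + g := by rw [hg, ← add_assoc, ← two_smul F u, h2, zero_smul, zero_add]
  by_cases hs : ∃ s : F, s ≠ 0 ∧ s ≠ 1
  · obtain ⟨s, hs0, hs1⟩ := hs
    set μ := (Q u - Q y) / s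
    refine ⟨y + μ • g + s • g', W.add_mem (W.add_mem hyW (W.smul_mem _ hgW))
      (W.smul_mem _ hg'W'.1.1), ?_, ?_, ?_⟩
    · rw [QuadraticMap.map_add (⇑Q), QuadraticMap.map_add (⇑Q) y, QuadraticMap.map_smul,
        QuadraticMap.map_smul, polar_smul_right, polar_smul_right, polar_add_left, polar_smul_left,
        hQg, hQg', hgg', hg'y, polar_comm Q y g, hgy]
      simp only [smul_eq_mul, μ]
      field_simp
      ring
    · rw [polar_add_right, polar_add_right, polar_smul_right, polar_smul_right, huy',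
        polar_comm Q u g, hgu, hg'u]
      simp
    · rw [hpu, polar_add_left, polar_add_right, polar_add_right, polar_add_right, polar_add_right,
        polar_smul_right, polar_smul_right, polar_smul_right, polar_smul_right, huy',
        polar_comm Q u g, hgu, hg'u, hgy, polar_self_mul, hQg, hgg']
      simp only [smul_eq_mul, mul_zero, add_zero, zero_add, mul_one]
      exact fun e => hs1 (by linear_combination e - h2)
  push Not at hs
  have hone : ∀ a : F, a ≠ 0 → a = 1 := hs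
  have hcard : Fintype.card F = 2 := by
    rw [← Nat.card_eq_fintype_card, Nat.card_eq_two_iff]
    exact ⟨0, 1, zero_ne_one, Set.eq_univ_of_forall fun a => by
      by_cases ha : a = 0
      · exact Or.inl ha
      · exact Or.inr (hone a ha)⟩
  by_cases hyu : Q y = Q u
  · exact ⟨y, hyW, hyu, by rw [huy']; exact one_ne_zero, by rw [hpy']; exact one_ne_zero⟩
  by_cases hα : Q u = 0
  · refine ⟨y + u, W.add_mem hyW hu, ?_, ?_, ?_⟩
    · rw [QuadraticMap.map_add (⇑Q), hα, polar_comm Q y u, huy',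
        hone (Q y) (fun e => hyu (e.trans hα.symm))]
      linear_combination h2
    · rw [polar_add_right, huy', polar_self_mul, h2]; simp
    · rw [polar_add_right, hpy', polar_comm Q p u, hup]; simp
  have hy0 : Q y = 0 := by
    by_contra e; exact hyu ((hone _ e).trans (hone _ hα).symm)
  have hgg'' : polar Q g' g = 1 := by rw [polar_comm]; exact hgg'
  obtain ⟨hW'', hd''⟩ := nondeg_perp_pair hW' h2
    hgW' hg'W' hgg'
  by_cases hk4 : Module.finrank F W = 4
  · refine absurd ⟨Submodule.span F (Set.range ![y, g]), ?_, ?_, ?_⟩ (hex hcard hk4)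
    · rw [Submodule.span_le]
      rintro _ ⟨l, rfl⟩
      fin_cases l
      · exact hyW
      · exact hgW
    · intro e he
      rw [Submodule.mem_span_range_iff_exists_fun] at he
      obtain ⟨c, rfl⟩ := he
      rw [Fin.sum_univ_two, QuadraticMap.map_add (⇑Q), QuadraticMap.map_smul,
        QuadraticMap.map_smul, polar_smul_left, polar_smul_right]
      simp only [Matrix.cons_val_zero, Matrix.cons_val_one]
      rw [hy0, hQg, polar_comm Q y g, hgy]
      simp
    · have hli : LinearIndependent F ![y, g] := by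
        refine linearIndependent_fin2.2 ⟨by simpa using hg0, fun a e => ?_⟩
        simp at e
        have := congrArg (polar Q u) e
        rw [polar_smul_right, huy', polar_comm Q u g, hgu, smul_zero] at this
        exact zero_ne_one this
      rw [finrank_span_eq_card hli, hk4]
      rfl
  obtain ⟨r, hr⟩ := hev
  obtain ⟨w, hw, hQw⟩ := exists_value' hW'' (by omega) (Q u)
  have hwu : polar Q w u = 0 := hw.1.1.1.2
  have hwy : polar Q w y = 0 := hw.1.1.2
  have hwg : polar Q w g = 0 := hw.1.2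
  refine ⟨y + w, W.add_mem hyW hw.1.1.1.1, ?_, ?_, ?_⟩
  · rw [QuadraticMap.map_add (⇑Q), hy0, hQw, polar_comm Q y w, hwy]; ring
  · rw [polar_add_right, huy', polar_comm Q u w, hwu]; simp
  · rw [polar_add_right, hpy', hpu, polar_add_left, polar_comm Q u w, hwu, polar_comm Q g w, hwg]
    simp

variable (h : Over Q k D M)
include h

local notation3 "cp" => Decomp.comp (Over.dec h).decomp.decomp

omit [Fintype F] in
lemma isPlane_of_two (hk : k = 2) (i : Fin t) : IsPlane Q (D i) :=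
  ⟨(h.dec.decomp.decomp.finrank_eq i).trans hk, h.dec.decomp.nondegenerate i⟩

/-- A plane of the member through a vector, taking every value which the member takes. -/
lemma exists_plane (hK : Kind Q k D) {i : Fin t} {a : ι → F} (ha : a ∈ D i) (ha0 : a ≠ 0) :
    ∃ P, IsPlane Q P ∧ P ≤ D i ∧ a ∈ P ∧ ((2 : F) ≠ 0 → ¬ Aniso Q P → 7 ≤ Fintype.card F) ∧
      ∀ γ, (∃ p ∈ D i, p ≠ 0 ∧ Q p = γ) → ∃ p ∈ P, p ≠ 0 ∧ Q p = γ := by
  rcases hK with ⟨hk, -, hsplit⟩ | ⟨h2, hk, -, -⟩
  · exact ⟨D i, isPlane_of_two h hk i, le_rfl, ha, fun _ => hsplit i, fun _ hp => hp⟩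
  · obtain ⟨P, hP, hPD, haP, hall⟩ := exists_split_plane (h.dec.decomp.nondegenerate i)
      (by rw [h.dec.decomp.decomp.finrank_eq]; exact hk) h2 ha ha0
    exact ⟨P, hP, hPD, haP, fun h0 => absurd h2 h0, fun γ _ => hall γ⟩

/-- Under freedom a component may be replaced by any vector of the same value. -/
lemma Flex.turn_member (hK : Kind Q k D) {J : Finset (Fin t)} {x y : ι → F} (hf : Flex h J x)
    (hy : Cls Q M D y) (hyx : Q y = Q x) {β : F} (hcomp : ∀ l ∈ J, cp l y = β • cp l x)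
    {i : Fin t} (hi : i ∉ J) (hu0 : cp i y ≠ 0) {p : ι → F} (hp : p ∈ D i) (hp0 : p ≠ 0)
    (hQ : Q p = Q (cp i y)) : Cls Q M D (y - cp i y + p) := by
  rcases hK with ⟨hk, -, -⟩ | ⟨h2, hk, hev, hex⟩
  · exact Flex.turn h hf hy hyx hcomp hi (isPlane_of_two h hk i) le_rfl
      (Decomp.comp_mem _ i y) hu0 hp hp0 hQ
  by_cases hne : cp i y = p
  · rw [← hne, sub_add_cancel]; exact hy
  by_cases hd : Q (cp i y - p) ≠ 0
  · exact (hf.step h hy hyx hcomp hi hp hQ hd).1
  push Not at hd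
  have hB : polar Q (cp i y) p = 0 := by
    rw [CfsgLib.ClassicalForms.map_sub_eq, hQ] at hd
    linear_combination -hd + Q (cp i y) * h2
  obtain ⟨z, hz, -, hQz, huz, hpz⟩ := exists_between (h.dec.decomp.nondegenerate i)
    (by rw [h.dec.decomp.decomp.finrank_eq]; exact hk) h2
    (by rwa [h.dec.decomp.decomp.finrank_eq])
    (fun hq hk4 => hex hq (by rwa [h.dec.decomp.decomp.finrank_eq] at hk4) i)
    (Decomp.comp_mem _ i y) hp hu0 hp0 hQ.symm hB hne
  obtain ⟨h1, hv, hc⟩ := hf.step h hy hyx hcomp hi hz hQz (by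
    rw [CfsgLib.ClassicalForms.map_sub_eq, hQz]
    intro e; exact huz (by linear_combination -e + Q (cp i y) * h2))
  have hci : cp i (y - cp i y + z) = z := by rw [hc, if_pos rfl]
  have := (hf.step h h1 hv (β := β) (fun l hl => by
    rw [hc, if_neg fun e : l = i => hi (e ▸ hl)]; exact hcomp l hl) hi hp (by rw [hci, hQz, hQ]) (by
    rw [hci, CfsgLib.ClassicalForms.map_sub_eq, hQz, hQ, polar_comm]
    intro e; exact hpz (by linear_combination -e + Q (cp i y) * h2))).1
  rwa [hci, add_sub_cancel_right] at this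

end CfsgLib.Geometric.Orth.Blocks
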