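import Cfsg.Agent.Lib.Geometric.Orth.Blocks.Pair

/-!
Planes without singular vectors: a group outside the stabiliser has a linked vector outside the
members.
-/

namespace CfsgLib.Geometric.Orth.Blocks

open Matrix QuadraticMap CfsgLib.ClassicalForms
open CfsgLib.Geometric.Orth.Frame (conj_rf)

variable {ι : Type} [Fintype ι] [DecidableEq ι] {F : Type*} [Field F]
variable {Q : QuadraticForm F (ι → F)} {t : ℕ} {D : Fin t → Submodule F (ι → F)}
variable {M : Subgroup (GL ι F)}

namespace Minus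

omit [DecidableEq ι] in
/-- A plane has a non-zero vector orthogonal to a given one. -/
lemma exists_perp {P : Submodule F (ι → F)} (hP : IsPlane Q P) (u : ι → F) :
    ∃ z ∈ P, z ≠ 0 ∧ polar Q z u = 0 := by
  have h1 := finrank_le_inf_ker P (pf Q u)
  have h2 := hP.dim
  obtain ⟨z, hz, hz0⟩ := Submodule.exists_mem_ne_zero_of_ne_bot
    (show P ⊓ LinearMap.ker (pf Q u) ≠ ⊥ from fun e => by rw [e, finrank_bot] at h1; omega)
  exact ⟨z, hz.1, hz0, hz.2⟩

omit [Fintype ι] [DecidableEq ι] in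
/-- Orthogonal vectors of a plane without singular vectors have values in different classes. -/
lemma perp_class {P : Submodule F (ι → F)} (hA : Aniso Q P) (h2 : (2 : F) ≠ 0) {u z : ι → F}
    (hu : u ∈ P) (hz : z ∈ P) (hu0 : u ≠ 0) (hz0 : z ≠ 0) (hzu : polar Q z u = 0) :
    ¬ IsSquare (-Q u / Q z) := by
  rintro ⟨σ, hσ⟩
  have hQz : Q z ≠ 0 := fun e => hz0 (hA z hz e)
  have hQu : Q u ≠ 0 := fun e => hu0 (hA u hu e)
  have h0 : Q (u + σ • z) = 0 := by
    rw [QuadraticMap.map_add (⇑Q), QuadraticMap.map_smul, polar_smul_right, polar_comm Q u z, hzu,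
      smul_eq_mul, ← hσ, div_mul_cancel₀ _ hQz, smul_zero]
    ring
  have h1 := hA _ (P.add_mem hu (P.smul_mem σ hz)) h0
  have h3 := congrArg (polar Q z) h1
  rw [polar_add_right, hzu, polar_smul_right, polar_self_mul, zero_add] at h3
  have hσ0 : σ = 0 := by simpa [polar, h2, hQz] using h3
  rw [hσ0, mul_zero, div_eq_zero_iff, neg_eq_zero] at hσ
  tauto

/-- A non-square has the square class of every other. -/
lemma isSquare_div_of_not [Finite F] {a b : F} (ha : ¬ IsSquare a) (hb : ¬ IsSquare b) :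
    IsSquare (a / b) := by
  classical
  have := Fintype.ofFinite F
  have ha0 : a ≠ 0 := fun e => ha (e ▸ IsSquare.zero)
  have hb0 : b ≠ 0 := fun e => hb (e ▸ IsSquare.zero)
  rw [← quadraticChar_one_iff_isSquare (div_ne_zero ha0 hb0), div_eq_mul_inv, map_mul,
    quadraticChar_neg_one_iff_not_isSquare.2 ha,
    quadraticChar_neg_one_iff_not_isSquare.2 fun he => hb (by simpa using he.inv)]
  norm_num

omit [Fintype ι] [DecidableEq ι] in
lemma value_ne' (hani : ∀ i, Aniso Q (D i)) {i : Fin t} {x : ι → F} (hx : x ∈ D i)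
    (hx0 : x ≠ 0) : Q x ≠ 0 := fun e => hx0 (hani i x hx e)

variable [Fintype F] (h : Over Q 2 D M) (hani : ∀ i, Aniso Q (D i)) (hq : 4 ≤ Fintype.card F)
variable (hall : ∀ x, Cls Q M D x → ∃ i, x ∈ D i)

local notation3 "cp" => Decomp.comp (Over.dec h).decomp.decomp

include h

omit [Fintype F] in
lemma eq_comp {i : Fin t} {x : ι → F} (h0 : ∀ l, l ≠ i → cp l x = 0) : x = cp i x :=
  Decomp.ext_comp h.dec.decomp.decomp fun l => by
    rw [Decomp.comp_of_mem _ (Decomp.comp_mem _ i x)]
    split_ifs with hl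
    · rw [hl]
    · exact h0 l hl

lemma exists_two_comp {x : ι → F} (hx : ∀ i, x ∉ D i) :
    ∃ r s, r ≠ s ∧ cp r x ≠ 0 ∧ cp s x ≠ 0 := by
  have ht := h.dec.decomp.decomp.two_le
  obtain ⟨r, hr⟩ : ∃ r, cp r x ≠ 0 := by
    by_contra! h0
    refine hx ⟨0, by omega⟩ ?_
    rw [eq_comp h (i := ⟨0, by omega⟩) fun l _ => h0 l]
    exact Decomp.comp_mem _ _ x
  obtain ⟨s, hsr, hs⟩ : ∃ s, s ≠ r ∧ cp s x ≠ 0 := by
    by_contra! h0
    refine hx r ?_
    rw [eq_comp h (i := r) fun l hl => h0 l hl]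
    exact Decomp.comp_mem _ _ x
  exact ⟨r, s, hsr.symm, hr, hs⟩

include hq hani

/-- Outside the stabiliser a vector of every value leaves the members. -/
lemma exists_moved {g : GL ι F} (hg : g ∈ Cfsg.isometryGroup F (⇑Q))
    (hst : g ∉ Cfsg.Geo.decompositionStabilizer D) {γ : F} (hγ : γ ≠ 0) :
    ∃ l, ∃ p ∈ D l, Q p = γ ∧ ∀ r, ap g p ∉ D r := by
  classical
  by_contra! hloc
  have key : ∀ l, ∃ r, ∀ x ∈ D l, ap g x ∈ D r := by
    intro l
    have hP := isPlane_of_two h rfl l
    obtain ⟨p, hp, hQp⟩ := h.value l γ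
    have hp0 : p ≠ 0 := fun e => hγ (by rw [← hQp, e, QuadraticMap.map_zero])
    obtain ⟨r, hr⟩ := hloc l p hp hQp
    have hC := (hP.circle_card hγ).1 (hani l)
    have hfew : ∀ z ∈ D l, z ≠ 0 → Q z = γ →
        ((circle Q (D l) γ).filter fun w => polar Q z w = 0).card ≤ 2 := by
      intro z hz hz0 hQz
      rcases ((circle Q (D l) γ).filter fun w => polar Q z w = 0).eq_empty_or_nonempty with
        e | ⟨w₀, hw₀⟩
      · simp [e]
      refine (Finset.card_le_card (t := {w₀, -w₀}) fun w hw => ?_).trans Finset.card_le_two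
      rw [Finset.mem_filter, mem_circle] at hw hw₀
      obtain ⟨y, hy, hzy, hli⟩ := hP.partner hz hz0
      obtain ⟨⟨hwD, hQw⟩, hzw⟩ := hw
      obtain ⟨⟨hw₀D, hQw₀⟩, hzw₀⟩ := hw₀
      have hw0 : w₀ ≠ 0 := fun e => hγ (by rw [← hQw₀, e, QuadraticMap.map_zero])
      obtain ⟨a, b, hab⟩ := hP.coords hz hy hli hz0 hwD
      obtain ⟨a', b', hab'⟩ := hP.coords hz hy hli hz0 hw₀D
      rw [hab, polar_add_right, polar_smul_right, polar_smul_right, polar_self_mul, hzy,
        smul_eq_mul, smul_eq_mul, mul_one] at hzw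
      rw [hab', polar_add_right, polar_smul_right, polar_smul_right, polar_self_mul, hzy,
        smul_eq_mul, smul_eq_mul, mul_one] at hzw₀
      have ha' : a' ≠ 0 := fun e => hw0 (by
        rw [hab', e, show b' = 0 by linear_combination hzw₀ - (2 * Q z) * e, zero_smul, zero_smul,
          add_zero])
      have hww : w = (a / a') • w₀ := by
        rw [hab, hab', show b = -(2 * Q z * a) by linear_combination hzw,
          show b' = -(2 * Q z * a') by linear_combination hzw₀]
        match_scalars <;> field_simp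
      have hs : a / a' * (a / a') = 1 := mul_right_cancel₀ hγ (by
        have := hQw
        rw [hww, QuadraticMap.map_smul, hQw₀, smul_eq_mul] at this
        rw [one_mul]; exact this)
      rw [Finset.mem_insert, Finset.mem_singleton]
      rcases mul_self_eq_one_iff.1 hs with e | e
      · exact Or.inl (by rw [hww, e, one_smul])
      · exact Or.inr (by rw [hww, e, neg_one_smul])
    have hsame : ∀ z ∈ D l, ∀ w ∈ D l, polar Q z w ≠ 0 → ∀ r r', ap g z ∈ D r → ap g w ∈ D r' →
        r = r' := by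
      intro z _ w _ hzw r r' hz hw
      by_contra hne
      have := orth_apply_blocks h.dec hne hz hw
      rw [polar_ap hg] at this
      exact hzw this
    have hcirc : ∀ z ∈ D l, Q z = γ → ap g z ∈ D r := by
      intro z hz hQz
      have hz0 : z ≠ 0 := fun e => hγ (by rw [← hQz, e, QuadraticMap.map_zero])
      obtain ⟨r', hr'⟩ := hloc l z hz hQz
      obtain ⟨w, hw, hw'⟩ := Finset.exists_mem_notMem_of_card_lt_card
        (s := ((circle Q (D l) γ).filter fun w => polar Q z w = 0) ∪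
          ((circle Q (D l) γ).filter fun w => polar Q p w = 0)) (t := circle Q (D l) γ) (by
          have := Finset.card_union_le ((circle Q (D l) γ).filter fun w => polar Q z w = 0)
            ((circle Q (D l) γ).filter fun w => polar Q p w = 0)
          have := hfew z hz hz0 hQz
          have := hfew p hp hp0 hQp
          omega)
      simp only [Finset.mem_union, Finset.mem_filter, not_or, not_and] at hw'
      obtain ⟨hwD, hQw⟩ := mem_circle.1 hw
      obtain ⟨r'', hr''⟩ := hloc l w hwD hQw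
      rw [hsame p hp w hwD (hw'.2 hw) r r'' hr hr'', ← hsame z hz w hwD (hw'.1 hw) r' r'' hr' hr'']
      exact hr'
    obtain ⟨p', hp'C, hp'⟩ := Finset.exists_mem_notMem_of_card_lt_card
      (s := ({p, -p} : Finset (ι → F))) (t := circle Q (D l) γ) (by
        rw [hC]; exact lt_of_le_of_lt Finset.card_le_two (by omega))
    obtain ⟨hp'D, hQp'⟩ := mem_circle.1 hp'C
    simp only [Finset.mem_insert, Finset.mem_singleton, not_or] at hp'
    have hli : ∀ s : F, p' ≠ s • p := fun s e => by
      have hs : s * s = 1 := mul_right_cancel₀ hγ (by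
        have := hQp'
        rw [e, QuadraticMap.map_smul, hQp, smul_eq_mul] at this
        rw [one_mul]; exact this)
      rcases mul_self_eq_one_iff.1 hs with hs | hs
      · exact hp'.1 (by rw [e, hs, one_smul])
      · exact hp'.2 (by rw [e, hs, neg_one_smul])
    refine ⟨r, fun x hx => ?_⟩
    obtain ⟨a, b, rfl⟩ := hP.coords hp hp'D hli hp0 hx
    rw [ap_add, ap_smul, ap_smul]
    exact (D r).add_mem ((D r).smul_mem _ hr) ((D r).smul_mem _ (hcirc p' hp'D hQp'))
  choose π hπ using key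
  have hmap : ∀ l, (D l).map (apEquiv g).toLinearMap = D (π l) := fun l =>
    Submodule.eq_of_le_of_finrank_eq (fun _ ⟨x, hx, e⟩ => e ▸ hπ l x hx)
      ((LinearEquiv.finrank_map_eq _ _).trans (by simp only [h.dec.decomp.decomp.finrank_eq]))
  have hinj : Function.Injective π := fun a b hab => by
    by_contra hne
    obtain ⟨x, hx, hx0⟩ := Decomp.exists_ne_zero_mem h.dec.decomp.decomp a
    obtain ⟨y, hy, hyx⟩ := ((hmap b).trans (congrArg D hab.symm)).ge (hπ a x hx)
    have hxy : y = x := ap_injective g hyx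
    subst hxy
    have h1 := Decomp.comp_of_mem h.dec.decomp.decomp (i := a) hx
    rw [Decomp.comp_of_mem h.dec.decomp.decomp (i := a) hy, if_pos rfl, if_neg hne] at h1
    exact hx0 h1.symm
  exact hst (mem_decompStab h.dec.decomp.decomp
    (π := Equiv.ofBijective π (Finite.injective_iff_bijective.1 hinj)) hπ)

include hall

/-- If every linked vector lies in a member, outside the stabiliser no member vector stays in the
members. -/
lemma not_mem {g : GL ι F} (hg : g ∈ M) (hst : g ∉ Cfsg.Geo.decompositionStabilizer D)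
    {i : Fin t} {v : ι → F} (hv : v ∈ D i) (hv0 : v ≠ 0) (r : Fin t) : ap g v ∉ D r := by
  intro hr
  have hQv := value_ne' hani hv hv0
  obtain ⟨l, p, hp, hQp, hout⟩ := exists_moved h hani hq (h.isom hg) hst hQv
  obtain ⟨r', hr'⟩ := hall _ (Cls.ap h hg (Cls.of_mem hv hQv)
    (Cls.of_mem hr (by rwa [mem_isometryGroup_iff.mp (h.isom hg)]))
    (Cls.of_mem hp (by rwa [hQp])) hQp.symm)
  exact hout r' hr'

/-- Two axes orthogonal to the image of a member vector come from two vectors in the same two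
members. -/
lemma pair_shape {g : GL ι F} (hg : g ∈ M) (hst : g ∉ Cfsg.Geo.decompositionStabilizer D)
    {l i j : Fin t} (hij : i ≠ j) {p a b : ι → F} (hp : p ∈ D l) (hp0 : p ≠ 0) (ha : a ∈ D i)
    (hb : b ∈ D j) (hQa : Q a ≠ 0) (hab : Q a = Q b) (hya : polar Q (ap g p) a = 0)
    (hyb : polar Q (ap g p) b = 0) :
    ∃ r s, r ≠ s ∧ cp r (ap g⁻¹ a) ≠ 0 ∧ cp s (ap g⁻¹ a) ≠ 0 ∧
      (∀ k, k ≠ r → k ≠ s → cp k (ap g⁻¹ a) = 0 ∧ cp k (ap g⁻¹ b) = 0) ∧
      IsSquare (Q (cp s (ap g⁻¹ a)) / Q (cp r (ap g⁻¹ a))) := by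
  classical
  have hgI := h.isom hg
  set a' := ap g⁻¹ a with ha'
  set b' := ap g⁻¹ b with hb'
  have hiso : ∀ z, Q (ap g⁻¹ z) = Q z := fun z => mem_isometryGroup_iff.mp (inv_mem hgI) z
  have hQa' : Q a' = Q a := by rw [ha', hiso]
  have hQb' : Q b' = Q a := by rw [hb', hiso, hab]
  have hst' : g⁻¹ ∉ Cfsg.Geo.decompositionStabilizer D := fun e => hst (inv_mem_iff.1 e)
  have ha0 : a ≠ 0 := fun e => hQa (by rw [e, QuadraticMap.map_zero])
  have hb0 : b ≠ 0 := fun e => hQa (by rw [hab, e, QuadraticMap.map_zero])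
  have houta := not_mem h hani hq hall (inv_mem hg) hst' ha ha0
  have houtb := not_mem h hani hq hall (inv_mem hg) hst' hb hb0
  have hab' : polar Q b' a' = 0 := by
    rw [ha', hb', polar_ap (inv_mem hgI), orth_apply_blocks h.dec hij.symm hb ha]
  have hne : a' ≠ b' := fun e => by
    have e' : a = b := ap_injective g⁻¹ e
    have := Decomp.comp_of_mem h.dec.decomp.decomp (i := i) ha
    rw [e', Decomp.comp_of_mem h.dec.decomp.decomp hb, if_neg hij, if_pos rfl] at this
    exact hb0 this.symm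
  have hconj : g⁻¹ * (rf Q a * rf Q b) * g = rf Q a' * rf Q b' := by
    rw [ha', hb', ← conj_rf (inv_mem hgI) a, ← conj_rf (inv_mem hgI) b, inv_inv]
    group
  have hxM : rf Q a' * rf Q b' ∈ M :=
    hconj ▸ mul_mem (mul_mem (inv_mem hg) (h.pair_mem ha hb hQa hab)) hg
  have hxS : rf Q a' * rf Q b' ∈ Cfsg.Geo.decompositionStabilizer D := by
    by_contra hns
    refine not_mem h hani hq hall hxM hns hp hp0 l ?_
    rw [← hconj, ap_mul, ap_mul, ap_mul, ap_rf_fix hyb, ap_rf_fix hya, ap_inv_ap]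
    exact hp
  obtain ⟨π, hπ⟩ := hxS
  -- the equations
  have heq : ∀ r k, ∀ z ∈ D r, k ≠ π r →
      (if k = r then z else 0) = ((Q a)⁻¹ * polar Q z (cp r a')) • cp k a' +
        ((Q a)⁻¹ * polar Q z (cp r b')) • cp k b' := by
    intro r k z hz hk
    have hmem : ap (rf Q a' * rf Q b') z ∈ D (π r) := by rw [← hπ r]; exact ⟨z, hz, rfl⟩
    have h1 := Decomp.comp_of_mem h.dec.decomp.decomp (i := k) hmem
    have hpz : ∀ w, polar Q z w = polar Q z (cp r w) := fun w => by
      rw [polar_comm, polar_comp h.dec w hz, polar_comm]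
    rw [if_neg hk, ap_mul, ap_rf, ap_rf, hQa', hQb', polar_sub_left, polar_smul_left, hab',
      smul_zero, sub_zero, map_sub, map_sub, map_smul, map_smul,
      Decomp.comp_of_mem _ hz, hpz a', hpz b'] at h1
    linear_combination (norm := module) h1
  have hsum : ∀ r s, r ≠ s → (∀ k, k ≠ r → k ≠ s → cp k a' = 0) →
      Q a = Q (cp r a') + Q (cp s a') := by
    intro r s hrs h0
    have he : a' = cp r a' + cp s a' := Decomp.ext_comp h.dec.decomp.decomp fun k => by
      rw [map_add, Decomp.comp_of_mem _ (Decomp.comp_mem _ r a'),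
        Decomp.comp_of_mem _ (Decomp.comp_mem _ s a')]
      split_ifs with e1 e2
      · exact absurd (e1.symm.trans e2) hrs
      · rw [e1, add_zero]
      · rename_i e2; rw [e2, zero_add]
      · rename_i e2; rw [h0 k e1 e2, add_zero]
    rw [← hQa']
    conv_lhs => rw [he]
    exact value_pair h hrs (Decomp.comp_mem _ r a') (Decomp.comp_mem _ s a')
  by_cases hind : ∃ r, cp r a' ≠ 0 ∧ ∀ σ : F, cp r b' ≠ σ • cp r a'
  · -- independent components
    obtain ⟨r, hr0, hli⟩ := hind
    set u := cp r a' with hu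
    set v := cp r b' with hv
    have hP := isPlane_of_two h rfl r
    have huD : u ∈ D r := Decomp.comp_mem _ r a'
    have hvD : v ∈ D r := Decomp.comp_mem _ r b'
    have hrest : ∀ k, k ≠ r → k ≠ π r → cp k a' = 0 ∧ cp k b' = 0 := by
      intro k hkr hkπ
      constructor
      · obtain ⟨z, hz, hz0, hzv⟩ := exists_perp hP v
        have hzu : polar Q z u ≠ 0 := fun e => hz0 (hP.eq_zero huD hvD hli hr0 hz e hzv)
        have h1 := heq r k z hz hkπ
        rw [if_neg hkr, ← hu, ← hv, hzv, mul_zero, zero_smul, add_zero, eq_comm, smul_eq_zero] at h1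
        exact h1.resolve_left (mul_ne_zero (inv_ne_zero hQa) hzu)
      · obtain ⟨z, hz, hz0, hzu⟩ := exists_perp hP u
        have hzv : polar Q z v ≠ 0 := fun e => hz0 (hP.eq_zero huD hvD hli hr0 hz hzu e)
        have h1 := heq r k z hz hkπ
        rw [if_neg hkr, ← hu, ← hv, hzu, mul_zero, zero_smul, zero_add, eq_comm, smul_eq_zero] at h1
        exact h1.resolve_left (mul_ne_zero (inv_ne_zero hQa) hzv)
    have hπr : π r ≠ r := fun e => houta r (by
      rw [← ha', eq_comp h (x := a') (i := r) fun k hk => (hrest k hk (by rwa [e])).1]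
      exact Decomp.comp_mem _ r a')
    have hs0 : cp (π r) a' ≠ 0 := fun e => houta r (by
      rw [← ha', eq_comp h (x := a') (i := r) fun k hk => by
        by_cases hkπ : k = π r
        · rw [hkπ]; exact e
        · exact (hrest k hk hkπ).1]
      exact Decomp.comp_mem _ r a')
    refine ⟨r, π r, hπr.symm, hr0, hs0, hrest, ?_⟩
    have h1 := heq r r u huD hπr.symm
    rw [if_pos rfl, ← hu, ← hv, polar_self_mul] at h1
    have h0 : ((Q a)⁻¹ * (2 * Q u) - 1) • u + ((Q a)⁻¹ * polar Q u v) • v = 0 := by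
      linear_combination (norm := module) -h1
    have h2 : 2 * Q u = Q a := by
      have := (coord_eq_zero hli hr0 h0).1
      linear_combination Q a * this - 2 * Q u * mul_inv_cancel₀ hQa
    have h3 := hsum r (π r) hπr.symm fun k h4 h5 => (hrest k h4 h5).1
    rw [show Q (cp (π r) a') = Q u by linear_combination -h2 - h3,
      div_self (value_ne' hani huD hr0)]
    exact IsSquare.one
  push Not at hind
  -- dependent components
  have hfix : ∀ r k, ∀ z ∈ D r, k ≠ r →
      ((Q a)⁻¹ * polar Q z (cp r a')) • cp k a' + ((Q a)⁻¹ * polar Q z (cp r b')) • cp k b' = 0 := by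
    intro r k z hz hkr
    suffices hπr : π r = r by
      have := heq r k z hz (by rwa [hπr])
      rwa [if_neg hkr, eq_comm] at this
    by_contra hπr
    have hP := isPlane_of_two h rfl r
    obtain ⟨w, hwD, hw⟩ : ∃ w ∈ D r, cp r a' ∈ Submodule.span F {w} ∧
        cp r b' ∈ Submodule.span F {w} := by
      by_cases e : cp r a' = 0
      · exact ⟨cp r b', Decomp.comp_mem _ r b', by rw [e]; exact zero_mem _,
          Submodule.mem_span_singleton_self _⟩
      · obtain ⟨σ, hσ⟩ := hind r e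
        exact ⟨cp r a', Decomp.comp_mem _ r a', Submodule.mem_span_singleton_self _,
          by rw [hσ]; exact Submodule.smul_mem _ _ (Submodule.mem_span_singleton_self _)⟩
    have hle : D r ≤ Submodule.span F {w} := fun z hz => by
      have := heq r r z hz (Ne.symm hπr)
      rw [if_pos rfl] at this
      rw [this]
      exact Submodule.add_mem _ (Submodule.smul_mem _ _ hw.1) (Submodule.smul_mem _ _ hw.2)
    have h1 := Submodule.finrank_mono hle
    have h2 := finrank_span_le_card (R := F) ({w} : Set (ι → F))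
    rw [hP.dim] at h1
    simp at h2
    omega
  have hsub : ∀ r, cp r a' = 0 → cp r b' = 0 := by
    intro r hr
    by_contra hv
    refine houtb r ?_
    rw [← hb', eq_comp h (x := b') (i := r) fun k hk => ?_]
    · exact Decomp.comp_mem _ r b'
    obtain ⟨z, hz, hzv⟩ := (h.dec.decomp.nondegenerate r _ (Decomp.comp_mem _ r b') hv).2
    have h1 := hfix r k z hz hk
    rw [hr, polar_comm Q z (cp r b')] at h1
    simp [polar, hQa] at h1
    exact h1.resolve_left fun e => hzv (by simpa [polar] using e)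
  have hμ : ∀ r, cp r a' ≠ 0 → ∃ μ : F, cp r b' = μ • cp r a' ∧
      ∀ k, k ≠ r → cp k a' + μ • cp k b' = 0 := by
    intro r hr
    obtain ⟨μ, hμ⟩ := hind r hr
    refine ⟨μ, hμ, fun k hk => ?_⟩
    obtain ⟨z, hz, hzu⟩ := (h.dec.decomp.nondegenerate r _ (Decomp.comp_mem _ r a') hr).2
    rw [polar_comm] at hzu
    have h1 := hfix r k z hz hk
    rw [hμ, polar_smul_right, smul_eq_mul] at h1
    have h3 : ((Q a)⁻¹ * polar Q z (cp r a')) • (cp k a' + μ • cp k b') = 0 := by
      linear_combination (norm := module) h1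
    exact (smul_eq_zero.1 h3).resolve_left (mul_ne_zero (inv_ne_zero hQa) hzu)
  obtain ⟨r, s, hrs, hr, hs⟩ := exists_two_comp h houta
  obtain ⟨μ, hμr, hμk⟩ := hμ r hr
  obtain ⟨ν, hνs, hνk⟩ := hμ s hs
  have hμν : ∀ (k : Fin t) (μ' ν' : F), cp k a' ≠ 0 → cp k a' + μ' • cp k b' = 0 → cp k b' = ν' • cp k a' →
      μ' * ν' = -1 := by
    intro k μ' ν' hk h1 h3
    rw [h3, smul_smul, show cp k a' + (μ' * ν') • cp k a' = (1 + μ' * ν') • cp k a' by module,
      smul_eq_zero] at h1
    linear_combination h1.resolve_right hk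
  have e1 := hμν s μ ν hs (hμk s hrs.symm) hνs
  have hrest : ∀ k, k ≠ r → k ≠ s → cp k a' = 0 := by
    intro k hkr hks
    by_contra hk
    obtain ⟨ρ, hρk, hρ⟩ := hμ k hk
    have e2 := hμν k μ ρ hk (hμk k hkr) hρk
    have e3 := hμν k ν ρ hk (hνk k hks) hρk
    have e4 := hμν r ν μ hr (hνk r hrs) hμr
    have hμ0 : μ ≠ 0 := fun e => by rw [e, zero_mul] at e1; simp at e1
    have hρν : ρ = ν := mul_left_cancel₀ hμ0 (e2.trans e1.symm)
    have hνμ : ν = μ := by
      have hρ0 : ρ ≠ 0 := fun e => by rw [e, mul_zero] at e2; simp at e2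
      exact mul_right_cancel₀ hρ0 (e3.trans e2.symm)
    -- all ratios agree
    have hall' : ∀ m, cp m b' = μ • cp m a' := fun m => by
      by_cases hm : cp m a' = 0
      · rw [hm, hsub m hm, smul_zero]
      by_cases hmr : m = r
      · rw [hmr, hμr]
      obtain ⟨τ, hτ, hτk⟩ := hμ m hm
      have e5 := hμν m μ τ hm (hμk m hmr) hτ
      rw [hτ, show τ = μ from mul_left_cancel₀ hμ0 (e5.trans (by rw [← hνμ] at e1 ⊢; exact e1.symm))]
    have hb'a : b' = μ • a' := Decomp.ext_comp h.dec.decomp.decomp fun m => by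
      rw [map_smul, hall']
    have h1 : Q a = μ * μ * Q a := by
      conv_lhs => rw [← hQb', hb'a, QuadraticMap.map_smul, hQa', smul_eq_mul]
    have h2 : μ * μ = 1 := mul_right_cancel₀ hQa (by rw [one_mul]; exact h1.symm)
    have hμμ : μ * μ = -1 := by rw [← hνμ] at e1 ⊢; exact e1
    rcases mul_self_eq_one_iff.1 h2 with e | e
    · exact hne (by rw [hb'a, e, one_smul])
    · refine hne ?_
      rw [hb'a, e, show (-1 : F) = 1 by linear_combination h2 - hμμ, one_smul]
  refine ⟨r, s, hrs, hr, hs, fun k hkr hks => ⟨hrest k hkr hks, hsub k (hrest k hkr hks)⟩, ?_⟩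
  by_cases h2 : (2 : F) = 0
  · have : CharP F 2 := CharTwo.of_one_ne_zero_of_two_eq_zero one_ne_zero h2
    exact isSquare_of_charTwo' _
  have hb2 : b' = μ • cp r a' + ν • cp s a' := Decomp.ext_comp h.dec.decomp.decomp fun k => by
    rw [map_add, map_smul, map_smul, Decomp.comp_of_mem _ (Decomp.comp_mem _ r a'),
      Decomp.comp_of_mem _ (Decomp.comp_mem _ s a')]
    split_ifs with e3 e4
    · exact absurd (e3.symm.trans e4) hrs
    · rw [e3, hμr, smul_zero, add_zero]
    · rename_i e4; rw [e4, hνs, smul_zero, zero_add]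
    · rename_i e4; rw [hsub k (hrest k e3 e4)]; simp
  have h3 : μ * (2 * Q (cp r a')) + ν * (2 * Q (cp s a')) = 0 := by
    rw [← hab', hb2, polar_add_left, polar_smul_left, polar_smul_left, smul_eq_mul, smul_eq_mul,
      polar_comm Q (cp r a') a', polar_comm Q (cp s a') a',
      polar_comp h.dec a' (Decomp.comp_mem _ r a'), polar_comp h.dec a' (Decomp.comp_mem _ s a'),
      polar_self_mul, polar_self_mul]
  have hQr := value_ne' hani (Decomp.comp_mem (Over.dec h).decomp.decomp r a') hr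
  refine ⟨μ, ?_⟩
  rw [div_eq_iff hQr]
  refine mul_left_cancel₀ h2 ?_
  linear_combination (-μ) * h3 + (2 * Q (cp s a')) * e1

/-- A group outside the stabiliser has a linked vector outside the members. -/
theorem false_of_planar (ht : 5 ≤ t) {g : GL ι F} (hg : g ∈ M)
    (hst : g ∉ Cfsg.Geo.decompositionStabilizer D) : False := by
  classical
  have hsq : ∀ {a b : F}, (2 : F) = 0 → IsSquare (a / b) := fun h2 => by
    have : CharP F 2 := CharTwo.of_one_ne_zero_of_two_eq_zero one_ne_zero h2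
    exact isSquare_of_charTwo' _
  obtain ⟨p, hp, hp0⟩ := Decomp.exists_ne_zero_mem h.dec.decomp.decomp (⟨0, by omega⟩ : Fin t)
  -- two axes of equal value orthogonal to the image
  obtain ⟨i, j, hij, a, ha, b, hb, hQa, hab, hya, hyb⟩ : ∃ i j, i ≠ j ∧ ∃ a ∈ D i, ∃ b ∈ D j,
      Q a ≠ 0 ∧ Q a = Q b ∧ polar Q (ap g p) a = 0 ∧ polar Q (ap g p) b = 0 := by
    have hz : ∀ m : Fin t, ∃ z ∈ D m, z ≠ 0 ∧ polar Q (ap g p) z = 0 := fun m => by
      obtain ⟨z, hz, hz0, hzy⟩ := exists_perp (isPlane_of_two h rfl m) (cp m (ap g p))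
      exact ⟨z, hz, hz0, by rw [polar_comp h.dec _ hz, polar_comm]; exact hzy⟩
    choose z hzD hz0 hzy using hz
    have hget : ∀ i j : Fin t, i ≠ j → IsSquare (Q (z i) / Q (z j)) → ∃ i j, i ≠ j ∧ ∃ a ∈ D i,
        ∃ b ∈ D j, Q a ≠ 0 ∧ Q a = Q b ∧ polar Q (ap g p) a = 0 ∧ polar Q (ap g p) b = 0 := by
      rintro i j hij ⟨σ, hσ⟩
      refine ⟨i, j, hij, z i, hzD i, σ • z j, (D j).smul_mem _ (hzD j),
        value_ne' hani (hzD i) (hz0 i), ?_, hzy i, by rw [polar_smul_right, hzy j, smul_zero]⟩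
      rw [QuadraticMap.map_smul, smul_eq_mul, ← hσ,
        div_mul_cancel₀ _ (value_ne' hani (hzD j) (hz0 j))]
    set i₀ : Fin t := ⟨0, by omega⟩
    set i₁ : Fin t := ⟨1, by omega⟩
    set i₂ : Fin t := ⟨2, by omega⟩
    by_cases e1 : IsSquare (Q (z i₀) / Q (z i₁))
    · exact hget i₀ i₁ (by simp [i₀, i₁, Fin.ext_iff]) e1
    by_cases e2 : IsSquare (Q (z i₀) / Q (z i₂))
    · exact hget i₀ i₂ (by simp [i₀, i₂, Fin.ext_iff]) e2
    refine hget i₁ i₂ (by simp [i₁, i₂, Fin.ext_iff]) ?_
    have := isSquare_div_of_not e2 e1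
    rwa [div_div_div_cancel_left' _ _ (value_ne' hani (hzD i₀) (hz0 i₀))] at this
  obtain ⟨r, s, hrs, hr, hs, hrest, hcl⟩ :=
    pair_shape h hani hq hall hg hst hij hp hp0 ha hb hQa hab hya hyb
  set y := ap g⁻¹ a with hy
  have hst' : g⁻¹ ∉ Cfsg.Geo.decompositionStabilizer D := fun e => hst (inv_mem_iff.1 e)
  have ha0 : a ≠ 0 := fun e => hQa (by rw [e, QuadraticMap.map_zero])
  -- axes in all members
  obtain ⟨zr, hzr, hzr0, hzru⟩ := exists_perp (isPlane_of_two h rfl r) (cp r y)
  obtain ⟨zs, hzs, hzs0, hzsv⟩ := exists_perp (isPlane_of_two h rfl s) (cp s y)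
  have hQr := value_ne' hani hzr hzr0
  have hQs := value_ne' hani hzs hzs0
  obtain ⟨σ, hσ⟩ : IsSquare (Q zr / Q zs) := by
    by_cases h2 : (2 : F) = 0
    · exact hsq h2
    have n1 := perp_class (hani r) h2 (Decomp.comp_mem _ r y) hzr hr hzr0 hzru
    have n2 := perp_class (hani s) h2 (Decomp.comp_mem _ s y) hzs hs hzs0 hzsv
    obtain ⟨τ, hτ⟩ := isSquare_div_of_not n2 n1
    obtain ⟨ρ, hρ⟩ := hcl
    have := value_ne' hani (Decomp.comp_mem (Over.dec h).decomp.decomp r y) hr
    have := value_ne' hani (Decomp.comp_mem (Over.dec h).decomp.decomp s y) hs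
    refine ⟨τ / ρ, ?_⟩
    rw [div_mul_div_comm, ← hτ, ← hρ]
    field_simp
  have hz : ∀ m : Fin t, ∃ z ∈ D m, Q z = Q zr ∧ polar Q y z = 0 := fun m => by
    by_cases hmr : m = r
    · subst hmr
      exact ⟨zr, hzr, rfl, by rw [polar_comp h.dec _ hzr, polar_comm]; exact hzru⟩
    by_cases hms : m = s
    · subst hms
      refine ⟨σ • zs, (D m).smul_mem _ hzs, ?_, ?_⟩
      · rw [QuadraticMap.map_smul, smul_eq_mul, ← hσ, div_mul_cancel₀ _ hQs]
      · rw [polar_smul_right, polar_comp h.dec _ hzs, polar_comm, hzsv, smul_zero]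
    obtain ⟨z, hz, hQz⟩ := h.value m (Q zr)
    exact ⟨z, hz, hQz, polar_eq_zero_of_comp h hz (hrest m hmr hms).1⟩
  choose z hzD hzQ hzy using hz
  set i₀ : Fin t := ⟨0, by omega⟩
  set i₁ : Fin t := ⟨1, by omega⟩
  have hshape := fun m (hm : i₀ ≠ m) => pair_shape h hani hq hall (inv_mem hg) hst' hm ha ha0
    (hzD i₀) (hzD m) (by rw [hzQ]; exact hQr) (by rw [hzQ, hzQ]) (hzy i₀) (hzy m)
  simp only [inv_inv] at hshape
  obtain ⟨r', s', hrs', -, -, hrest', -⟩ := hshape i₁ (by simp [i₀, i₁, Fin.ext_iff])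
  have hin : ∀ m, ∀ k, k ≠ r' → k ≠ s' → cp k (ap g (z m)) = 0 := by
    intro m k hk1 hk2
    have h0 := (hrest' k hk1 hk2).1
    by_cases hm : i₀ = m
    · subst hm; exact h0
    obtain ⟨r'', s'', -, hr'', hs'', hrest'', -⟩ := hshape m hm
    exact (hrest'' k (fun e => hr'' (e ▸ h0)) (fun e => hs'' (e ▸ h0))).2
  have hmem : ∀ m, ap g (z m) ∈ D r' ⊔ D s' := fun m => by
    have he : ap g (z m) = cp r' (ap g (z m)) + cp s' (ap g (z m)) :=
      Decomp.ext_comp h.dec.decomp.decomp fun k => by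
        rw [map_add, Decomp.comp_of_mem _ (Decomp.comp_mem _ r' (ap g (z m))),
          Decomp.comp_of_mem _ (Decomp.comp_mem _ s' (ap g (z m)))]
        split_ifs with e1 e2
        · exact absurd (e1.symm.trans e2) hrs'
        · rw [e1, add_zero]
        · rename_i e2; rw [e2, zero_add]
        · rename_i e2; rw [hin m k e1 e2, add_zero]
    rw [he]
    exact Submodule.add_mem_sup (Decomp.comp_mem _ r' _) (Decomp.comp_mem _ s' _)
  have hI : LinearIndependent F fun m : Fin t => (⟨ap g (z m), hmem m⟩ : (D r' ⊔ D s' :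
      Submodule F (ι → F))) := by
    rw [Fintype.linearIndependent_iff]
    intro c hc m
    have h0 : ∑ k, c k • z k = 0 := by
      refine ap_injective g ?_
      have e := congrArg Subtype.val hc
      simp only [Submodule.coe_sum, Submodule.coe_smul, Submodule.coe_zero] at e
      rw [show ap g (∑ k, c k • z k) = ∑ k, ap g (c k • z k) from map_sum (apEquiv g) _ _]
      simp only [ap_smul, ap_zero]
      exact e
    have h1 := congrArg (cp m) h0
    rw [Decomp.comp_sum_of_mem _ _ (fun k => (D k).smul_mem _ (hzD k)), map_zero,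
      smul_eq_zero] at h1
    exact h1.resolve_right fun e => hQr (by rw [← hzQ m, e, QuadraticMap.map_zero])
  have h1 := hI.fintype_card_le_finrank
  rw [Fintype.card_fin] at h1
  have h2 := Submodule.finrank_add_le_finrank_add_finrank (D r') (D s')
  rw [(isPlane_of_two h rfl r').dim, (isPlane_of_two h rfl s').dim] at h2
  omega

end Minus

end CfsgLib.Geometric.Orth.Blocks
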