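import Cfsg.Agent.Lib.Geometric.Orth.Blocks.MinusPlanar
import Cfsg.Agent.Lib.Geometric.Orth.Blocks.CharSum
import Cfsg.Agent.Lib.Geometric.Orth.DecompStabMax
import Cfsg.Agent.Lib.Geometric.Orth.Blocks.Finish

/-!
Planes without singular vectors, at least five of them: the stabiliser in `omegaGL` is maximal.
In odd characteristic a linked vector meeting all members is moved to one with a zero component by
reflections selected with character sums.
-/

namespace CfsgLib.Geometric.Orth.Blocks

open Matrix QuadraticMap CfsgLib.ClassicalForms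
open CfsgLib.Geometric.Orth.Frame (rf_mul_self)

variable {ι : Type} [Fintype ι] [DecidableEq ι] {F : Type*} [Field F] [Fintype F]
variable {Q : QuadraticForm F (ι → F)} {t : ℕ} {D : Fin t → Submodule F (ι → F)}
variable {M : Subgroup (GL ι F)}

namespace Minus

variable (h : Over Q 2 D M) (hani : ∀ i, Aniso Q (D i))

local notation3 "cp" => Decomp.comp (Over.dec h).decomp.decomp

omit [Fintype F] in
/-- Squares and non-squares by the character. -/
lemma isSquare_of_char [Fintype F] [DecidableEq F] {a b : F} (ha : a ≠ 0) (hb : b ≠ 0)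
    (hab : quadraticChar F a = quadraticChar F b) : IsSquare (a / b) := by
  rw [← quadraticChar_one_iff_isSquare (div_ne_zero ha hb)]
  have h1 : quadraticChar F (a / b) * quadraticChar F b = quadraticChar F a := by
    rw [← map_mul, div_mul_cancel₀ _ hb]
  rw [← hab] at h1
  rcases quadraticChar_dichotomy ha with e | e <;> rw [e] at h1 <;> linarith

include h

/-- The change of a component by one reflection. -/
lemma move_one {i : Fin t} {y d : ι → F} (hy : Cls Q M D y) (hd : d ∈ D i) (hQd : Q d ≠ 0)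
    (hB : polar Q y d = -Q d) (hsq : IsSquare (Q d / Q y)) :
    Cls Q M D (y + d) ∧ Q (y + d) = Q y := by
  refine ⟨?_, by rw [QuadraticMap.map_add (⇑Q), hB]; ring⟩
  obtain ⟨σ, hσ⟩ := hsq
  have := Cls.reflect h hy (Cls.of_mem hd hQd) (s := σ) (by rw [← hσ, div_mul_cancel₀ _ hy.1])
  rwa [ap_rf, hB, mul_neg, inv_mul_cancel₀ hQd, neg_one_smul, sub_neg_eq_add] at this

/-- The change of two components by a pair of reflections. -/
lemma move_two {i j : Fin t} (hij : i ≠ j) {y d d' : ι → F} (hy : Cls Q M D y) (hd : d ∈ D i)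
    (hd' : d' ∈ D j) (hQd : Q d ≠ 0) (hQd' : Q d' ≠ 0)
    (hB : polar Q y d = -Q d) (hB' : polar Q y d' = -Q d') (hsq : IsSquare (Q d / Q d')) :
    Cls Q M D (y + d + d') ∧ Q (y + d + d') = Q y := by
  have ho : polar Q d d' = 0 := orth_apply_blocks h.dec hij hd hd'
  have hQ' : Q (y + d + d') = Q y := by
    rw [QuadraticMap.map_add (⇑Q), QuadraticMap.map_add (⇑Q), polar_add_left, hB, hB', ho]; ring
  refine ⟨?_, hQ'⟩
  obtain ⟨σ, hσ⟩ := hsq
  have hσ0 : σ ≠ 0 := fun e => by
    rw [e, mul_zero, div_eq_zero_iff] at hσ; tauto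
  have := Cls.pair h hy hd ((D j).smul_mem σ hd') hQd
    (by rw [QuadraticMap.map_smul, smul_eq_mul, ← hσ, div_mul_cancel₀ _ hQd'])
  rw [rf_smul hσ0] at this
  have e1 : ap (rf Q d') y = y + d' := by
    rw [ap_rf, hB', mul_neg, inv_mul_cancel₀ hQd', neg_one_smul, sub_neg_eq_add]
  rw [e1, ap_rf, polar_add_left, hB, polar_comm Q d' d, ho, add_zero, mul_neg,
    inv_mul_cancel₀ hQd, neg_one_smul, sub_neg_eq_add, add_right_comm] at this
  exact this

include hani

/-- A valid value is realised by a change of the component. -/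
lemma exists_delta [DecidableEq F] (h2 : (2 : F) ≠ 0) {i : Fin t} {x : ι → F} {c : F} (hc : c ≠ 0)
    (hu : cp i x ≠ 0) {e : F} (he : e ∈ CharSum.valid (4 * Q (cp i x) / c)) :
    ∃ d ∈ D i, Q d = e * c ∧ polar Q x d = -Q d ∧ d ≠ 0 ∧ Q d ≠ 0 := by
  classical
  set u := cp i x with hudef
  have hP := isPlane_of_two h rfl i
  have huD : u ∈ D i := Decomp.comp_mem _ i x
  have hQu := value_ne' hani huD hu
  obtain ⟨w, hw, hw0, hwu⟩ := exists_perp hP u
  have hQw := value_ne' hani hw hw0
  obtain ⟨he0, hcase⟩ := CharSum.mem_valid.1 he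
  set ρ := 4 * Q u / c with hρ
  have hec : e * c ≠ 0 := mul_ne_zero he0 hc
  obtain ⟨τ, hτ⟩ : IsSquare (e * c * (4 * Q u - e * c) / (4 * Q u * Q w)) := by
    rcases hcase with hcase | hcase
    · rw [hcase, hρ, div_mul_cancel₀ _ hc, sub_self, mul_zero, zero_div]; exact IsSquare.zero
    have hm0 : ρ - e ≠ 0 := fun e0 => by
      rw [e0, MulChar.map_zero, mul_zero] at hcase
      have := CharSum.sgn_sq (F := F)
      rw [← hcase] at this
      norm_num at this
    have n := perp_class (hani i) h2 huD hw hu hw0 hwu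
    have h4 : quadraticChar F (4 * Q u * Q w) = CharSum.sgn F := by
      rw [show 4 * Q u * Q w = -1 * (-Q u / Q w) * ((2 * Q w) * (2 * Q w)) by field_simp; ring,
        map_mul, map_mul, quadraticChar_neg_one_iff_not_isSquare.2 n, map_mul,
        CharSum.char_mul_self (mul_ne_zero h2 hQw), CharSum.sgn]
      ring
    refine isSquare_of_char (mul_ne_zero hec (fun e0 => hm0 ?_))
      (mul_ne_zero (mul_ne_zero (fun e0 => h2 (mul_self_eq_zero.1 (by linear_combination e0))) hQu)
        hQw) ?_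
    · rw [hρ, sub_eq_zero, div_eq_iff hc]; linear_combination e0
    · rw [h4, show e * c * (4 * Q u - e * c) = e * (ρ - e) * (c * c) by
        rw [hρ]; field_simp,
        map_mul, map_mul, hcase, map_mul, CharSum.char_mul_self hc, mul_one]
  refine ⟨(-(e * c) / (2 * Q u)) • u + τ • w, (D i).add_mem ((D i).smul_mem _ huD)
    ((D i).smul_mem _ hw), ?_⟩
  set d := (-(e * c) / (2 * Q u)) • u + τ • w with hd
  have hQd : Q d = e * c := by
    rw [hd, QuadraticMap.map_add (⇑Q), QuadraticMap.map_smul, QuadraticMap.map_smul,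
      polar_smul_left, polar_smul_right, polar_comm Q u w, hwu]
    simp only [smul_eq_mul, mul_zero, add_zero]
    rw [← hτ]
    have h4 : (4 : F) ≠ 0 := fun e => h2 (mul_self_eq_zero.1 (by linear_combination e))
    field_simp
    ring
  refine ⟨hQd, ?_, fun e0 => hec (by rw [← hQd, e0, QuadraticMap.map_zero]), hQd ▸ hec⟩
  have hdD : d ∈ D i := (D i).add_mem ((D i).smul_mem _ huD) ((D i).smul_mem _ hw)
  rw [polar_comp h.dec x hdD, ← hudef, hQd, hd, polar_add_right, polar_smul_right, polar_smul_right,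
    polar_self_mul, polar_comm Q u w, hwu]
  simp only [smul_eq_mul, mul_zero, add_zero]
  field_simp

set_option maxHeartbeats 1000000 in
/-- In odd characteristic a linked vector outside the members gives one meeting two members. -/
theorem two_of_linked_odd (h2 : (2 : F) ≠ 0) (hq : 4 ≤ Fintype.card F) (ht : 5 ≤ t) {x : ι → F}
    (hx : Cls Q M D x) (hnb : ∀ i, x ∉ D i) : ∃ c, Two Q M D c := by
  classical
  by_cases hzero : ∃ j, cp j x = 0
  · obtain ⟨j, hj⟩ := hzero
    exact ⟨_, two_of_anisotropic h hq hani (J := {j}) (by simp) (flex_of_zero h hj) hx hnb⟩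
  push Not at hzero
  have hF : ringChar F ≠ 2 := fun e => h2 (by
    have := ringChar.Nat.cast_ringChar (R := F); rw [e] at this; exact_mod_cast this)
  set c := Q x with hc
  have hc0 : c ≠ 0 := hx.1
  have h4 : (4 : F) ≠ 0 := fun e => h2 (mul_self_eq_zero.1 (by linear_combination e))
  -- from a changed vector to one with a zero component
  have finish : ∀ (d : ι → F) (j l : Fin t), Cls Q M D (x + d) → Q (x + d) = c → Q d = c →
      cp j d = 0 → cp l d ≠ 0 → (∀ i, d ∉ D i) → ∃ c, Two Q M D c := by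
    intro d j l hy hQy hQd hj _ hout
    have hB : polar Q (x + d) x = c := by
      have hBd : polar Q x d = -c := by
        rw [QuadraticMap.map_add (⇑Q), hQd, ← hc] at hQy; linear_combination hQy
      rw [polar_add_left, polar_self_mul, ← hc, polar_comm Q d x, hBd]; ring
    have hz := Cls.reflect h hy hx (s := 1) (by rw [hQy, ← hc, one_mul, one_mul])
    rw [ap_rf, hB, inv_mul_cancel₀ hc0, one_smul, add_sub_cancel_left] at hz
    exact ⟨_, two_of_anisotropic h hq hani (J := {j}) (by simp) (flex_of_zero h hj) hz hout⟩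
  have hfour : ∀ i j r s : Fin t, ∃ l, l ≠ i ∧ l ≠ j ∧ l ≠ r ∧ l ≠ s := fun i j r s => by
    obtain ⟨l, -, hl⟩ := Finset.exists_mem_notMem_of_card_lt_card
      (s := ({i, j, r, s} : Finset (Fin t))) (t := Finset.univ) (by
        rw [Finset.card_univ, Fintype.card_fin]
        exact lt_of_le_of_lt Finset.card_le_four (by omega))
    simp only [Finset.mem_insert, Finset.mem_singleton, not_or] at hl
    exact ⟨l, hl.1, hl.2.1, hl.2.2.1, hl.2.2.2⟩
  have hout : ∀ (d : ι → F) (i j : Fin t), i ≠ j → cp i d ≠ 0 → cp j d ≠ 0 → ∀ r, d ∉ D r := by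
    intro d i j hij hi hj r hr
    by_cases hir : i = r
    · exact hj (by rw [Decomp.comp_of_mem _ hr, if_neg fun e : j = r => hij (hir.trans e.symm)])
    · exact hi (by rw [Decomp.comp_of_mem _ hr, if_neg hir])
  have hcp : ∀ {i : Fin t} {v : ι → F}, v ∈ D i → ∀ l, cp l v = if l = i then v else 0 :=
    fun hv l => Decomp.comp_of_mem _ hv
  have key := CharSum.exists_moves (F := F) hF (α := Fin t) (by rwa [Fintype.card_fin])
    (fun i => 4 * Q (cp i x) / c)
    (fun i => div_ne_zero (mul_ne_zero h4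
      (value_ne' hani (Decomp.comp_mem _ i x) (hzero i))) hc0)
  have hpol : ∀ {i j : Fin t}, i ≠ j → ∀ {a b : ι → F}, a ∈ D i → b ∈ D j → polar Q a b = 0 := by
    intro i j hij a b ha hb
    exact orth_apply_blocks h.dec hij ha hb
  have hsq : ∀ {a b : F}, a ≠ 0 → b ≠ 0 → quadraticChar F (a * b) = 1 →
      IsSquare (a * c / (b * c)) := fun {a b} ha hb hab => by
    refine isSquare_of_char (mul_ne_zero ha hc0) (mul_ne_zero hb hc0) ?_
    rw [map_mul] at hab
    rw [map_mul, map_mul]
    rcases quadraticChar_dichotomy ha with e | e <;> rcases quadraticChar_dichotomy hb with e' | e' <;>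
      rw [e, e'] at hab <;> simp_all
  rcases key with ⟨i, j, hij, a, ha, b, hb, hab, hχ⟩ |
    ⟨i, j, r, hij, hir, hjr, a, ha, b, hb, e, he, hsum, hχ⟩ |
    ⟨i, j, r, s, hij, hir, his, hjr, hjs, hrs, a, ha, b, hb, a', ha', b', hb', hsum, hχ⟩
  · obtain ⟨d, hd, hQd, hBd, hd0, hd'⟩ := exists_delta h hani h2 hc0 (hzero i) ha
    obtain ⟨f, hf, hQf, hBf, hf0, hf'⟩ := exists_delta h hani h2 hc0 (hzero j) hb
    obtain ⟨hy, hQy⟩ := move_two h hij hx hd hf hd' hf' hBd hBf (by
      rw [hQd, hQf]; exact hsq (CharSum.mem_valid.1 ha).1 (CharSum.mem_valid.1 hb).1 hχ)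
    obtain ⟨l, hli, hlj, -, -⟩ := hfour i j i j
    rw [add_assoc x d f] at hy hQy
    refine finish (d + f) l i hy hQy ?_ ?_ ?_ (hout _ i j hij ?_ ?_)
    · rw [QuadraticMap.map_add (⇑Q), hQd, hQf, hpol hij hd hf]; linear_combination c * hab
    all_goals rw [map_add, hcp hd, hcp hf]
    all_goals simp [hij, hij.symm, hd0, hf0, hli, hlj]
  · obtain ⟨d, hd, hQd, hBd, hd0, hd'⟩ := exists_delta h hani h2 hc0 (hzero i) ha
    obtain ⟨f, hf, hQf, hBf, hf0, hf'⟩ := exists_delta h hani h2 hc0 (hzero j) hb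
    obtain ⟨g, hg, hQg, hBg, hg0, hg'⟩ := exists_delta h hani h2 hc0 (hzero r) he
    have ha0 := (CharSum.mem_valid.1 ha).1
    have hb0 := (CharSum.mem_valid.1 hb).1
    have he0 := (CharSum.mem_valid.1 he).1
    -- the one of square class first
    have one : ∀ {i j r : Fin t} {d f g : ι → F} {a b e : F}, i ≠ j → i ≠ r → j ≠ r → d ∈ D i →
        f ∈ D j → g ∈ D r → Q d = a * c → Q f = b * c → Q g = e * c → a ≠ 0 → b ≠ 0 → e ≠ 0 →
        polar Q x d = -Q d → polar Q x f = -Q f → polar Q x g = -Q g →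
        quadraticChar F a = 1 → quadraticChar F (b * e) = 1 →
        Cls Q M D (x + (d + f + g)) ∧ Q (x + (d + f + g)) = c := by
      intro i j r d f g a b e hij hir hjr hd hf hg hQd hQf hQg ha0 hb0 he0 hBd hBf hBg h1 h2
      obtain ⟨hy, hQy⟩ := move_one h hx hd (hQd ▸ mul_ne_zero ha0 hc0) hBd (by
        rw [hQd, ← hc, mul_div_cancel_right₀ _ hc0]
        exact (quadraticChar_one_iff_isSquare ha0).1 h1)
      obtain ⟨hy', hQy'⟩ := move_two h hjr hy hf hg (hQf ▸ mul_ne_zero hb0 hc0)
        (hQg ▸ mul_ne_zero he0 hc0) (by rw [polar_add_left, hBf, hpol hij hd hf, add_zero])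
        (by rw [polar_add_left, hBg, hpol hir hd hg, add_zero])
        (by rw [hQf, hQg]; exact hsq hb0 he0 h2)
      have hQ2 := hQy'.trans hQy
      rw [add_assoc x d f, add_assoc x (d + f) g] at hy' hQ2
      exact ⟨hy', hQ2⟩
    have hres : Cls Q M D (x + (d + f + g)) ∧ Q (x + (d + f + g)) = c := by
      rcases quadraticChar_dichotomy ha0 with e1 | e1
      · refine one hij hir hjr hd hf hg hQd hQf hQg ha0 hb0 he0 hBd hBf hBg e1 ?_
        rwa [mul_assoc, map_mul, e1, one_mul] at hχ
      rcases quadraticChar_dichotomy hb0 with e2 | e2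
      · rw [show d + f + g = f + d + g by abel]
        refine one hij.symm hjr hir hf hd hg hQf hQd hQg hb0 ha0 he0 hBf hBd hBg e2 ?_
        rw [mul_right_comm, map_mul, e2, mul_one] at hχ
        exact hχ
      · rw [show d + f + g = g + d + f by abel]
        refine one hir.symm hjr.symm hij hg hd hf hQg hQd hQf he0 ha0 hb0 hBg hBd hBf ?_ ?_
        · rw [map_mul, map_mul, e1, e2] at hχ; simpa using hχ
        · rw [map_mul, e1, e2]; norm_num
    obtain ⟨l, hli, hlj, hlr, -⟩ := hfour i j r r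
    refine finish (d + f + g) l i hres.1 hres.2 ?_ ?_ ?_ (hout _ i j hij ?_ ?_)
    · rw [QuadraticMap.map_add (⇑Q), QuadraticMap.map_add (⇑Q), polar_add_left, hQd, hQf, hQg,
        hpol hij hd hf, hpol hir hd hg, hpol hjr hf hg]
      linear_combination c * hsum
    all_goals rw [map_add, map_add, hcp hd, hcp hf, hcp hg]
    all_goals simp [hij, hij.symm, hir, hjr, hd0, hf0, hli, hlj, hlr]
  · obtain ⟨d, hd, hQd, hBd, hd0, hd'⟩ := exists_delta h hani h2 hc0 (hzero i) ha
    obtain ⟨f, hf, hQf, hBf, hf0, hf'⟩ := exists_delta h hani h2 hc0 (hzero j) hb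
    obtain ⟨g, hg, hQg, hBg, hg0, hg'⟩ := exists_delta h hani h2 hc0 (hzero r) ha'
    obtain ⟨k, hk, hQk, hBk, hk0, hk'⟩ := exists_delta h hani h2 hc0 (hzero s) hb'
    have ha0 := (CharSum.mem_valid.1 ha).1
    have hb0 := (CharSum.mem_valid.1 hb).1
    have hc0' := (CharSum.mem_valid.1 ha').1
    have he0 := (CharSum.mem_valid.1 hb').1
    have two : ∀ {i j r s : Fin t} {d f g k : ι → F} {a b a' b' : F}, i ≠ j → r ≠ s → i ≠ r →
        i ≠ s → j ≠ r → j ≠ s → d ∈ D i →
        f ∈ D j → g ∈ D r → k ∈ D s → Q d = a * c → Q f = b * c → Q g = a' * c → Q k = b' * c →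
        a ≠ 0 → b ≠ 0 → a' ≠ 0 → b' ≠ 0 →
        polar Q x d = -Q d → polar Q x f = -Q f → polar Q x g = -Q g → polar Q x k = -Q k →
        quadraticChar F (a * b) = 1 → quadraticChar F (a' * b') = 1 →
        Cls Q M D (x + (d + f + g + k)) ∧ Q (x + (d + f + g + k)) = c := by
      intro i j r s d f g k a b a' b' hij hrs hir his hjr hjs hd hf hg hk hQd hQf hQg hQk ha0 hb0
        ha'0 hb'0 hBd hBf hBg hBk h1 h2
      obtain ⟨hy, hQy⟩ := move_two h hij hx hd hf (hQd ▸ mul_ne_zero ha0 hc0)
        (hQf ▸ mul_ne_zero hb0 hc0) hBd hBf (by rw [hQd, hQf]; exact hsq ha0 hb0 h1)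
      obtain ⟨hy', hQy'⟩ := move_two h hrs hy hg hk (hQg ▸ mul_ne_zero ha'0 hc0)
        (hQk ▸ mul_ne_zero hb'0 hc0)
        (by rw [polar_add_left, polar_add_left, hBg, hpol hir hd hg, hpol hjr hf hg, add_zero,
          add_zero])
        (by rw [polar_add_left, polar_add_left, hBk, hpol his hd hk, hpol hjs hf hk, add_zero,
          add_zero])
        (by rw [hQg, hQk]; exact hsq ha'0 hb'0 h2)
      have hQ2 := hQy'.trans hQy
      rw [add_assoc x d f, add_assoc x (d + f) g, add_assoc x (d + f + g) k] at hy' hQ2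
      exact ⟨hy', hQ2⟩
    have hres : Cls Q M D (x + (d + f + g + k)) ∧ Q (x + (d + f + g + k)) = c := by
      rw [map_mul, map_mul, map_mul] at hχ
      by_cases p1 : quadraticChar F a = quadraticChar F b
      · refine two hij hrs hir his hjr hjs hd hf hg hk hQd hQf hQg hQk ha0 hb0 hc0' he0 hBd hBf hBg
          hBk (by rw [map_mul, ← p1, CharSum.char_mul_self ha0]) ?_
        rw [← p1, CharSum.char_mul_self ha0, one_mul] at hχ
        rw [map_mul]; exact hχ
      by_cases p2 : quadraticChar F a = quadraticChar F a'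
      · rw [show d + f + g + k = d + g + f + k by abel]
        refine two hir hjs hij his hjr.symm hrs hd hg hf hk hQd hQg hQf hQk ha0 hc0' hb0 he0 hBd
          hBg hBf hBk (by rw [map_mul, ← p2, CharSum.char_mul_self ha0]) ?_
        rw [← p2, mul_right_comm (quadraticChar F a), CharSum.char_mul_self ha0, one_mul] at hχ
        rw [map_mul]; exact hχ
      have p3 : quadraticChar F a' = quadraticChar F b := by
        rcases quadraticChar_dichotomy ha0 with e | e <;>
          rcases quadraticChar_dichotomy hb0 with e' | e' <;>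
          rcases quadraticChar_dichotomy hc0' with e'' | e'' <;> simp_all
      rw [show d + f + g + k = d + k + f + g by abel]
      rw [p3, mul_assoc (quadraticChar F a), CharSum.char_mul_self hb0, mul_one] at hχ
      exact two his hjr hij hir hjs.symm hrs.symm hd hk hf hg hQd hQk hQf hQg ha0 he0 hb0 hc0'
        hBd hBk hBf hBg (by rw [map_mul]; exact hχ) (by rw [map_mul, p3, CharSum.char_mul_self hb0])
    obtain ⟨l, hli, hlj, hlr, hls⟩ := hfour i j r s
    refine finish (d + f + g + k) l i hres.1 hres.2 ?_ ?_ ?_ (hout _ i j hij ?_ ?_)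
    · rw [QuadraticMap.map_add (⇑Q), QuadraticMap.map_add (⇑Q), QuadraticMap.map_add (⇑Q),
        polar_add_left, polar_add_left, polar_add_left, hQd, hQf, hQg, hQk,
        hpol hij hd hf, hpol hir hd hg, hpol hjr hf hg, hpol his hd hk, hpol hjs hf hk, hpol hrs hg hk]
      linear_combination c * hsum
    all_goals rw [map_add, map_add, map_add, hcp hd, hcp hf, hcp hg, hcp hk]
    all_goals simp [hij, hij.symm, hir, his, hjr, hjs, hd0, hf0, hli, hlj, hlr, hls]

end Minus

open Minus in
/-- The stabiliser in `omegaGL` of an orthogonal decomposition into at least five planes without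
singular vectors is maximal, over a field with at least four elements. -/
theorem anisoPlanes_isMaximalIn {ι : Type} [Fintype ι] [DecidableEq ι] {F : Type*} [Field F]
    [Finite F] {Q : QuadraticForm F (ι → F)} {t : ℕ} {D : Fin t → Submodule F (ι → F)}
    (hQ : Nondeg Q) (hq : 4 ≤ Nat.card F) (ht : 5 ≤ t)
    (hD : Cfsg.Geo.IsOrthogonalMDecomposition (⇑Q) 2 D)
    (hani : ∀ i, ∀ x ∈ D i, Q x = 0 → x = 0) :
    Cfsg.Geo.IsMaximalIn (Cfsg.Geo.omegaGL (⇑Q))
      (Cfsg.Geo.decompositionStabilizer D ⊓ Cfsg.Geo.omegaGL (⇑Q)) := by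
  classical
  have := Fintype.ofFinite F
  rw [Nat.card_eq_fintype_card] at hq
  have hn : 10 ≤ Fintype.card ι := by
    have := decomp_card_eq hD.decomp.decomp
    omega
  set H := Cfsg.Geo.decompositionStabilizer D ⊓ Cfsg.Geo.omegaGL (⇑Q)
  have h0 : Over Q 2 D H := ⟨hQ, by omega, hD, le_rfl, le_rfl, inf_le_right.trans omegaGL_le⟩
  refine ⟨lt_of_le_of_ne inf_le_right fun he => ?_, fun M hHM hMS => ?_⟩
  · -- a product of two reflections leaving the decomposition
    set i : Fin t := ⟨0, by omega⟩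
    set j : Fin t := ⟨1, by omega⟩
    set l : Fin t := ⟨2, by omega⟩
    have hij : i ≠ j := by simp [i, j, Fin.ext_iff]
    have hil : i ≠ l := by simp [i, l, Fin.ext_iff]
    obtain ⟨γ, -, hγ⟩ := Finset.exists_mem_notMem_of_card_lt_card (s := ({0, 1} : Finset F))
      (t := Finset.univ) (by
        rw [Finset.card_univ]; exact lt_of_le_of_lt Finset.card_le_two (by omega))
    simp only [Finset.mem_insert, Finset.mem_singleton, not_or] at hγ
    obtain ⟨a, ha, hQa⟩ := h0.value i γ
    obtain ⟨b, hb, hQb⟩ := h0.value j (1 - γ)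
    obtain ⟨p, hp, hQp⟩ := h0.value l 1
    have ha0 : a ≠ 0 := fun e => hγ.1 (by rw [← hQa, e, QuadraticMap.map_zero])
    have hb0 : b ≠ 0 := fun e => hγ.2 (by
      rw [e, QuadraticMap.map_zero] at hQb; linear_combination hQb)
    obtain ⟨z, hz, haz, hli⟩ := (isPlane_of_two h0 rfl i).partner ha ha0
    have hQx : Q (a + b) = 1 := by rw [value_pair h0 hij ha hb, hQa, hQb]; ring
    have hm : rf Q (a + b) * rf Q p ∈ H := by
      rw [he]; exact rf_mul_rf_mem hQ (by omega) (by rw [hQx]; exact one_ne_zero)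
        (hQx.trans hQp.symm)
    obtain ⟨π, hπ⟩ := hm.1
    have hzm : ap (rf Q (a + b) * rf Q p) z ∈ D (π i) := by rw [← hπ i]; exact ⟨z, hz, rfl⟩
    have hB : polar Q z (a + b) = 1 := by
      rw [polar_add_right, orth_apply_blocks hD hij hz hb, polar_comm Q z a, haz, add_zero]
    rw [ap_mul, ap_rf_fix (orth_apply_blocks hD hil hz hp), ap_rf, hQx, hB, inv_one, one_mul,
      one_smul, show z - (a + b) = (z - a) + -b by abel] at hzm
    obtain ⟨c1, c2, -⟩ := comp_pair h0 hij ((D i).sub_mem hz ha) ((D j).neg_mem hb)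
    rw [Decomp.comp_of_mem _ hzm] at c1 c2
    by_cases e : i = π i
    · rw [if_neg (fun e' => hij (e.trans e'.symm))] at c2
      exact hb0 (neg_eq_zero.1 c2.symm)
    · rw [if_neg e] at c1
      exact hli 1 (by rw [one_smul]; exact sub_eq_zero.1 c1.symm)
  by_cases hM : M ≤ Cfsg.Geo.decompositionStabilizer D
  · exact Or.inl (le_antisymm (le_inf hM hMS) hHM)
  refine Or.inr (le_antisymm hMS ?_)
  have hO : Over Q 2 D M := ⟨hQ, by omega, hD, le_rfl, hHM, hMS.trans omegaGL_le⟩
  have hA : ∀ i, Aniso Q (D i) := hani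
  obtain ⟨g, hgM, hg⟩ := SetLike.not_le_iff_exists.mp hM
  obtain ⟨x, hx, hnb⟩ : ∃ x, Cls Q M D x ∧ ∀ i, x ∉ D i := by
    by_contra! hall
    exact false_of_planar hO hA hq hall ht hgM hg
  obtain ⟨c, hc⟩ : ∃ c, Two Q M D c := by
    by_cases h2 : (2 : F) = 0
    · exact ⟨_, two_of_anisotropic hO hq hA (J := ∅) (by simp) (flex_of_two hO h2 x) hx hnb⟩
    · exact two_of_linked_odd hO hA h2 hq ht hx hnb
  obtain ⟨i, j, hij, a, ha, b, hb, ha0, hb0, -, hl⟩ := hc
  have hK : Kind Q 2 D := Or.inl ⟨rfl, hq, fun i hi => absurd (hA i) hi⟩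
  have hp := pair_of_linked hO hK (Or.inr (by omega)) hij ha hb ha0 hb0 hl
  have hc0 : Q a + Q b ≠ 0 := by rw [← value_pair hO hij ha hb]; exact hl.1
  exact omega_le_of_sphere hO (by omega) hc0 fun v hv =>
    sphere_of_pairs hO hK (fun i' j' hij' => Pair.all hO hij hp hij') hv

end CfsgLib.Geometric.Orth.Blocks
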