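import Cfsg.Agent.Lib.Geometric.Orth.Blocks.CircleSplit

/-!
When the reflections inside a member preserve linkage, and the resulting freedom of the components.
-/

namespace CfsgLib.Geometric.Orth.Blocks

open Matrix QuadraticMap CfsgLib.ClassicalForms

variable {ι : Type} [Fintype ι] [DecidableEq ι] {F : Type*} [Field F]
variable {Q : QuadraticForm F (ι → F)} {t k : ℕ} {D : Fin t → Submodule F (ι → F)}
variable {M : Subgroup (GL ι F)} (h : Over Q k D M)

local notation3 "cp" => Decomp.comp (Over.dec h).decomp.decomp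

/-- For vectors agreeing with a multiple of `x` in the members of `J`, the reflections inside
the other members preserve linkage. -/
def Flex (J : Finset (Fin t)) (x : ι → F) : Prop :=
  ∀ y, Cls Q M D y → Q y = Q x → ∀ β : F, (∀ l ∈ J, cp l y = β • cp l x) →
    ∀ i ∉ J, ∀ b ∈ D i, Q b ≠ 0 → Cls Q M D (ap (rf Q b) y)

include h

lemma comp_rf {i : Fin t} {b : ι → F} (hb : b ∈ D i) (l : Fin t) (x : ι → F) :
    cp l (ap (rf Q b) x) = if l = i then ap (rf Q b) (cp l x) else cp l x := by
  rw [ap_rf, map_sub, map_smul, Decomp.comp_of_mem h.dec.decomp.decomp hb]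
  split_ifs with hl
  · subst hl
    rw [ap_rf, polar_comp h.dec x hb]
  · rw [smul_zero, sub_zero]

lemma polar_eq_zero_of_comp {i : Fin t} {x b : ι → F} (hb : b ∈ D i) (hx : cp i x = 0) :
    polar Q x b = 0 := by
  rw [polar_comp h.dec x hb, hx]
  simp [polar]

lemma polar_sub_comp {i : Fin t} {x p : ι → F} (hp : p ∈ D i) :
    polar Q p (x - cp i x) = 0 := by
  rw [polar_comm]
  refine polar_eq_zero_of_comp h hp ?_
  rw [map_sub, Decomp.comp_of_mem h.dec.decomp.decomp (Decomp.comp_mem _ i x), if_pos rfl, sub_self]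

lemma value_split (i : Fin t) (x : ι → F) : Q x = Q (cp i x) + Q (x - cp i x) := by
  conv_lhs => rw [← add_sub_cancel (cp i x) x]
  rw [QuadraticMap.map_add (⇑Q), polar_sub_comp h (Decomp.comp_mem _ i x), add_zero]

variable [Finite F]

lemma flex_of_two (h2 : (2 : F) = 0) (x : ι → F) : Flex h ∅ x := by
  classical
  intro y hy _ _ _ i _ b hb hQb
  have : CharP F 2 := CharTwo.of_one_ne_zero_of_two_eq_zero one_ne_zero h2
  obtain ⟨s, hs⟩ := isSquare_of_charTwo' (Q b / Q y)
  exact Cls.reflect h hy (Cls.of_mem hb hQb) (s := s) (by rw [← hs, div_mul_cancel₀ _ hy.1])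

lemma flex_of_zero {j : Fin t} {x : ι → F} (hj : cp j x = 0) : Flex h {j} x := by
  intro y hy _ β hcomp i hi b hb hQb
  rw [Finset.notMem_singleton] at hi
  obtain ⟨b', hb', hQb'⟩ := h.value j (Q b)
  have hj' : polar Q y b' = 0 := polar_eq_zero_of_comp h hb' (by
    rw [hcomp j (Finset.mem_singleton_self j), hj, smul_zero])
  have := Cls.pair h hy hb hb' hQb hQb'.symm
  rwa [ap_rf_fix hj'] at this

/-- A member with a vector of the other class of value, orthogonal to `x`. -/
lemma flex_of_perp {j : Fin t} {x b₁ : ι → F} (hb₁ : b₁ ∈ D j) (hperp : polar Q x b₁ = 0)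
    (hns : ¬ IsSquare (Q b₁ / Q x)) : Flex h {j} x := by
  classical
  intro y hy hyx β hcomp i hi b hb hQb
  rw [Finset.notMem_singleton] at hi
  rw [← hyx] at hns
  have hQb₁ : Q b₁ ≠ 0 := fun h0 => hns ⟨0, by rw [h0]; simp⟩
  by_cases hsq : IsSquare (Q b / Q y)
  · obtain ⟨s, hs⟩ := hsq
    exact Cls.reflect h hy (Cls.of_mem hb hQb) (s := s) (by rw [← hs, div_mul_cancel₀ _ hy.1])
  obtain ⟨s, hs⟩ : IsSquare (Q b / Q b₁) := by
    have := Fintype.ofFinite F
    have e1 := FiniteField.isSquare_iff (F := F)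
    by_cases h2 : (2 : F) = 0
    · have : CharP F 2 := CharTwo.of_one_ne_zero_of_two_eq_zero one_ne_zero h2
      exact isSquare_of_charTwo' _
    have hch : ringChar F ≠ 2 := fun e => h2 (by
      have := ringChar.Nat.cast_ringChar (R := F); rw [e] at this; exact_mod_cast this)
    rw [← quadraticChar_one_iff_isSquare (div_ne_zero hQb hQb₁),
      show Q b / Q b₁ = Q b / Q y * (Q b₁ / Q y)⁻¹ by field_simp [hy.1], map_mul]
    have m1 := quadraticChar_neg_one_iff_not_isSquare.2 hsq
    have m2 : quadraticChar F (Q b₁ / Q y)⁻¹ = -1 :=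
      quadraticChar_neg_one_iff_not_isSquare.2 fun he => hns (by simpa using he.inv)
    rw [m1, m2]; norm_num
  have hs0 : s ≠ 0 := fun h0 => by
    rw [h0, mul_zero] at hs
    exact hQb ((div_eq_zero_iff.1 hs).resolve_right hQb₁)
  have hfix : polar Q y (s • b₁) = 0 := by
    rw [polar_smul_right, polar_comp h.dec y hb₁, hcomp j (Finset.mem_singleton_self j),
      polar_smul_left, ← polar_comp h.dec x hb₁, hperp]
    simp
  have := Cls.pair h hy hb ((D j).smul_mem s hb₁) hQb (by
    rw [QuadraticMap.map_smul, smul_eq_mul, ← hs, div_mul_cancel₀ _ hQb₁])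
  rwa [ap_rf_fix hfix] at this

omit [Finite F] in
/-- Under freedom, the component in a plane may be replaced by any vector of the same value. -/
lemma Flex.turn {J : Finset (Fin t)} {x y : ι → F} (hf : Flex h J x) (hy : Cls Q M D y)
    (hyx : Q y = Q x) {β : F} (hcomp : ∀ l ∈ J, cp l y = β • cp l x) {i : Fin t} (hi : i ∉ J)
    {P : Submodule F (ι → F)} (hP : IsPlane Q P) (hPD : P ≤ D i) (hu : cp i y ∈ P)
    (hu0 : cp i y ≠ 0) {p' : ι → F} (hp' : p' ∈ P) (hp'0 : p' ≠ 0) (hQ : Q p' = Q (cp i y)) :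
    Cls Q M D (y - cp i y + p') := by
  classical
  set u := cp i y with hudef
  have one : ∀ (z p q : ι → F), Cls Q M D z → Q z = Q x → (∀ l ∈ J, cp l z = β • cp l x) →
      cp i z = p → p ∈ P → q ∈ P → Q p = Q q → Q (p - q) ≠ 0 → Cls Q M D (z - p + q) := by
    intro z p q hz hzx hzc hzp hp hq hpq hd
    have := hf z hz hzx β hzc i hi (p - q) (hPD (P.sub_mem hp hq)) hd
    convert this using 1
    rw [ap_rf, polar_comp h.dec z (hPD (P.sub_mem hp hq)), hzp,
      show polar Q p (p - q) = Q (p - q) by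
        rw [polar_sub_right, polar_self_mul, CfsgLib.ClassicalForms.map_sub_eq, ← hpq]; ring,
      inv_mul_cancel₀ hd, one_smul]
    abel
  by_cases hpu : u = p'
  · rw [← hpu, sub_add_cancel]; exact hy
  by_cases hQu : Q u ≠ 0
  · exact one y u p' hy hyx hcomp rfl hu hp' hQ.symm (hP.move hu hp' hQ.symm hQu hpu).1
  push Not at hQu
  by_cases hd : Q (u - p') ≠ 0
  · exact one y u p' hy hyx hcomp rfl hu hp' hQ.symm hd
  push Not at hd
  -- pass through a singular vector pairing with both
  obtain ⟨z, hz, huz, hli⟩ := hP.partner hu hu0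
  set f := z - Q z • u with hfdef
  have hfP : f ∈ P := P.sub_mem hz (P.smul_mem _ hu)
  have hQf : Q f = 0 := by
    rw [hfdef, CfsgLib.ClassicalForms.map_sub_eq, QuadraticMap.map_smul, polar_smul_right, hQu,
      polar_comm Q z u, huz, smul_eq_mul, smul_eq_mul]; ring
  have huf : polar Q u f = 1 := by
    rw [hfdef, polar_sub_right, polar_smul_right, polar_self_mul, hQu, huz, smul_eq_mul]; ring
  obtain ⟨a, b, hab⟩ := hP.coords hu hz hli hu0 hp'
  have hup : polar Q u p' = 0 := by
    rw [CfsgLib.ClassicalForms.map_sub_eq, hQu, hQ, hQu] at hd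
    linear_combination -hd
  have hb0 : b = 0 := by
    rw [hab, polar_add_right, polar_smul_right, polar_smul_right, polar_self_mul, hQu, huz,
      smul_eq_mul, smul_eq_mul] at hup
    linear_combination hup
  rw [hb0, zero_smul, add_zero] at hab
  have ha : a ≠ 0 := fun e => hp'0 (by rw [hab, e, zero_smul])
  have h1 := one y u f hy hyx hcomp rfl hu hfP (by rw [hQu, hQf]) (by
    rw [CfsgLib.ClassicalForms.map_sub_eq, hQu, hQf, huf]; simp)
  have hc1 : cp i (y - u + f) = f := by
    rw [map_add, map_sub, ← hudef, Decomp.comp_of_mem _ (hPD hu), if_pos rfl,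
      Decomp.comp_of_mem _ (hPD hfP), if_pos rfl, sub_self, zero_add]
  have h3 := one (y - u + f) f p' h1 (by
    rw [value_split h i (y - u + f), hc1, add_sub_cancel_right, hQf, ← hyx,
      value_split h i y, ← hudef, hQu]) (fun l hl => by
    have hli' : l ≠ i := fun e => hi (e ▸ hl)
    rw [map_add, map_sub, Decomp.comp_of_mem _ (hPD hu), if_neg hli',
      Decomp.comp_of_mem _ (hPD hfP), if_neg hli', sub_zero, add_zero]
    exact hcomp l hl) hc1 hfP hp' (by rw [hQf, hQ, hQu]) (by
      rw [CfsgLib.ClassicalForms.map_sub_eq, hQf, hQ, hQu, hab, polar_smul_right, polar_comm Q f u,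
        huf]
      simpa using ha)
  rwa [add_sub_cancel_right] at h3

/-- The base of the closure given by a plane in one free member. -/
lemma Flex.base {J : Finset (Fin t)} {x : ι → F} (hf : Flex h J x) (hx : Cls Q M D x) {i : Fin t}
    (hi : i ∉ J) {P : Submodule F (ι → F)} (hP : IsPlane Q P) (hPD : P ≤ D i) (hu : cp i x ∈ P)
    (hu0 : cp i x ≠ 0) (hν : Q (x - cp i x) ≠ 0) :
    Base Q M D P (cp i x) (x - cp i x) (Q x) where
  plane := hP
  perp p hp := polar_sub_comp h (hPD hp)
  mem := hu
  ne_u := hu0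
  ne_v := hν
  ne_c := hx.1
  value := (value_split h i x).symm
  linked := by rw [add_sub_cancel]; exact hx
  turn p hp p' hp' β hp0 hp'0 hQ hval hl := by
    set v := x - cp i x with hv
    have hvi : cp i v = 0 := by
      rw [hv, map_sub, Decomp.comp_of_mem _ (Decomp.comp_mem _ i x), if_pos rfl, sub_self]
    have hpi : cp i (p + β • v) = p := by
      rw [map_add, map_smul, hvi, smul_zero, add_zero, Decomp.comp_of_mem _ (hPD hp), if_pos rfl]
    have hJ : ∀ l ∈ J, cp l (p + β • v) = β • cp l x := fun l hl => by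
      have hli : l ≠ i := fun e => hi (e ▸ hl)
      rw [map_add, map_smul, Decomp.comp_of_mem _ (hPD hp), if_neg hli, zero_add, hv, map_sub,
        Decomp.comp_of_mem _ (Decomp.comp_mem _ i x), if_neg hli, sub_zero]
    have hval' : Q (p + β • v) = Q x := by
      rw [QuadraticMap.map_add (⇑Q), QuadraticMap.map_smul, polar_smul_right,
        polar_sub_comp h (hPD hp), smul_zero, add_zero, smul_eq_mul, hval]
    have := Flex.turn h hf hl hval' hJ hi hP hPD (by rwa [hpi]) (by rwa [hpi]) hp' hp'0 (by rw [hpi, hQ])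
    rwa [hpi, add_sub_cancel_left, add_comm] at this

end CfsgLib.Geometric.Orth.Blocks
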