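import Cfsg.Agent.Lib.Geometric.Orth.Blocks.Transport
import Cfsg.Agent.Lib.Geometric.Orth.Blocks.EntryMain

/-!
Planes in odd characteristic: a linked vector outside the members gives one meeting exactly two.

If all components are non-zero and none gives freedom, permute four components by an element of the
stabiliser and vary them; the parity of the reflections used is a function of the sums of the
pairings in each of two pairs, and a reflection of the other class in a fifth member shifts the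
target, which is impossible in odd characteristic.
-/

namespace CfsgLib.Geometric.Orth.Blocks

open Matrix QuadraticMap CfsgLib.ClassicalForms
open CfsgLib.Geometric.Orth.Frame (rf_mul_self rf_mul_self_left rf_inv conj_rf rf_neg)

variable {ι : Type} [Fintype ι] [DecidableEq ι] {F : Type*} [Field F] [Fintype F]
variable {Q : QuadraticForm F (ι → F)} {t k : ℕ} {D : Fin t → Submodule F (ι → F)}
variable {M : Subgroup (GL ι F)}

/-- A reflection of the class different from `c` in a member makes `z` linked. -/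
def Anti (Q : QuadraticForm F (ι → F)) (M : Subgroup (GL ι F))
    (D : Fin t → Submodule F (ι → F)) (c : F) (z : ι → F) : Prop :=
  ∃ i, ∃ b ∈ D i, Q b ≠ 0 ∧ ¬ IsSquare (Q b / c) ∧ Cls Q M D (ap (rf Q b) z)

/-- The two states of a vector. -/
def St (Q : QuadraticForm F (ι → F)) (M : Subgroup (GL ι F))
    (D : Fin t → Submodule F (ι → F)) (c : F) (z : ι → F) : Bool → Prop
  | false => Cls Q M D z
  | true => Anti Q M D c z

open Classical in
/-- The pairings of `u` with the non-zero vectors of value `γ`. -/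
noncomputable def reach (Q : QuadraticForm F (ι → F)) (P : Submodule F (ι → F)) (u : ι → F)
    (γ : F) : Finset F :=
  ((Finset.univ : Finset (ι → F)).filter fun p => p ∈ P ∧ p ≠ 0 ∧ Q p = γ).image
    fun p => polar Q u p

lemma mem_reach {P : Submodule F (ι → F)} {u : ι → F} {γ b : F} :
    b ∈ reach Q P u γ ↔ ∃ p ∈ P, p ≠ 0 ∧ Q p = γ ∧ polar Q u p = b := by
  simp [reach, and_assoc]

/-- In a plane at least half of the field is reached. -/
lemma card_reach {P : Submodule F (ι → F)} (hP : IsPlane Q P) (h2 : (2 : F) ≠ 0) {u : ι → F}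
    (hu : u ∈ P) (hu0 : u ≠ 0) {γ : F} (hγ : ∃ p ∈ P, p ≠ 0 ∧ Q p = γ)
    (hsq : ¬ Aniso Q P → Q u ≠ 0 → γ ≠ 0 → IsSquare (γ / Q u)) (hq : 3 ≤ Fintype.card F) :
    Fintype.card F + 1 ≤ 2 * (reach Q P u γ).card := by
  classical
  have scal : ∀ e ∈ P, e ≠ 0 → Q e = 0 → polar Q u e ≠ 0 → γ = 0 →
      Fintype.card F + 1 ≤ 2 * (reach Q P u γ).card := by
    intro e he he0 hQe hue hγ0
    have hsub : Finset.univ.erase (0 : F) ⊆ reach Q P u γ := fun b hb => by
      refine mem_reach.2 ⟨(b / polar Q u e) • e, P.smul_mem _ he,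
        smul_ne_zero (div_ne_zero (Finset.ne_of_mem_erase hb) hue) he0, ?_, ?_⟩
      · rw [QuadraticMap.map_smul, hQe, smul_zero, hγ0]
      · rw [polar_smul_right, smul_eq_mul, div_mul_cancel₀ _ hue]
    have := Finset.card_le_card hsub
    rw [Finset.card_erase_of_mem (Finset.mem_univ _), Finset.card_univ] at this
    omega
  by_cases hQu : Q u = 0
  · obtain ⟨y, hy, huy, hli⟩ := hP.partner hu hu0
    set f := y - Q y • u with hf
    have hfP : f ∈ P := P.sub_mem hy (P.smul_mem _ hu)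
    have hQf : Q f = 0 := by
      rw [hf, CfsgLib.ClassicalForms.map_sub_eq, QuadraticMap.map_smul, polar_smul_right, hQu,
        polar_comm Q y, huy, smul_eq_mul, smul_eq_mul]; ring
    have huf : polar Q u f = 1 := by
      rw [hf, polar_sub_right, polar_smul_right, polar_self_mul, hQu, huy, smul_eq_mul]; ring
    have hsub : Finset.univ.erase (0 : F) ⊆ reach Q P u γ := fun b hb => by
      have hb0 := Finset.ne_of_mem_erase hb
      refine mem_reach.2 ⟨(γ / b) • u + b • f, P.add_mem (P.smul_mem _ hu) (P.smul_mem _ hfP),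
        fun e => ?_, ?_, ?_⟩
      · have := congrArg (polar Q u) e
        rw [polar_add_right, polar_smul_right, polar_smul_right, polar_self_mul, hQu, huf] at this
        simp [polar, hQu] at this
        exact hb0 this
      · rw [QuadraticMap.map_add (⇑Q), QuadraticMap.map_smul, QuadraticMap.map_smul, polar_smul_left,
          polar_smul_right, hQu, hQf, huf]
        simp only [smul_eq_mul]
        field_simp
        ring
      · rw [polar_add_right, polar_smul_right, polar_smul_right, polar_self_mul, hQu, huf]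
        simp
    have := Finset.card_le_card hsub
    rw [Finset.card_erase_of_mem (Finset.mem_univ _), Finset.card_univ] at this
    omega
  by_cases hγ0 : γ = 0
  · obtain ⟨e, he, he0, hQe⟩ := hγ
    rw [hγ0] at hQe
    refine scal e he he0 hQe (fun h0 => he0 (hP.eq_zero hu he (fun s hs => ?_) hu0 he
      (by rw [polar_comm]; exact h0) (by rw [polar_self_mul, hQe, mul_zero]))) hγ0
    rw [hs, QuadraticMap.map_smul, smul_eq_mul] at hQe
    rcases mul_eq_zero.1 hQe with h1 | h1
    · exact he0 (by rw [hs, mul_self_eq_zero.1 h1, zero_smul])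
    · exact hQu h1
  obtain ⟨f, hf, hcard⟩ := hP.two_mul_card_pairs hu hQu γ
  have hC := hP.circle_card (Q := Q) hγ0
  have hle : (pairs Q P u γ).card ≤ (reach Q P u γ).card := Finset.card_le_card fun b hb => by
    obtain ⟨p, hp, hQp, hb⟩ := mem_pairs.1 hb
    exact mem_reach.2 ⟨p, hp, fun e => hγ0 (by rw [← hQp, e, QuadraticMap.map_zero]), hQp, hb⟩
  by_cases hA : Aniso Q P
  · have := hC.1 hA; omega
  obtain ⟨s, hs⟩ := hsq hA hQu hγ0
  have hs0 : s ≠ 0 := fun e => div_ne_zero hγ0 hQu (by rw [hs, e, mul_zero])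
  have hQs : Q (s • u) = γ := by
    rw [QuadraticMap.map_smul, smul_eq_mul, ← hs, div_mul_cancel₀ _ hQu]
  have hne : -(s • u) ≠ s • u := fun e => smul_ne_zero hs0 hu0 (by
    have h0 : (2 : F) • (s • u) = 0 := by rw [two_smul]; nth_rewrite 1 [← e]; exact neg_add_cancel _
    exact (smul_eq_zero.1 h0).resolve_left h2)
  have h2f : 2 ≤ f.card := by
    rw [← Finset.card_pair hne]
    refine Finset.card_le_card fun a ha => (hf a).2 ?_
    rcases Finset.mem_insert.1 ha with rfl | ha
    · exact ⟨mem_circle.2 ⟨P.neg_mem (P.smul_mem _ hu), by rw [QuadraticMap.map_neg, hQs]⟩, -s,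
        (neg_smul s u).symm⟩
    · rw [Finset.mem_singleton.1 ha]
      exact ⟨mem_circle.2 ⟨P.smul_mem _ hu, hQs⟩, s, rfl⟩
  have := hC.2.1 hA
  omega

/-- Two large sets of sums are everything. -/
lemma exists_sum_eq {A B : Finset F} (hA : Fintype.card F + 1 ≤ 2 * A.card)
    (hB : Fintype.card F + 1 ≤ 2 * B.card) (T : F) : ∃ a ∈ A, ∃ b ∈ B, a + b = T := by
  classical
  obtain ⟨x, hx, hx'⟩ := exists_mem_of_sum_gt (A := A) (B := B.image (T - ·)) (by
    rw [Finset.card_image_of_injective _ sub_right_injective]; omega)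
  obtain ⟨b, hb, rfl⟩ := Finset.mem_image.1 hx'
  exact ⟨_, hx, b, hb, sub_add_cancel T b⟩

variable (h : Over Q k D M)
include h

local notation3 "cp" => Decomp.comp (Over.dec h).decomp.decomp
local notation3 "cm" => Decomp.comp_mem (Over.dec h).decomp.decomp

omit [Fintype F] in
/-- A reflection inside a member acts on that component. -/
lemma ap_rf_comp {i : Fin t} {b : ι → F} (hb : b ∈ D i) (z : ι → F) :
    ap (rf Q b) z = z - cp i z + ap (rf Q b) (cp i z) := by
  rw [ap_rf, ap_rf, polar_comp h.dec z hb]; abel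

/-- Reflections of the two classes act on the states. -/
lemma St.reflect {c : F} {z : ι → F} {s : Bool} (hz : St Q M D c z s) (hQz : Q z = c) {i : Fin t}
    {d : ι → F} (hd : d ∈ D i) (hQd : Q d ≠ 0) :
    (IsSquare (Q d / c) → St Q M D c (ap (rf Q d) z) s) ∧
      (¬ IsSquare (Q d / c) → St Q M D c (ap (rf Q d) z) (!s)) := by
  have hiso : ∀ (v w : ι → F), Q (ap (rf Q v) w) = Q w := fun v w =>
    mem_isometryGroup_iff.mp (rf_mem_isom v) w
  cases s with
  | false =>
    refine ⟨fun ⟨r, hr⟩ => ?_, fun hns => ⟨i, d, hd, hQd, hns, by rwa [← ap_mul, rf_mul_self, ap_one]⟩⟩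
    exact Cls.reflect h hz (Cls.of_mem hd hQd) (s := r)
      (by rw [hQz, ← hr, div_mul_cancel₀ _ (hQz ▸ hz.1)])
  | true =>
    obtain ⟨j, b, hb, hQb, hns, hl⟩ := hz
    have hc : c ≠ 0 := hQz ▸ fun e => hl.1 (by rw [hiso]; exact e)
    refine ⟨fun ⟨r, hr⟩ => ⟨j, b, hb, hQb, hns, ?_⟩, fun hns' => ?_⟩
    · have hd' : ap (rf Q b) d ∈ D i := by
        by_cases e : j = i
        · subst e; exact ap_rf_mem hb hd
        · rw [ap_rf_fix (orth_apply_blocks h.dec (Ne.symm e) hd hb)]; exact hd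
      have := Cls.reflect h hl (Cls.of_mem hd' (by rw [hiso]; exact hQd)) (s := r)
        (by rw [hiso, hiso, hQz, ← hr, div_mul_cancel₀ _ hc])
      rw [← conj_rf (rf_mem_isom b), rf_inv, ap_mul, ap_mul] at this
      rwa [← ap_mul (rf Q b) (rf Q b), rf_mul_self, ap_one] at this
    · obtain ⟨s, hs⟩ : IsSquare (Q d / Q b) := by
        have := CfsgLib.Forms.isSquare_mul_of_not hns' (show ¬ IsSquare (c / Q b) from fun e =>
          hns (by simpa using e.inv))
        rwa [div_mul_div_cancel₀ hc] at this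
      have hs0 : s ≠ 0 := fun e => div_ne_zero hQd hQb (by rw [hs, e, mul_zero])
      have := Cls.pair h hl hd ((D j).smul_mem s hb) hQd
        (by rw [QuadraticMap.map_smul, smul_eq_mul, ← hs, div_mul_cancel₀ _ hQb])
      rw [rf_smul hs0, ← ap_mul (rf Q b) (rf Q b), rf_mul_self, ap_one] at this
      exact this

/-- A component may be replaced, changing all states alike. -/
lemma exists_turn (hk : k = 2) (c : F) {i : Fin t} {u p : ι → F} (hu : u ∈ D i) (hp : p ∈ D i)
    (hu0 : u ≠ 0) (hp0 : p ≠ 0) (hQ : Q p = Q u) :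
    ∃ ε : Bool, ∀ (z : ι → F) (s : Bool), cp i z = u → Q z = c → St Q M D c z s →
      St Q M D c (z - u + p) (xor s ε) := by
  classical
  have hiso : ∀ (v w : ι → F), Q (ap (rf Q v) w) = Q w := fun v w =>
    mem_isometryGroup_iff.mp (rf_mem_isom v) w
  have one : ∀ {u p : ι → F}, u ∈ D i → p ∈ D i → Q p = Q u → Q (u - p) ≠ 0 →
      ∃ ε : Bool, ∀ (z : ι → F) (s : Bool), cp i z = u → Q z = c → St Q M D c z s →
        St Q M D c (z - u + p) (xor s ε) := by
    intro u p hu hp hQ hd
    have hmv : ∀ z, cp i z = u → ap (rf Q (u - p)) z = z - u + p := fun z hz => by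
      rw [ap_rf_comp h ((D i).sub_mem hu hp), hz, ap_rf_sub hQ.symm hd]
    by_cases hsq : IsSquare (Q (u - p) / c)
    · refine ⟨false, fun z s hz hQz hst => ?_⟩
      rw [Bool.xor_false, ← hmv z hz]
      exact (St.reflect h hst hQz ((D i).sub_mem hu hp) hd).1 hsq
    · refine ⟨true, fun z s hz hQz hst => ?_⟩
      rw [Bool.xor_true, ← hmv z hz]
      exact (St.reflect h hst hQz ((D i).sub_mem hu hp) hd).2 hsq
  by_cases hup : u = p
  · exact ⟨false, fun z s _ _ hst => by rw [hup, sub_add_cancel, Bool.xor_false]; exact hst⟩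
  by_cases hd : Q (u - p) ≠ 0
  · exact one hu hp hQ hd
  push Not at hd
  have hP := isPlane_of_two h hk i
  have hQu : Q u = 0 := by
    by_contra hne
    exact hup (hP.eq_of_singular_diff hu hp hQ.symm hne hd)
  obtain ⟨y, hy, huy, -⟩ := hP.partner hu hu0
  set f := y - Q y • u with hf
  have hfD : f ∈ D i := (D i).sub_mem hy ((D i).smul_mem _ hu)
  have hQf : Q f = 0 := by
    rw [hf, CfsgLib.ClassicalForms.map_sub_eq, QuadraticMap.map_smul, polar_smul_right, hQu,
      polar_comm Q y, huy, smul_eq_mul, smul_eq_mul]; ring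
  have huf : polar Q u f = 1 := by
    rw [hf, polar_sub_right, polar_smul_right, polar_self_mul, hQu, huy, smul_eq_mul]; ring
  obtain ⟨a, rfl⟩ := hP.mem_line hu hu0 hQu hp (by
    rw [CfsgLib.ClassicalForms.map_sub_eq, hQ, hQu] at hd; linear_combination -hd)
  obtain ⟨ε₁, h1⟩ := one hu hfD (hQf.trans hQu.symm)
    (by rw [CfsgLib.ClassicalForms.map_sub_eq, hQu, hQf, huf]; simp)
  obtain ⟨ε₂, h3⟩ := one hfD hp (by rw [hQ, hQu, hQf]) (by
    rw [CfsgLib.ClassicalForms.map_sub_eq, hQf, hQ, hQu, polar_smul_right, polar_comm Q f u, huf,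
      smul_eq_mul, mul_one, zero_add, zero_sub]
    exact neg_ne_zero.2 fun e => hp0 (by rw [e, zero_smul]))
  refine ⟨xor ε₁ ε₂, fun z s hz hQz hst => ?_⟩
  have hc : cp i (z - u + f) = f := by
    rw [map_add, map_sub, hz, Decomp.comp_of_mem _ hu, if_pos rfl, Decomp.comp_of_mem _ hfD,
      if_pos rfl, sub_self, zero_add]
  have := h3 _ _ hc (by
    rw [value_split h i (z - u + f), hc, add_sub_cancel_right, hQf, ← hQz, value_split h i z, hz,
      hQu])  (h1 z s hz hQz hst)
  rwa [add_sub_cancel_right, Bool.xor_assoc] at this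

/-- An element of the stabiliser permuting four members in two pairs. -/
lemma exists_double {i j l m : Fin t} (hij : i ≠ j) (hil : i ≠ l) (him : i ≠ m) (hjl : j ≠ l)
    (hjm : j ≠ m) (hlm : l ≠ m) :
    ∃ g ∈ Cfsg.Geo.decompositionStabilizer D ⊓ Cfsg.Geo.omegaGL (⇑Q),
      ∀ s, ∀ x ∈ D s, ap g x ∈ D ((Equiv.swap i l * Equiv.swap j m) s) := by
  obtain ⟨s₁, h1, i1, m1⟩ := exists_member_swap h.dec hij
  obtain ⟨s₂, h2, i2, m2⟩ := exists_member_swap h.dec hjl
  obtain ⟨s₃, h3, i3, m3⟩ := exists_member_swap h.dec hlm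
  set π := Equiv.swap i j * Equiv.swap j l * Equiv.swap i j * Equiv.swap j l *
    (Equiv.swap j l * Equiv.swap l m * Equiv.swap j l * Equiv.swap l m) with hπ
  have hg : ∀ s, ∀ x ∈ D s, ap ((s₁ * s₂ * s₁ * s₂) * (s₂ * s₃ * s₂ * s₃)) x ∈ D (π s) := by
    intro s x hx
    simp only [ap_mul, hπ, Equiv.Perm.mul_apply]
    exact m1 _ _ (m2 _ _ (m1 _ _ (m2 _ _ (m2 _ _ (m3 _ _ (m2 _ _ (m3 _ _ hx)))))))
  have hperm : π = Equiv.swap i l * Equiv.swap j m := by
    ext s
    simp only [hπ, Equiv.Perm.mul_apply]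
    by_cases hi : s = i
    · subst hi; simp [Equiv.swap_apply_def, hij, hil, him, hjl, hjm, hlm, Ne.symm hij, Ne.symm hil,
        Ne.symm him, Ne.symm hjl, Ne.symm hjm, Ne.symm hlm]
    by_cases hj : s = j
    · subst hj; simp [Equiv.swap_apply_def, hij, hil, him, hjl, hjm, hlm, Ne.symm hij, Ne.symm hil,
        Ne.symm him, Ne.symm hjl, Ne.symm hjm, Ne.symm hlm]
    by_cases hl : s = l
    · subst hl; simp [Equiv.swap_apply_def, hij, hil, him, hjl, hjm, hlm, Ne.symm hij, Ne.symm hil,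
        Ne.symm him, Ne.symm hjl, Ne.symm hjm, Ne.symm hlm]
    by_cases hm : s = m
    · subst hm; simp [Equiv.swap_apply_def, hij, hil, him, hjl, hjm, hlm, Ne.symm hij, Ne.symm hil,
        Ne.symm him, Ne.symm hjl, Ne.symm hjm, Ne.symm hlm]
    simp [Equiv.swap_apply_def, hi, hj, hl, hm]
  refine ⟨_, ⟨mem_decompStab h.dec.decomp.decomp (π := π) hg, ?_⟩, hperm ▸ hg⟩
  rw [omegaGL_eq]
  have e1 := Subgroup.commutator_mem_commutator h1 h2
  have e2 := Subgroup.commutator_mem_commutator h2 h3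
  rw [commutatorElement_def, i1, i2] at e1
  rw [commutatorElement_def, i2, i3] at e2
  exact mul_mem e1 e2

omit [Fintype F] in
lemma comp_subst {i : Fin t} {y p : ι → F} (hp : p ∈ D i) (s : Fin t) :
    cp s (y - cp i y + p) = if s = i then p else cp s y := by
  rw [map_add, map_sub, Decomp.comp_of_mem (Over.dec h).decomp.decomp (cm i y),
    Decomp.comp_of_mem (Over.dec h).decomp.decomp hp]
  split_ifs with e
  · subst e; abel
  · abel

omit [Fintype F] in
lemma value_subst {i : Fin t} {y p : ι → F} (hp : p ∈ D i) (hQ : Q p = Q (cp i y)) :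
    Q (y - cp i y + p) = Q y := by
  rw [value_split h i (y - cp i y + p), comp_subst h hp, if_pos rfl, add_sub_cancel_right, hQ,
    ← value_split h i y]

omit [Fintype F] in
/-- The pairing after a component is replaced. -/
lemma polar_subst {i : Fin t} (x : ι → F) {y p : ι → F} (hp : p ∈ D i) :
    polar Q x (y - cp i y + p) =
      polar Q x y - polar Q (cp i x) (cp i y) + polar Q (cp i x) p := by
  rw [polar_add_right, polar_sub_right, polar_comp h.dec x (cm i y), polar_comp h.dec x hp]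

/-- A vector with a pairing condition away from being orthogonal, of the class different from `c`. -/
lemma exists_flip (hk : k = 2) (h2 : (2 : F) ≠ 0) (hq : 5 ≤ Fintype.card F) {c : F} (hc : c ≠ 0)
    {r : Fin t} {u : ι → F} (hu : u ∈ D r) (hu0 : u ≠ 0) :
    ∃ d ∈ D r, Q d ≠ 0 ∧ ¬ IsSquare (Q d / c) ∧ polar Q u d ≠ 0 := by
  classical
  obtain ⟨ν, hν⟩ := FiniteField.exists_nonsquare (F := F) fun e => h2 (by
    have := ringChar.Nat.cast_ringChar (R := F); rw [e] at this; exact_mod_cast this)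
  have hν0 : ν ≠ 0 := fun e => hν (e ▸ IsSquare.zero)
  have hP := isPlane_of_two h hk r
  have hC := (hP.circle_card (Q := Q) (mul_ne_zero hν0 hc)).2.2
  obtain ⟨d, hd, hQd, hud⟩ : ∃ d ∈ D r, Q d = ν * c ∧ polar Q u d ≠ 0 := by
    by_contra! hall
    obtain ⟨p, hp, -⟩ := Finset.exists_mem_notMem_of_card_lt_card (s := (∅ : Finset (ι → F)))
      (t := circle Q (D r) (ν * c)) (by rw [Finset.card_empty]; omega)
    obtain ⟨hpD, hQp⟩ := mem_circle.1 hp
    have hp0 : p ≠ 0 := fun e => mul_ne_zero hν0 hc (by rw [← hQp, e, QuadraticMap.map_zero])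
    obtain ⟨p', hp', hp''⟩ := Finset.exists_mem_notMem_of_card_lt_card
      (s := ({p, -p} : Finset (ι → F))) (t := circle Q (D r) (ν * c))
      (lt_of_le_of_lt Finset.card_le_two (by omega))
    obtain ⟨hp'D, hQp'⟩ := mem_circle.1 hp'
    simp only [Finset.mem_insert, Finset.mem_singleton, not_or] at hp''
    refine hu0 (hP.eq_zero hpD hp'D (fun s hs => ?_) hp0 hu (hall p hpD hQp) (hall p' hp'D hQp'))
    have := hQp'
    rw [hs, QuadraticMap.map_smul, hQp, smul_eq_mul] at this
    rcases mul_self_eq_one_iff.1 (mul_right_cancel₀ (mul_ne_zero hν0 hc)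
      (this.trans (one_mul _).symm)) with e | e
    · exact hp''.1 (by rw [hs, e, one_smul])
    · exact hp''.2 (by rw [hs, e, neg_one_smul])
  have hns : ¬ IsSquare (Q d / c) := by rwa [hQd, mul_div_cancel_right₀ _ hc]
  exact ⟨d, hd, hQd ▸ mul_ne_zero hν0 hc, hns, hud⟩

omit h in
/-- A parity on the field cannot flip under a translation in odd characteristic. -/
lemma false_of_flip (h2 : (2 : F) ≠ 0) {g : F → Bool} {μ : F}
    (hstep : ∀ U, g (U + μ) = !g U) : False := by
  have hn : ∀ n : ℕ, g (n * μ) = xor (g 0) (n.bodd) := fun n => by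
    induction n with
    | zero => simp
    | succ n ih =>
      rw [Nat.cast_succ, add_mul, one_mul, hstep, ih, Nat.bodd_succ]
      cases g 0 <;> cases n.bodd <;> rfl
  have hp : (ringChar F).bodd = true := by
    have hodd' : ¬ Even (ringChar F) := fun he => h2 (by
      have hpr : (ringChar F).Prime := CharP.char_is_prime F (ringChar F)
      have := ringChar.Nat.cast_ringChar (R := F)
      rw [(Nat.Prime.even_iff hpr).1 he] at this
      exact_mod_cast this)
    cases e : (ringChar F).bodd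
    · refine absurd ?_ hodd'
      rw [Nat.even_iff, Nat.mod_two_of_bodd, e]; rfl
    · rfl
  have := hn (ringChar F)
  rw [ringChar.Nat.cast_ringChar, zero_mul, hp] at this
  revert this
  cases g 0 <;> simp

/-- The components of the image of `x` under an element of the stabiliser. -/
lemma comp_image {g : GL ι F} {π : Equiv.Perm (Fin t)} (hg : ∀ s, ∀ x ∈ D s, ap g x ∈ D (π s))
    (x : ι → F) (s : Fin t) : cp (π s) (ap g x) = ap g (cp s x) := by
  classical
  conv_lhs => rw [← Decomp.sum_comp h.dec.decomp.decomp x]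
  rw [show ap g (∑ e, cp e x) = ∑ e, ap g (cp e x) from map_sum (apEquiv g) _ _, map_sum,
    Finset.sum_eq_single s]
  · rw [Decomp.comp_of_mem (Over.dec h).decomp.decomp (hg s _ (cm s x)), if_pos rfl]
  · intro e _ he
    rw [Decomp.comp_of_mem (Over.dec h).decomp.decomp (hg e _ (cm e x)),
      if_neg fun e' => he (π.injective e').symm]
  · simp

/-- Components of equal values may be installed one after another. -/
lemma exists_install (hk : k = 2) (c : F) (x : ι → F) :
    ∀ (S : Finset (Fin t)) (y : ι → F) (b : Bool), St Q M D c y b → Q y = c →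
      (∀ s ∈ S, cp s y ≠ 0 ∧ cp s x ≠ 0 ∧ Q (cp s x) = Q (cp s y)) →
      ∃ y' b', St Q M D c y' b' ∧ Q y' = c ∧
        (∀ s ∈ S, cp s y' = cp s x) ∧ ∀ s ∉ S, cp s y' = cp s y := by
  classical
  intro S
  induction S using Finset.induction_on with
  | empty => exact fun y b hy hQ _ => ⟨y, b, hy, hQ, by simp, fun _ _ => rfl⟩
  | insert a S ha ih =>
    intro y b hy hQ hS
    obtain ⟨y', b', hy', hQ', h1, h3⟩ := ih y b hy hQ fun s hs => hS s (Finset.mem_insert_of_mem hs)
    obtain ⟨n1, n2, hv⟩ := hS a (Finset.mem_insert_self a S)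
    obtain ⟨ε, hε⟩ := exists_turn h hk c (cm a y) (cm a x) n1 n2 hv
    have hca : cp a y' = cp a y := h3 a ha
    refine ⟨y' - cp a y' + cp a x, xor b' ε, by rw [hca]; exact hε y' b' hca hQ' hy',
      by rw [value_subst h (cm a x) (by rw [hca, hv]), hQ'], fun s hs => ?_, fun s hs => ?_⟩
    · rw [comp_subst h (cm a x)]
      split_ifs with e
      · rw [e]
      · exact h1 s ((Finset.mem_insert.1 hs).resolve_left e)
    · rw [Finset.mem_insert, not_or] at hs
      rw [comp_subst h (cm a x), if_neg hs.1, h3 s hs.2]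

/-- Two components reach every sum of pairings, with a parity depending on the sum alone. -/
lemma exists_pair_sum (hk : k = 2) (h2 : (2 : F) ≠ 0) (hq : 5 ≤ Fintype.card F) (c : F)
    {a b : Fin t} (hab : a ≠ b) {x y : ι → F} (hxa : cp a x ≠ 0) (hxb : cp b x ≠ 0)
    (hya : cp a y ≠ 0) (hyb : cp b y ≠ 0)
    (hsa : ¬ Aniso Q (D a) → Q (cp a x) ≠ 0 → Q (cp a y) ≠ 0 → IsSquare (Q (cp a y) / Q (cp a x)))
    (hsb : ¬ Aniso Q (D b) → Q (cp b x) ≠ 0 → Q (cp b y) ≠ 0 → IsSquare (Q (cp b y) / Q (cp b x)))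
    (T : F) :
    ∃ pa ∈ D a, ∃ pb ∈ D b, ∃ ε : Bool, (Q pa = Q (cp a y) ∧ Q pb = Q (cp b y)) ∧
      polar Q (cp a x) pa + polar Q (cp b x) pb = T ∧
      ∀ (z : ι → F) (s : Bool), cp a z = cp a y → cp b z = cp b y → Q z = c → St Q M D c z s →
        ∃ w, St Q M D c w (xor s ε) ∧ Q w = c ∧
          ∀ e, cp e w = if e = b then pb else if e = a then pa else cp e z := by
  classical
  obtain ⟨u, hu, v, hv, huv⟩ := exists_sum_eq
    (card_reach (isPlane_of_two h hk a) h2 (cm a x) hxa ⟨_, cm a y, hya, rfl⟩ hsa (by omega))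
    (card_reach (isPlane_of_two h hk b) h2 (cm b x) hxb ⟨_, cm b y, hyb, rfl⟩ hsb (by omega)) T
  obtain ⟨pa, hpa, hpa0, hQpa, rfl⟩ := mem_reach.1 hu
  obtain ⟨pb, hpb, hpb0, hQpb, rfl⟩ := mem_reach.1 hv
  obtain ⟨ε₁, h1⟩ := exists_turn h hk c (cm a y) hpa hya hpa0 hQpa
  obtain ⟨ε₂, h3⟩ := exists_turn h hk c (cm b y) hpb hyb hpb0 hQpb
  refine ⟨pa, hpa, pb, hpb, xor ε₁ ε₂, ⟨hQpa, hQpb⟩, huv, fun z s hza hzb hQz hst => ?_⟩
  have hb' : cp b (z - cp a z + pa) = cp b y := by
    rw [comp_subst h hpa, if_neg (Ne.symm hab), hzb]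
  have hQ1 : Q (z - cp a z + pa) = c := by rw [value_subst h hpa (by rw [hza, hQpa]), hQz]
  have h1' := h1 z s hza hQz hst
  rw [← hza] at h1'
  have h3' := h3 _ _ hb' hQ1 h1'
  rw [← hb'] at h3'
  refine ⟨_, by rw [← Bool.xor_assoc]; exact h3', by rw [value_subst h hpb (by rw [hb', hQpb]), hQ1],
    fun e => ?_⟩
  rw [comp_subst h hpb, comp_subst h hpa]

/-- Six members, components non-zero and in uniform classes: some linked vector with a zero
component has non-zero components at two given members of different values. -/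
theorem exists_gap (hk : k = 2) (h2 : (2 : F) ≠ 0) (hq : 5 ≤ Fintype.card F) {x : ι → F}
    (hx : Cls Q M D x) (hall : ∀ l, cp l x ≠ 0)
    (hcls : ∀ a b, ¬ Aniso Q (D a) → Q (cp a x) ≠ 0 → Q (cp b x) ≠ 0 →
      IsSquare (Q (cp b x) / Q (cp a x)))
    {i j l m r o : Fin t} (hij : i ≠ j) (hil : i ≠ l) (him : i ≠ m) (hjl : j ≠ l) (hjm : j ≠ m)
    (hlm : l ≠ m) (hr : r ≠ i ∧ r ≠ j ∧ r ≠ l ∧ r ≠ m)
    (ho : o ≠ i ∧ o ≠ j ∧ o ≠ l ∧ o ≠ m ∧ o ≠ r) :
    ∃ z, Cls Q M D z ∧ Q z = Q x ∧ polar Q x z = -Q x ∧ cp o z = 0 ∧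
      (Q (cp i x) ≠ Q (cp l x) → ∀ s, z ∉ D s) := by
  classical
  by_contra hfail
  push Not at hfail
  set c := Q x with hcdef
  have hc : c ≠ 0 := hx.1
  obtain ⟨g, hg, hgmap⟩ := exists_double h hij hil him hjl hjm hlm
  set π := Equiv.swap i l * Equiv.swap j m with hπ
  have hiso := mem_isometryGroup_iff.mp (h.isom (h.stab hg))
  have hπi : π i = l := by simp [hπ, Equiv.swap_apply_of_ne_of_ne hij him]
  have hπl : π l = i := by
    simp [hπ, Equiv.swap_apply_of_ne_of_ne (Ne.symm hjl) hlm]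
  have hfix : ∀ s, s ≠ i → s ≠ j → s ≠ l → s ≠ m → π s = s := fun s a b e f => by
    simp [hπ, Equiv.swap_apply_of_ne_of_ne b f, Equiv.swap_apply_of_ne_of_ne a e]
  have hval0 : ∀ s, Q (cp (π s) (ap g x)) = Q (cp s x) := fun s => by
    rw [comp_image h hgmap, hiso]
  have hne0 : ∀ s, cp s (ap g x) ≠ 0 := fun s => by
    rw [← π.apply_symm_apply s, comp_image h hgmap]; exact ap_ne_zero g (hall _)
  obtain ⟨y, b₀, hy, hQy, hyx, hyg⟩ := exists_install h hk c x
    (Finset.univ.filter fun s => s ≠ i ∧ s ≠ j ∧ s ≠ l ∧ s ≠ m) (ap g x) false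
    (Cls.stab h hg hx) (hiso x) fun s hs => by
      obtain ⟨-, a, b, e, f⟩ := Finset.mem_filter.1 hs
      refine ⟨hne0 s, hall s, ?_⟩
      rw [← hval0 s, hfix s a b e f]
  simp only [Finset.mem_filter, Finset.mem_univ, true_and] at hyx hyg
  have hy0 : ∀ s, cp s y ≠ 0 := fun s => by
    by_cases hs : s ≠ i ∧ s ≠ j ∧ s ≠ l ∧ s ≠ m
    · rw [hyx s hs]; exact hall s
    · rw [hyg s hs]; exact hne0 s
  have hyv : ∀ s, Q (cp s y) = Q (cp (π.symm s) x) := fun s => by
    have e := hval0 (π.symm s)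
    rw [π.apply_symm_apply] at e
    by_cases hs : s ≠ i ∧ s ≠ j ∧ s ≠ l ∧ s ≠ m
    · rw [hyx s hs, show π.symm s = s from
        (Equiv.symm_apply_eq π).2 (hfix s hs.1 hs.2.1 hs.2.2.1 hs.2.2.2).symm]
    · rw [hyg s hs, e]
  have hsq : ∀ s, ¬ Aniso Q (D s) → Q (cp s x) ≠ 0 → Q (cp s y) ≠ 0 →
      IsSquare (Q (cp s y) / Q (cp s x)) := fun s hA hu hv => by
    rw [hyv] at hv ⊢; exact hcls s _ hA hu hv
  have P1 := exists_pair_sum h hk h2 hq c hij (hall i) (hall j) (hy0 i) (hy0 j) (hsq i) (hsq j)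
  have P2 := exists_pair_sum h hk h2 hq c hlm (hall l) (hall m) (hy0 l) (hy0 m) (hsq l) (hsq m)
  choose pi hpi pj hpj ef hQ1 hsum1 hst1 using P1
  choose pl hpl pm hpm eg hQ2 hsum2 hst2 using P2
  have hvec : ∀ T U, ∃ w, St Q M D c w (xor (xor b₀ (ef T)) (eg U)) ∧ Q w = c ∧
      ∀ e, cp e w = if e = m then pm U else if e = l then pl U else
        if e = j then pj T else if e = i then pi T else cp e x := fun T U => by
    obtain ⟨w, hw, hQw, hcw⟩ := hst1 T y b₀ rfl rfl hQy hy
    obtain ⟨w', hw', hQw', hcw'⟩ := hst2 U w _ (by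
        rw [hcw, if_neg (Ne.symm hjl), if_neg (Ne.symm hil)])
      (by rw [hcw, if_neg (Ne.symm hjm), if_neg (Ne.symm him)]) hQw hw
    refine ⟨w', hw', hQw', fun e => ?_⟩
    rw [hcw', hcw]
    split_ifs with a b e' f <;> try rfl
    exact hyx e ⟨f, e', b, a⟩
  choose Z hZst hZQ hZc using hvec
  set X := polar Q x (x - cp i x - cp j x - cp l x - cp m x) with hX
  have hZB : ∀ T U, polar Q x (Z T U) = X + T + U := fun T U => by
    have e1 : Z T U = (x - cp i x - cp j x - cp l x - cp m x) + pi T + pj T + pl U + pm U := by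
      refine Decomp.ext_comp h.dec.decomp.decomp fun s => ?_
      rw [hZc, map_add, map_add, map_add, map_add, map_sub, map_sub, map_sub, map_sub,
        Decomp.comp_of_mem _ (cm i x), Decomp.comp_of_mem _ (cm j x),
        Decomp.comp_of_mem _ (cm l x), Decomp.comp_of_mem _ (cm m x),
        Decomp.comp_of_mem _ (hpi T), Decomp.comp_of_mem _ (hpj T),
        Decomp.comp_of_mem _ (hpl U), Decomp.comp_of_mem _ (hpm U)]
      by_cases a : s = i
      · subst a; simp [hij, hil, him]
      by_cases b : s = j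
      · subst b; simp [Ne.symm hij, hjl, hjm]
      by_cases e : s = l
      · subst e; simp [Ne.symm hil, Ne.symm hjl, hlm]
      by_cases f : s = m
      · subst f; simp [Ne.symm him, Ne.symm hjm, Ne.symm hlm]
      simp [a, b, e, f]
    rw [e1, polar_add_right, polar_add_right, polar_add_right, polar_add_right,
      polar_comp h.dec x (hpi T), polar_comp h.dec x (hpj T),
      polar_comp h.dec x (hpl U), polar_comp h.dec x (hpm U), ← hX]
    linear_combination hsum1 T + hsum2 U
  obtain ⟨d, hd, hQd, hdns, -⟩ := exists_flip h hk h2 hq hc (cm r x) (hall r)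
  set μ := polar Q (cp r x) d * polar Q (cp r x) d / Q d with hμ
  -- a linked vector at the target gives what we want
  have target : ∀ w, Cls Q M D w → Q w = c → polar Q x w = c → cp o w = cp o x →
      (Q (cp i x) ≠ Q (cp l x) → cp i w ≠ cp i x ∧ cp l w ≠ cp l x) → False := by
    intro w hw hQw hB ho' hne
    have hz := Cls.reflect h hw hx (s := 1) (by rw [hQw, one_mul, one_mul])
    rw [ap_rf, polar_comm, hB, ← hcdef, inv_mul_cancel₀ hc, one_smul] at hz
    have hQz : Q (w - x) = c := by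
      rw [CfsgLib.ClassicalForms.map_sub_eq, hQw, polar_comm Q w x, hB]; ring
    obtain ⟨hval, s, hs⟩ := hfail (w - x) hz hQz
      (by rw [polar_sub_right, hB, polar_self_mul, ← hcdef]; ring)
      (by rw [map_sub, ho', sub_self])
    obtain ⟨n1, n2⟩ := hne hval
    have e1 := Decomp.comp_of_mem h.dec.decomp.decomp (i := i) hs
    have e2 := Decomp.comp_of_mem h.dec.decomp.decomp (i := l) hs
    by_cases e : i = s
    · rw [if_neg fun e' => hil (e.trans e'.symm), map_sub] at e2
      exact n2 (sub_eq_zero.1 e2)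
    · rw [if_neg e, map_sub] at e1
      exact n1 (sub_eq_zero.1 e1)
  have hne : ∀ T U, Q (cp i x) ≠ Q (cp l x) →
      cp i (Z T U) ≠ cp i x ∧ cp l (Z T U) ≠ cp l x := by
    intro T U hval
    rw [hZc, if_neg him, if_neg hil, if_neg hij, if_pos rfl, hZc, if_neg hlm, if_pos rfl]
    refine ⟨fun e => hval ?_, fun e => hval ?_⟩
    · rw [← e, (hQ1 T).1, hyv, show π.symm i = l from (Equiv.symm_apply_eq π).2 hπl.symm]
    · rw [← e, (hQ2 U).1, hyv, show π.symm l = i from (Equiv.symm_apply_eq π).2 hπi.symm]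
  have hoc : ∀ T U, cp o (Z T U) = cp o x := fun T U => by
    rw [hZc, if_neg ho.2.2.2.1, if_neg ho.2.2.1, if_neg ho.2.1, if_neg ho.1]
  have hodd : ∀ T U, X + T + U = c → xor (xor b₀ (ef T)) (eg U) = true := by
    intro T U he
    by_contra hb
    rw [Bool.not_eq_true] at hb
    have := hZst T U
    rw [hb] at this
    exact target _ this (hZQ T U) (by rw [hZB, he]) (hoc T U) (hne T U)
  have heven : ∀ T U, X + T + U = c + μ → xor (xor b₀ (ef T)) (eg U) = false := by
    intro T U he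
    by_contra hb
    rw [Bool.not_eq_false] at hb
    have hst := hZst T U
    rw [hb] at hst
    have hw := (St.reflect h hst (hZQ T U) hd hQd).2 hdns
    have hcr : cp r (Z T U) = cp r x := by
      rw [hZc, if_neg hr.2.2.2, if_neg hr.2.2.1, if_neg hr.2.1, if_neg hr.1]
    refine target _ hw (by rw [mem_isometryGroup_iff.mp (rf_mem_isom d), hZQ T U]) ?_ ?_ ?_
    · rw [ap_rf, polar_sub_right, polar_smul_right, hZB, he, polar_comp h.dec _ hd, hcr,
        polar_comp h.dec x hd, hμ, smul_eq_mul]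
      field_simp
      ring
    · rw [comp_rf h hd, if_neg ho.2.2.2.2, hoc]
    · intro hval
      rw [comp_rf h hd, comp_rf h hd, if_neg (Ne.symm hr.1), if_neg (Ne.symm hr.2.2.1)]
      exact hne T U hval
  refine false_of_flip h2 (g := eg) (μ := μ) fun U => ?_
  have e1 := hodd (c - X - U) U (by ring)
  have e2 := heven (c - X - U) (U + μ) (by ring)
  revert e1 e2
  cases ef (c - X - U) <;> cases eg U <;> cases eg (U + μ) <;> cases b₀ <;> simp

omit h in
/-- Planes in odd characteristic, at least six: from a linked vector outside the members to one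
meeting exactly two. -/
theorem two_of_odd {D : Fin t → Submodule F (ι → F)} (h : Over Q 2 D M) (h2 : (2 : F) ≠ 0)
    (hq : 5 ≤ Fintype.card F) (hsp : ∀ i, ¬ Aniso Q (D i) → 7 ≤ Fintype.card F) (ht : 6 ≤ t)
    {x : ι → F} (hx : Cls Q M D x) (hnb : ∀ i, x ∉ D i) : Two Q M D (Q x) := by
  classical
  have hd := h.dec.decomp.decomp
  have hP := fun s => isPlane_of_two h rfl s
  have finish : ∀ {y : ι → F}, Cls Q M D y → (∀ i, y ∉ D i) → ∀ {J : Finset (Fin t)}, J.card ≤ 1 →
      Flex h J y → Two Q M D (Q y) := by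
    intro y hy hynb J hJ hf
    by_cases hA : ∀ i, Aniso Q (D i)
    · exact two_of_anisotropic h (by omega) hA hJ hf hy hynb
    push Not at hA
    obtain ⟨i₀, hi₀⟩ := hA
    exact two_of_split h (hsp i₀ hi₀) (fun i hAi => hi₀ (aniso_member h hAi i₀)) hJ hf hy hynb
  have main : ∀ y, Cls Q M D y → (∀ i, y ∉ D i) →
      ((∀ i l, Q (Decomp.comp hd i y) = Q (Decomp.comp hd l y)) → (∀ l, Decomp.comp hd l y ≠ 0) →
        Two Q M D (Q y)) → Two Q M D (Q y) := by
    intro y hy hynb heq
    by_cases hall : ∀ l, Decomp.comp hd l y ≠ 0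
    swap
    · push Not at hall
      obtain ⟨j, hj⟩ := hall
      exact finish hy hynb (Finset.card_singleton j).le (flex_of_zero h hj)
    by_cases hcls : ∀ a b, ¬ Aniso Q (D a) → Q (Decomp.comp hd a y) ≠ 0 →
        Q (Decomp.comp hd b y) ≠ 0 → IsSquare (Q (Decomp.comp hd b y) / Q (Decomp.comp hd a y))
    swap
    · push Not at hcls
      obtain ⟨a, b, hA, ha, hb, hns⟩ := hcls
      have perp : ∀ s, Q (Decomp.comp hd s y) ≠ 0 → ∃ w ∈ D s, polar Q y w = 0 ∧
          ∃ r, r ≠ 0 ∧ Q w = -(r * r) * Q (Decomp.comp hd s y) := by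
        intro s hs
        obtain ⟨w, hw, hQw, hp⟩ := (hP s).exists_perp (Decomp.comp_mem hd s y) hs
        refine ⟨w, hw, by rw [polar_comp h.dec y hw]; exact hp, ?_⟩
        have hA' : ¬ Aniso Q (D s) := fun e => hA (aniso_member h e a)
        simp only [Aniso, not_forall] at hA'
        obtain ⟨e, he, hQe, he0⟩ := hA'
        set u := Decomp.comp hd s y
        have hu0 : u ≠ 0 := fun e => hs (by rw [e, QuadraticMap.map_zero])
        obtain ⟨α, β, rfl⟩ := (hP s).coords (Decomp.comp_mem hd s y) hw (fun q hq => hQw (by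
          rw [hq, polar_smul_right, polar_self_mul, smul_eq_mul] at hp
          rcases mul_eq_zero.1 hp with e | e
          · rw [hq, e, zero_smul, QuadraticMap.map_zero]
          · exact absurd e (mul_ne_zero h2 hs))) hu0 he
        rw [QuadraticMap.map_add (⇑Q), QuadraticMap.map_smul, QuadraticMap.map_smul,
          polar_smul_left, polar_smul_right, hp, smul_eq_mul, smul_eq_mul] at hQe
        simp only [smul_eq_mul, mul_zero, add_zero] at hQe
        have hβ : β ≠ 0 := fun e0 => by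
          rw [e0] at hQe he0
          simp only [mul_zero, zero_mul, add_zero] at hQe
          rcases mul_eq_zero.1 hQe with e1 | e1
          · exact he0 (by rw [mul_self_eq_zero.1 e1, zero_smul, zero_smul, add_zero])
          · exact hs e1
        have hα : α ≠ 0 := fun e0 => by
          rw [e0] at hQe
          exact mul_ne_zero (mul_ne_zero hβ hβ) hQw (by linear_combination hQe)
        exact ⟨α / β, div_ne_zero hα hβ, by field_simp; linear_combination hQe⟩
      obtain ⟨wa, hwa, hpa, ra, hra, hQwa⟩ := perp a ha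
      obtain ⟨wb, hwb, hpb, rb, hrb, hQwb⟩ := perp b hb
      by_cases hsa : IsSquare (Q wa / Q y)
      · refine finish hy hynb (Finset.card_singleton b).le (flex_of_perp h hwb hpb fun hsb => hns ?_)
        obtain ⟨u, hu⟩ := hsa
        obtain ⟨v, hv⟩ := hsb
        rw [hQwa, div_eq_iff hy.1] at hu
        rw [hQwb, div_eq_iff hy.1] at hv
        have hu0 : u ≠ 0 := fun e => mul_ne_zero (neg_ne_zero.2 (mul_ne_zero hra hra)) ha
          (by rw [hu, e]; ring)
        refine ⟨v * ra / (u * rb), ?_⟩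
        field_simp
        linear_combination (-(u * u)) * hv + (v * v) * hu
      · exact finish hy hynb (Finset.card_singleton a).le (flex_of_perp h hwa hpa hsa)
    by_cases hvals : ∀ i l, Q (Decomp.comp hd i y) = Q (Decomp.comp hd l y)
    · exact heq hvals hall
    push Not at hvals
    obtain ⟨i, l, hv⟩ := hvals
    have hil : i ≠ l := fun e => hv (by rw [e])
    obtain ⟨L, hL, hLd⟩ : ∃ L : List (Fin t), L.length = 4 ∧ (i :: l :: L).Nodup := by
      refine ⟨((Finset.univ \ {i, l}).toList).take 4, ?_, ?_⟩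
      · rw [List.length_take, Finset.length_toList,
          Finset.card_sdiff_of_subset (Finset.subset_univ _), Finset.card_univ, Fintype.card_fin,
          Finset.card_pair hil]
        omega
      · have hsub : ∀ e ∈ ((Finset.univ \ {i, l} : Finset (Fin t)).toList).take 4, e ≠ i ∧ e ≠ l :=
          fun e he => by
            have := Finset.mem_toList.1 (List.mem_of_mem_take he)
            simpa [Finset.mem_sdiff] using this
        refine List.nodup_cons.2 ⟨fun hm => ?_, List.nodup_cons.2 ⟨fun hm => (hsub l hm).2 rfl,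
          (List.take_sublist _ _).nodup (Finset.nodup_toList _)⟩⟩
        rcases List.mem_cons.1 hm with e | e
        · exact hil e
        · exact (hsub i e).1 rfl
    match L, hL with
    | [j, m, r, o], _ =>
      simp only [List.nodup_cons, List.mem_cons, List.not_mem_nil, or_false, not_or,
        List.nodup_nil, and_true, not_false_eq_true] at hLd
      obtain ⟨⟨-, hij, him, hir, hio⟩, ⟨hlj, hlm, hlr, hlo⟩, ⟨hjm, hjr, hjo⟩, ⟨hmr, hmo⟩, hro⟩ := hLd
      obtain ⟨z, hz, hQz, -, hzo, hznb⟩ := exists_gap h rfl h2 hq hy hall hcls hij hil him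
        (Ne.symm hlj) hjm hlm ⟨Ne.symm hir, Ne.symm hjr, Ne.symm hlr, Ne.symm hmr⟩
        ⟨Ne.symm hio, Ne.symm hjo, Ne.symm hlo, Ne.symm hmo, Ne.symm hro⟩
      rw [← hQz]
      exact finish hz (hznb hv) (Finset.card_singleton o).le (flex_of_zero h hzo)
  refine main x hx hnb fun heq hall => ?_
  -- all components of equal value
  set c := Q x with hc
  set u := fun s => Decomp.comp hd s x with hu
  let i : Fin t := ⟨0, by omega⟩
  have hα : Q (u i) ≠ 0 := fun e => hx.1 (by
    rw [value_sum h x]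
    exact Finset.sum_eq_zero fun s _ => (heq s i).trans e)
  obtain ⟨z, hz, hQz, hBz, hzo, -⟩ := exists_gap h rfl h2 hq hx hall
    (fun a b _ ha _ => by rw [heq b a, div_self ha]; exact IsSquare.one)
    (i := i) (j := ⟨1, by omega⟩) (l := ⟨2, by omega⟩) (m := ⟨3, by omega⟩) (r := ⟨4, by omega⟩)
    (o := ⟨5, by omega⟩) (by simp [i, Fin.ext_iff]) (by simp [i, Fin.ext_iff])
    (by simp [i, Fin.ext_iff]) (by simp [Fin.ext_iff]) (by simp [Fin.ext_iff])
    (by simp [Fin.ext_iff]) (by simp [i, Fin.ext_iff]) (by simp [i, Fin.ext_iff])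
  by_cases hzb : ∀ s, z ∉ D s
  · rw [show c = Q z from hQz.symm]
    exact finish hz hzb (Finset.card_singleton _).le (flex_of_zero h hzo)
  push Not at hzb
  obtain ⟨s₀, hzs⟩ := hzb
  -- such a vector exists in every member
  have hcopy : ∀ s, ∃ d ∈ D s, Q d = c ∧ polar Q (u s) d = -c := fun s => by
    obtain ⟨φ, hφ⟩ := h.dec.isometric s₀ s
    set a : ι → F := (φ ⟨u s₀, Decomp.comp_mem hd s₀ x⟩ : ι → F) with ha
    set e : ι → F := (φ ⟨z, hzs⟩ : ι → F) with he
    have hQa : Q a = Q (u s) := (hφ _).trans (heq s₀ s)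
    have hQe : Q e = c := (hφ _).trans hQz
    have hae : polar Q a e = -c := by
      rw [QuadraticMap.polar, ha, he, ← Submodule.coe_add, ← map_add, hφ, hφ, hφ]
      exact (polar_comp h.dec x hzs).symm.trans hBz
    have ha0 : Q a ≠ 0 := by rw [hQa, show Q (u s) = Q (u i) from heq s i]; exact hα
    by_cases hau : a = u s
    · exact ⟨e, (φ _).2, hQe, hau ▸ hae⟩
    obtain ⟨hdd, hmv⟩ := (hP s).move (φ _).2 (Decomp.comp_mem hd s x) hQa ha0 hau
    refine ⟨ap (rf Q (a - u s)) e, ap_rf_mem ((D s).sub_mem (φ _).2 (Decomp.comp_mem hd s x)) (φ _).2,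
      by rw [mem_isometryGroup_iff.mp (rf_mem_isom _), hQe], ?_⟩
    rw [show u s = ap (rf Q (a - u s)) a from hmv.symm]
    nth_rewrite 2 [hmv]
    rw [polar_ap (rf_mem_isom _), hae]
  obtain ⟨d₀, hd₀, hQ₀, hB₀⟩ := hcopy ⟨0, by omega⟩
  obtain ⟨d₁, hd₁, hQ₁, hB₁⟩ := hcopy ⟨1, by omega⟩
  obtain ⟨d₂, hd₂, hQ₂, hB₂⟩ := hcopy ⟨2, by omega⟩
  have h01 : (⟨0, by omega⟩ : Fin t) ≠ ⟨1, by omega⟩ := by simp [Fin.ext_iff]
  have h02 : (⟨0, by omega⟩ : Fin t) ≠ ⟨2, by omega⟩ := by simp [Fin.ext_iff]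
  have h12 : (⟨1, by omega⟩ : Fin t) ≠ ⟨2, by omega⟩ := by simp [Fin.ext_iff]
  have stp : ∀ {y d : ι → F} {s : Fin t}, Cls Q M D y → Q y = c → d ∈ D s → Q d = c →
      polar Q y d = -c → Cls Q M D (y + d) ∧ Q (y + d) = c := by
    intro y d s hy hQy hd hQd hB
    have := Cls.reflect h hy (Cls.of_mem hd (by rw [hQd]; exact hx.1)) (s := 1)
      (by rw [hQd, hQy, one_mul, one_mul])
    rw [ap_rf, hB, hQd, mul_neg, inv_mul_cancel₀ hx.1, neg_one_smul, sub_neg_eq_add] at this
    exact ⟨this, by rw [QuadraticMap.map_add (⇑Q), hQy, hQd, hB]; ring⟩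
  have b₀ : polar Q x d₀ = -c := (polar_comp h.dec x hd₀).trans hB₀
  have b₁ : polar Q x d₁ = -c := (polar_comp h.dec x hd₁).trans hB₁
  have b₂ : polar Q x d₂ = -c := (polar_comp h.dec x hd₂).trans hB₂
  obtain ⟨c₁, q₁⟩ := stp hx rfl hd₀ hQ₀ b₀
  obtain ⟨c₂, q₂⟩ := stp c₁ q₁ hd₁ hQ₁ (by
    rw [polar_add_left, b₁, orth_apply_blocks h.dec h01 hd₀ hd₁, add_zero])
  obtain ⟨c₃, q₃⟩ := stp c₂ q₂ hd₂ hQ₂ (by
    rw [polar_add_left, polar_add_left, b₂, orth_apply_blocks h.dec h02 hd₀ hd₂,
      orth_apply_blocks h.dec h12 hd₁ hd₂, add_zero, add_zero])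
  have hB : polar Q (x + d₀ + d₁ + d₂) x = -c := by
    rw [polar_add_left, polar_add_left, polar_add_left, polar_self_mul, polar_comm Q d₀ x,
      polar_comm Q d₁ x, polar_comm Q d₂ x, b₀, b₁, b₂, ← hc]
    ring
  have hy := Cls.reflect h c₃ hx (s := 1) (by rw [q₃, one_mul, one_mul])
  rw [ap_rf, hB, ← hc, mul_neg, inv_mul_cancel₀ hx.1, neg_one_smul, sub_neg_eq_add] at hy
  set y := x + d₀ + d₁ + d₂ + x with hydef
  have hQy : Q y = c := by rw [hydef, QuadraticMap.map_add (⇑Q), q₃, hB, ← hc]; ring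
  have hcy : ∀ s, Decomp.comp hd s y = (2 : F) • u s + (if s = ⟨0, by omega⟩ then d₀ else 0) +
      (if s = ⟨1, by omega⟩ then d₁ else 0) + if s = ⟨2, by omega⟩ then d₂ else 0 := fun s => by
    rw [hydef, map_add, map_add, map_add, map_add, Decomp.comp_of_mem hd hd₀,
      Decomp.comp_of_mem hd hd₁, Decomp.comp_of_mem hd hd₂, two_smul]
    abel
  have hy3 : ∀ s : Fin t, 3 ≤ (s : ℕ) → Decomp.comp hd s y = (2 : F) • u s := fun s hs => by
    rw [hcy, if_neg (fun e => by simp [e] at hs), if_neg (fun e => by simp [e] at hs),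
      if_neg (fun e => by simp [e] at hs), add_zero, add_zero, add_zero]
  have hynb : ∀ s, y ∉ D s := fun s hs => by
    obtain ⟨a, ha, ha3⟩ : ∃ a : Fin t, a ≠ s ∧ 3 ≤ (a : ℕ) := by
      by_cases e : (s : ℕ) = 3
      · exact ⟨⟨4, by omega⟩, by simp [Fin.ext_iff, e], by simp⟩
      · exact ⟨⟨3, by omega⟩, by simp [Fin.ext_iff]; omega, by simp⟩
    have := Decomp.comp_of_mem hd (i := a) hs
    rw [hy3 a ha3, if_neg ha] at this
    exact hall a ((smul_eq_zero.1 this).resolve_left h2)
  rw [← hQy]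
  refine main y hy hynb fun heq' _ => ?_
  exfalso
  have := heq' ⟨3, by omega⟩ ⟨0, by omega⟩
  rw [hy3 _ (by simp), hcy, if_pos rfl, if_neg h01, if_neg h02, add_zero, add_zero,
    QuadraticMap.map_smul, QuadraticMap.map_add (⇑Q), QuadraticMap.map_smul, polar_smul_left,
    show Q (u ⟨3, by omega⟩) = Q (u i) from heq _ i, show Q (u ⟨0, by omega⟩) = Q (u i) from heq _ i,
    hQ₀, hB₀, smul_eq_mul, smul_eq_mul] at this
  exact hx.1 (by rw [← hc]; linear_combination this)

end CfsgLib.Geometric.Orth.Blocks
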