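import Cfsg.Agent.Lib.Geometric.Orth.Blocks.Member
import Cfsg.Agent.Lib.Forms.OddFinite

/-!
One linked vector meeting exactly two members makes all vectors of its value in those two members
linked.
-/

namespace CfsgLib.Geometric.Orth.Blocks

open Matrix QuadraticMap CfsgLib.ClassicalForms

variable {ι : Type} [Fintype ι] [DecidableEq ι] {F : Type*} [Field F]
variable {Q : QuadraticForm F (ι → F)} {t k : ℕ} {D : Fin t → Submodule F (ι → F)}
variable {M : Subgroup (GL ι F)}

/-- All vectors of value `c` in the members `i` and `j` are linked. -/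
def Pair (Q : QuadraticForm F (ι → F)) (M : Subgroup (GL ι F))
    (D : Fin t → Submodule F (ι → F)) (c : F) (i j : Fin t) : Prop :=
  ∀ a ∈ D i, ∀ b ∈ D j, Q a + Q b = c → Cls Q M D (a + b)

lemma Pair.symm {c : F} {i j : Fin t} (hp : Pair Q M D c i j) : Pair Q M D c j i :=
  fun a ha b hb hab => by
    rw [add_comm]; exact hp b hb a ha (by linear_combination hab)

/-- A linked vector of value `c` in two members, the first component of value `α`. -/
def Lab (Q : QuadraticForm F (ι → F)) (M : Subgroup (GL ι F))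
    (D : Fin t → Submodule F (ι → F)) (c : F) (i j : Fin t) (α : F) : Prop :=
  ∃ a ∈ D i, ∃ b ∈ D j, a ≠ 0 ∧ b ≠ 0 ∧ Q a = α ∧ Q b = c - α ∧ Cls Q M D (a + b)

lemma Lab.swap {c α : F} {i j : Fin t} (hl : Lab Q M D c i j α) :
    Lab Q M D c j i (c - α) := by
  obtain ⟨a, ha, b, hb, ha0, hb0, hQa, hQb, h⟩ := hl
  exact ⟨b, hb, a, ha, hb0, ha0, hQb, by rw [hQa, sub_sub_cancel], by rwa [add_comm]⟩

lemma Lab.swap' {c α : F} {i j : Fin t} (hl : Lab Q M D c j i (c - α)) :
    Lab Q M D c i j α := by simpa using hl.swap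

lemma ne_one_of_sq {F : Type*} [Field F] [Fintype F] (hq : 4 ≤ Fintype.card F) :
    ∃ β : F, β ≠ 0 ∧ β * β ≠ 1 := by
  classical
  obtain ⟨β, -, hβ⟩ := Finset.exists_mem_notMem_of_card_lt_card
    (s := ({0, 1, -1} : Finset F)) (t := Finset.univ) (by
      rw [Finset.card_univ]
      exact lt_of_le_of_lt Finset.card_le_three hq)
  simp only [Finset.mem_insert, Finset.mem_singleton, not_or] at hβ
  exact ⟨β, hβ.1, fun e => (mul_self_eq_one_iff.1 e).elim hβ.2.1 hβ.2.2⟩

/-- A value of a binary form taken with both coordinates non-zero. -/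
lemma exists_both' {F : Type*} [Field F] [Fintype F] (h2 : (2 : F) ≠ 0) (hq : 7 ≤ Fintype.card F)
    {A B c : F} (hA : A ≠ 0) (hB : B ≠ 0) (hc : c ≠ 0) :
    ∃ s β : F, s ≠ 0 ∧ β ≠ 0 ∧ A * s * s + B * β * β = c := by
  obtain ⟨s, β, he⟩ := CfsgLib.Forms.exists_binary_diag_eq h2 hA hB c
  by_cases hs : s = 0
  · have hβ : β ≠ 0 := fun e => hc (by rw [← he, hs, e]; ring)
    obtain ⟨u, w, hu, hw, huw⟩ := exists_both hc hA h2 hq
    exact ⟨w, β * u, hw, mul_ne_zero hβ hu, by
      rw [hs] at he; linear_combination huw + (u * u) * he⟩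
  by_cases hβ : β = 0
  · obtain ⟨u, w, hu, hw, huw⟩ := exists_both hc hB h2 hq
    exact ⟨s * u, w, mul_ne_zero hs hu, hw, by
      rw [hβ] at he; linear_combination huw + (u * u) * he⟩
  exact ⟨s, β, hs, hβ, by linear_combination he⟩

/-- Over five elements a value is half of `c` up to squares, or so is its complement. -/
lemma five_middle {F : Type*} [Field F] [Fintype F] (hq : Fintype.card F = 5) (h2 : (2 : F) ≠ 0)
    {α c : F} (hα : α ≠ 0) (hαc : c - α ≠ 0) (hc : c ≠ 0) :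
    IsSquare (α / (c / 2)) ∨ IsSquare ((c - α) / (c / 2)) := by
  by_contra! hall
  obtain ⟨h1, h3⟩ := hall
  have hch : ringChar F ≠ 2 := fun e => h2 (by
    have := ringChar.Nat.cast_ringChar (R := F); rw [e] at this; exact_mod_cast this)
  have hneg : ∀ x : F, x ≠ 0 → ¬ IsSquare x → x * x = -1 := fun x hx hns => by
    have e := FiniteField.pow_card_sub_one_eq_one x hx
    rw [hq] at e
    rcases mul_eq_zero.1 (show (x * x - 1) * (x * x + 1) = 0 by linear_combination e) with h | h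
    · refine absurd ((FiniteField.isSquare_iff hch hx).2 ?_) hns
      rw [hq]; linear_combination h
    · linear_combination h
  have hc2 : c / 2 ≠ 0 := div_ne_zero hc h2
  have e1 := hneg _ (div_ne_zero hα hc2) h1
  have e2 := hneg _ (div_ne_zero hαc hc2) h3
  set x := α / (c / 2) with hx
  have hy : (c - α) / (c / 2) = 2 - x := by rw [hx]; field_simp
  rw [hy] at e2
  have hx1 : x = 1 := mul_left_cancel₀ (mul_ne_zero h2 h2)
    (by linear_combination e1 - e2)
  exact h1 (by rw [hx1]; exact IsSquare.one)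

variable (h : Over Q k D M)
include h

local notation3 "cp" => Decomp.comp (Over.dec h).decomp.decomp

lemma comp_pair {i j : Fin t} (hij : i ≠ j) {a b : ι → F} (ha : a ∈ D i) (hb : b ∈ D j) :
    cp i (a + b) = a ∧ cp j (a + b) = b ∧ ∀ l, l ≠ i → l ≠ j → cp l (a + b) = 0 := by
  refine ⟨?_, ?_, fun l hli hlj => ?_⟩ <;>
    rw [map_add, Decomp.comp_of_mem _ ha, Decomp.comp_of_mem _ hb]
  · rw [if_pos rfl, if_neg hij, add_zero]
  · rw [if_pos rfl, if_neg (Ne.symm hij), zero_add]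
  · rw [if_neg hli, if_neg hlj, add_zero]

lemma value_pair {i j : Fin t} (hij : i ≠ j) {a b : ι → F} (ha : a ∈ D i) (hb : b ∈ D j) :
    Q (a + b) = Q a + Q b := by
  rw [QuadraticMap.map_add (⇑Q), orth_apply_blocks h.dec hij ha hb, add_zero]

variable [Fintype F]

lemma flex_pair (hside : (2 : F) = 0 ∨ 3 ≤ t) {i j : Fin t} (hij : i ≠ j) {a b : ι → F}
    (ha : a ∈ D i) (hb : b ∈ D j) : ∃ J, i ∉ J ∧ j ∉ J ∧ Flex h J (a + b) := by
  rcases hside with h2 | ht
  · exact ⟨∅, Finset.notMem_empty i, Finset.notMem_empty j, flex_of_two h h2 _⟩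
  obtain ⟨l, -, hl⟩ := Finset.exists_mem_notMem_of_card_lt_card
    (s := ({i, j} : Finset (Fin t))) (t := Finset.univ) (by
      rw [Finset.card_univ, Fintype.card_fin]; exact lt_of_le_of_lt Finset.card_le_two ht)
  simp only [Finset.mem_insert, Finset.mem_singleton, not_or] at hl
  exact ⟨{l}, by simpa using Ne.symm hl.1, by simpa using Ne.symm hl.2,
    flex_of_zero h ((comp_pair h hij ha hb).2.2 l hl.1 hl.2)⟩

/-- The first component may be replaced. -/
lemma turn_first (hK : Kind Q k D) (hside : (2 : F) = 0 ∨ 3 ≤ t) {i j : Fin t} (hij : i ≠ j)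
    {a a' b : ι → F} (ha : a ∈ D i) (ha' : a' ∈ D i) (hb : b ∈ D j) (ha0 : a ≠ 0) (ha'0 : a' ≠ 0)
    (hQ : Q a' = Q a) (hl : Cls Q M D (a + b)) : Cls Q M D (a' + b) := by
  obtain ⟨J, hiJ, -, hf⟩ := flex_pair h hside hij ha hb
  obtain ⟨hci, -, -⟩ := comp_pair h hij ha hb
  have := Flex.turn_member h hK hf hl rfl (β := 1) (fun l _ => (one_smul F _).symm) hiJ
    (by rwa [hci]) ha' ha'0 (by rw [hci, hQ])
  rwa [hci, add_sub_cancel_left, add_comm] at this

/-- The linkage depends on the label only. -/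
lemma Lab.all (hK : Kind Q k D) (hside : (2 : F) = 0 ∨ 3 ≤ t) {i j : Fin t} (hij : i ≠ j)
    {c α : F} (hl : Lab Q M D c i j α) {a' b' : ι → F} (ha' : a' ∈ D i) (hb' : b' ∈ D j)
    (ha'0 : a' ≠ 0) (hb'0 : b' ≠ 0) (hQa' : Q a' = α) (hQb' : Q b' = c - α) :
    Cls Q M D (a' + b') := by
  obtain ⟨a, ha, b, hb, ha0, hb0, hQa, hQb, hl⟩ := hl
  have h1 := turn_first h hK hside hij ha ha' hb ha0 ha'0 (hQa'.trans hQa.symm) hl
  rw [add_comm] at h1 ⊢
  exact turn_first h hK hside (Ne.symm hij) hb hb' ha' hb0 hb'0 (hQb'.trans hQb.symm) h1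

/-- The coordinate at the second member is scaled. -/
lemma Lab.side (hK : Kind Q k D) (hside : (2 : F) = 0 ∨ 3 ≤ t) {i j : Fin t} (hij : i ≠ j)
    {c α : F} (hl : Lab Q M D c i j α) (hne : c - α ≠ 0) {β : F} (hβ : β ≠ 0)
    (hval : ∃ p ∈ D i, p ≠ 0 ∧ Q p = c - β * β * (c - α)) :
    Lab Q M D c i j (c - β * β * (c - α)) := by
  obtain ⟨a, ha, b, hb, ha0, hb0, hQa, hQb, hl⟩ := hl
  obtain ⟨P, hP, hPD, haP, hq, hval'⟩ := exists_plane h hK ha ha0
  obtain ⟨p, hp, hp0, hQp⟩ := hval' _ hval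
  obtain ⟨J, hiJ, -, hf⟩ := flex_pair h hside hij ha hb
  obtain ⟨hci, -, -⟩ := comp_pair h hij ha hb
  have hx : Q (a + b) = c := by rw [value_pair h hij ha hb, hQa, hQb]; ring
  have hrest : (a + b) - cp i (a + b) = b := by rw [hci, add_sub_cancel_left]
  have hbase := Flex.base h hf hl hiJ hP hPD (by rwa [hci]) (by rwa [hci])
    (by rw [hrest, hQb]; exact hne)
  rw [hci, add_sub_cancel_left, hx] at hbase
  refine ⟨p, hPD hp, β • b, (D j).smul_mem _ hb, hp0, smul_ne_zero hβ hb0, hQp, ?_,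
    hbase.all h hq hp hp0 (by rw [hQp, hQb]; ring)⟩
  rw [QuadraticMap.map_smul, hQb, smul_eq_mul]; ring

lemma value_ne_zero (i : Fin t) {γ : F} (hγ : γ ≠ 0) : ∃ p ∈ D i, p ≠ 0 ∧ Q p = γ := by
  obtain ⟨p, hp, hQp⟩ := h.value i γ
  exact ⟨p, hp, fun e => hγ (by rw [← hQp, e, QuadraticMap.map_zero]), hQp⟩

/-- From a label with non-singular second component. -/
lemma Lab.to_right (hK : Kind Q k D) (hside : (2 : F) = 0 ∨ 3 ≤ t) {i j : Fin t} (hij : i ≠ j)
    {c α α' : F} (hl : Lab Q M D c i j α) (hne : c - α ≠ 0) (hne' : c - α' ≠ 0)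
    (hsq : IsSquare ((c - α') / (c - α))) (hval : ∃ p ∈ D i, p ≠ 0 ∧ Q p = α') :
    Lab Q M D c i j α' := by
  obtain ⟨β, hβ⟩ := hsq
  have hβ0 : β ≠ 0 := fun e => div_ne_zero hne' hne (by rw [hβ, e, mul_zero])
  have e : c - β * β * (c - α) = α' := by rw [← hβ, div_mul_cancel₀ _ hne]; ring
  exact e ▸ hl.side h hK hside hij hne hβ0 (by rwa [e])

/-- From a label with non-singular first component. -/
lemma Lab.to_left (hK : Kind Q k D) (hside : (2 : F) = 0 ∨ 3 ≤ t) {i j : Fin t} (hij : i ≠ j)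
    {c α α' : F} (hl : Lab Q M D c i j α) (hne : α ≠ 0) (hne' : α' ≠ 0)
    (hsq : IsSquare (α' / α)) (hval : ∃ p ∈ D j, p ≠ 0 ∧ Q p = c - α') :
    Lab Q M D c i j α' := by
  refine (hl.swap.to_right h hK hside (Ne.symm hij) (α' := c - α') (by rwa [sub_sub_cancel])
    (by rwa [sub_sub_cancel]) (by rwa [sub_sub_cancel, sub_sub_cancel]) hval).swap'

/-- A label with both components non-singular. -/
lemma exists_lab_regular (hK : Kind Q k D) (hside : (2 : F) = 0 ∨ 3 ≤ t)
    (hq : 3 ≤ Fintype.card F) (hq4 : (2 : F) ≠ 0 → 4 ≤ Fintype.card F)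
    {i j : Fin t} (hij : i ≠ j) {c α : F} (hc : c ≠ 0) (hl : Lab Q M D c i j α) :
    ∃ α₀, α₀ ≠ 0 ∧ c - α₀ ≠ 0 ∧ Lab Q M D c i j α₀ := by
  classical
  obtain ⟨β, hβ0, hβ1⟩ : ∃ β : F, β ≠ 0 ∧ β * β ≠ 1 := by
    by_cases h2 : (2 : F) ≠ 0
    · exact ne_one_of_sq (hq4 h2)
    push Not at h2
    obtain ⟨β, -, hβ⟩ := Finset.exists_mem_notMem_of_card_lt_card
      (s := ({0, 1} : Finset F)) (t := Finset.univ) (by
        rw [Finset.card_univ]; exact lt_of_le_of_lt Finset.card_le_two hq)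
    simp only [Finset.mem_insert, Finset.mem_singleton, not_or] at hβ
    refine ⟨β, hβ.1, fun e => hβ.2 ?_⟩
    rcases mul_self_eq_one_iff.1 e with e | e
    · exact e
    · linear_combination e - h2
  have hne : c - c * (β * β) ≠ 0 := fun e => hβ1 (mul_left_cancel₀ hc (by linear_combination -e))
  by_cases h1 : α = 0
  · refine ⟨c - c * (β * β), hne, by simp [hc, hβ0], ?_⟩
    subst h1
    exact hl.to_right h hK hside hij (by rwa [sub_zero]) (by simp [hc, hβ0])
      ⟨β, by rw [sub_zero, sub_sub_cancel, mul_div_cancel_left₀ _ hc]⟩ (value_ne_zero h i hne)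
  by_cases h3 : c - α = 0
  · obtain rfl : c = α := sub_eq_zero.1 h3
    refine ⟨c * (β * β), mul_ne_zero hc (mul_ne_zero hβ0 hβ0), hne, ?_⟩
    exact hl.to_left h hK hside hij hc (mul_ne_zero hc (mul_ne_zero hβ0 hβ0))
      ⟨β, by rw [mul_div_cancel_left₀ _ hc]⟩ (value_ne_zero h j hne)
  exact ⟨α, h1, h3, hl⟩

/-- More than two elements. -/
lemma lab_complete (hK : Kind Q k D) (hside : (2 : F) = 0 ∨ 3 ≤ t)
    (hq : 3 ≤ Fintype.card F)
    (hodd : (2 : F) ≠ 0 → 5 ≤ Fintype.card F ∧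
      ∀ i, (∃ p ∈ D i, p ≠ 0 ∧ Q p = 0) → 7 ≤ Fintype.card F)
    {i j : Fin t} (hij : i ≠ j) {c α : F} (hc : c ≠ 0) (hl : Lab Q M D c i j α) {α' : F}
    (hvi : ∃ p ∈ D i, p ≠ 0 ∧ Q p = α') (hvj : ∃ p ∈ D j, p ≠ 0 ∧ Q p = c - α') :
    Lab Q M D c i j α' := by
  obtain ⟨α₀, h0, h0', hl⟩ := exists_lab_regular h hK hside hq
    (fun h2 => by have := (hodd h2).1; omega) hij hc hl
  by_cases h2 : (2 : F) = 0
  · have : CharP F 2 := CharTwo.of_one_ne_zero_of_two_eq_zero one_ne_zero h2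
    by_cases h1 : c - α' = 0
    · exact hl.to_left h hK hside hij h0
        (fun e => hc (by linear_combination h1 + e)) (isSquare_of_charTwo' _) hvj
    · exact hl.to_right h hK hside hij h0' h1 (isSquare_of_charTwo' _) hvi
  obtain ⟨hq5, hq7⟩ := hodd h2
  -- all labels with both components non-singular
  have reg : ∀ β : F, β ≠ 0 → c - β ≠ 0 → Lab Q M D c i j β := by
    intro β hβ hβ'
    by_cases hs1 : IsSquare ((c - β) / (c - α₀))
    · exact hl.to_right h hK hside hij h0' hβ' hs1 (value_ne_zero h i hβ)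
    by_cases hs2 : IsSquare (β / α₀)
    · exact hl.to_left h hK hside hij h0 hβ hs2 (value_ne_zero h j hβ')
    rcases lt_or_ge (Fintype.card F) 7 with hlt | hge
    · have h5 : Fintype.card F = 5 := by
        have : Fintype.card F % 2 = 1 := FiniteField.odd_card_of_char_ne_two fun e => h2 (by
          have := ringChar.Nat.cast_ringChar (R := F); rw [e] at this; exact_mod_cast this)
        omega
      have hm : c / 2 ≠ 0 := div_ne_zero hc h2
      have hm' : c - c / 2 = c / 2 := by field_simp; ring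
      have hlm : Lab Q M D c i j (c / 2) := by
        rcases five_middle h5 h2 h0 h0' hc with hs | hs
        · exact hl.to_left h hK hside hij h0 hm (by simpa using hs.inv)
            (value_ne_zero h j (by rwa [hm']))
        · exact hl.to_right h hK hside hij h0' (by rwa [hm']) (by rw [hm']; simpa using hs.inv)
            (value_ne_zero h i hm)
      rcases five_middle h5 h2 hβ hβ' hc with hs | hs
      · exact hlm.to_left h hK hside hij hm hβ hs (value_ne_zero h j hβ')
      · exact hlm.to_right h hK hside hij (by rwa [hm']) hβ' (by rwa [hm']) (value_ne_zero h i hβ)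
    obtain ⟨s, r, hs, hr, hsr⟩ := exists_both' h2 hge h0 hβ' hc
    have hm : α₀ * (s * s) ≠ 0 := mul_ne_zero h0 (mul_ne_zero hs hs)
    have hm' : c - α₀ * (s * s) = (c - β) * (r * r) := by linear_combination -hsr
    have hm'0 : c - α₀ * (s * s) ≠ 0 := hm' ▸ mul_ne_zero hβ' (mul_ne_zero hr hr)
    refine (hl.to_left h hK hside hij h0 hm ⟨s, by rw [mul_div_cancel_left₀ _ h0]⟩
      (value_ne_zero h j hm'0)).to_right h hK hside hij hm'0 hβ' ⟨r⁻¹, ?_⟩ (value_ne_zero h i hβ)
    rw [hm']; field_simp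
  by_cases h1 : α' = 0
  · subst h1
    obtain ⟨s, r, hs, hr, hsr⟩ := exists_both' h2 (hq7 i hvi) hc hc hc
    have e : c - c * (s * s) = c * (r * r) := by linear_combination -hsr
    exact (reg (c * (s * s)) (mul_ne_zero hc (mul_ne_zero hs hs))
      (e ▸ mul_ne_zero hc (mul_ne_zero hr hr))).to_right h hK hside hij
      (e ▸ mul_ne_zero hc (mul_ne_zero hr hr)) (by rwa [sub_zero])
      ⟨r⁻¹, by rw [e, sub_zero]; field_simp⟩ hvi
  by_cases h3 : c - α' = 0
  · obtain rfl : c = α' := sub_eq_zero.1 h3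
    rw [sub_self] at hvj
    obtain ⟨s, r, hs, hr, hsr⟩ := exists_both' h2 (hq7 j hvj) hc hc hc
    have e : c - c * (s * s) = c * (r * r) := by linear_combination -hsr
    exact (reg (c * (s * s)) (mul_ne_zero hc (mul_ne_zero hs hs))
      (e ▸ mul_ne_zero hc (mul_ne_zero hr hr))).to_left h hK hside hij
      (mul_ne_zero hc (mul_ne_zero hs hs)) hc ⟨s⁻¹, by field_simp⟩ (by rwa [sub_self])
  exact reg α' h1 h3

/-- Two elements: from a non-singular first component to a singular one. -/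
lemma lab_switch (hK : Kind Q k D) (hside : (2 : F) = 0 ∨ 3 ≤ t) (hq : Fintype.card F = 2)
    {i j : Fin t} (hij : i ≠ j) (hl : Lab Q M D 1 i j 1) : Lab Q M D 1 i j 0 := by
  obtain ⟨h2, hk⟩ : (2 : F) = 0 ∧ 4 ≤ k := by
    rcases hK with ⟨-, h4, -⟩ | ⟨h2, hk, -, -⟩
    · omega
    · exact ⟨h2, hk⟩
  obtain ⟨a, ha, b, hb, ha0, hb0, hQa, hQb, hl'⟩ := id hl
  rw [sub_self] at hQb
  obtain ⟨z, hz, hz0⟩ := ((h.dec.decomp.nondegenerate i) a ha ha0).2
  have hay : polar Q a ((polar Q a z)⁻¹ • z) = 1 := by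
    rw [polar_smul_right, smul_eq_mul, inv_mul_cancel₀ hz0]
  obtain ⟨hW', hd'⟩ := nondeg_perp_pair (h.dec.decomp.nondegenerate i) h2 ha
    ((D i).smul_mem _ hz) hay
  have hd : 4 ≤ Module.finrank F (D i) := by rw [h.dec.decomp.decomp.finrank_eq]; exact hk
  obtain ⟨a', ha', hQa'⟩ := exists_value' hW' (by omega) (1 : F)
  have haa' : polar Q a' a = 0 := ha'.1.2
  have hne : a' - a ≠ 0 := sub_ne_zero.2 fun e => by
    have := (show polar Q a' ((polar Q a z)⁻¹ • z) = 0 from ha'.2)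
    rw [e, hay] at this; exact one_ne_zero this
  obtain ⟨P, -, hPD, hbP, hall⟩ := exists_split_plane (h.dec.decomp.nondegenerate j)
    (by rw [h.dec.decomp.decomp.finrank_eq]; exact hk) h2 hb hb0
  obtain ⟨b', hb', hbb'⟩ : ∃ b' ∈ D j, Q b' = 0 ∧ polar Q b b' = 1 := by
    obtain ⟨y, hy, hby⟩ := ((h.dec.decomp.nondegenerate j) b hb hb0).2
    refine ⟨(polar Q b y)⁻¹ • y - Q ((polar Q b y)⁻¹ • y) • b,
      (D j).sub_mem ((D j).smul_mem _ hy) ((D j).smul_mem _ hb), ?_, ?_⟩
    · rw [CfsgLib.ClassicalForms.map_sub_eq, QuadraticMap.map_smul _ (Q _), hQb,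
        polar_smul_right _ (Q _), polar_comm Q _ b, polar_smul_right, smul_eq_mul (polar Q b y)⁻¹,
        inv_mul_cancel₀ hby, smul_eq_mul, smul_eq_mul]
      ring
    · rw [polar_sub_right, polar_smul_right, polar_smul_right, polar_self_mul, h2, smul_eq_mul,
        inv_mul_cancel₀ hby]
      simp
  have hb'0 : b' ≠ 0 := fun e => by rw [e] at hbb'; simp [polar] at hbb'
  have ha'0 : a' ≠ 0 := fun e => one_ne_zero (α := F) (by rw [← hQa', e, QuadraticMap.map_zero])
  have h1 := hl.all h hK hside hij ha'.1.1 hb' ha'0 hb'0 hQa' (by rw [sub_self]; exact hbb'.1)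
  have hQx : Q (a + b) = 1 := by rw [value_pair h hij ha hb, hQa, hQb, add_zero]
  have h3 := Cls.reflect h h1 hl' (s := 1) (by
    rw [hQx, value_pair h hij ha'.1.1 hb', hQa', hbb'.1]; ring)
  have hB : polar Q (a' + b') (a + b) = 1 := by
    rw [polar_add_left, polar_add_right, polar_add_right, haa', orth_apply_blocks h.dec hij ha'.1.1 hb,
      polar_comm Q b' a, orth_apply_blocks h.dec hij ha hb', polar_comm Q b' b, hbb'.2]
    ring
  rw [ap_rf, hQx, hB, inv_one, one_mul, one_smul,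
    show a' + b' - (a + b) = (a' - a) + (b' - b) by abel] at h3
  have hQb'' : Q (b' - b) = 1 - 0 := by
    rw [CfsgLib.ClassicalForms.map_sub_eq, hbb'.1, hQb, polar_comm, hbb'.2]
    linear_combination -h2
  refine ⟨a' - a, (D i).sub_mem ha'.1.1 ha, b' - b, (D j).sub_mem hb' hb, hne, fun e => ?_, ?_,
    hQb'', h3⟩
  · rw [e, QuadraticMap.map_zero, sub_zero] at hQb''; exact zero_ne_one hQb''
  · rw [CfsgLib.ClassicalForms.map_sub_eq, hQa', hQa, haa']; linear_combination h2

/-- One linked vector in two members spreads to all of that value. -/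
theorem pair_of_linked (hK : Kind Q k D) (hside : (2 : F) = 0 ∨ 3 ≤ t) {i j : Fin t}
    (hij : i ≠ j) {a b : ι → F} (ha : a ∈ D i) (hb : b ∈ D j) (ha0 : a ≠ 0) (hb0 : b ≠ 0)
    (hl : Cls Q M D (a + b)) : Pair Q M D (Q a + Q b) i j := by
  set c := Q a + Q b with hcdef
  have hc : c ≠ 0 := by rw [hcdef, ← value_pair h hij ha hb]; exact hl.1
  have hlab : Lab Q M D c i j (Q a) :=
    ⟨a, ha, b, hb, ha0, hb0, rfl, by rw [hcdef]; ring, hl⟩
  intro a' ha' b' hb' hab
  by_cases ha'0 : a' = 0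
  · subst ha'0
    rw [QuadraticMap.map_zero, zero_add] at hab
    rw [zero_add]
    exact Cls.of_mem hb' (by rw [hab]; exact hc)
  by_cases hb'0 : b' = 0
  · subst hb'0
    rw [QuadraticMap.map_zero, add_zero] at hab
    rw [add_zero]
    exact Cls.of_mem ha' (by rw [hab]; exact hc)
  refine Lab.all h hK hside hij (c := c) (α := Q a') ?_ ha' hb' ha'0 hb'0 rfl (by linear_combination hab)
  by_cases hq : 3 ≤ Fintype.card F
  · refine lab_complete h hK hside hq (fun h2 => ?_) hij hc hlab (α' := Q a')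
      ⟨a', ha', ha'0, rfl⟩ ⟨b', hb', hb'0, by linear_combination hab⟩
    rcases hK with ⟨-, h4, hsp⟩ | ⟨h0, -, -, -⟩
    · refine ⟨?_, fun l ⟨p, hp, hp0, hQp⟩ => hsp l fun hA => hp0 (hA p hp hQp)⟩
      have : Fintype.card F % 2 = 1 := FiniteField.odd_card_of_char_ne_two fun e => h2 (by
        have := ringChar.Nat.cast_ringChar (R := F); rw [e] at this; exact_mod_cast this)
      omega
    · exact absurd h0 h2
  have hq2 : Fintype.card F = 2 := by have := Fintype.one_lt_card (α := F); omega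
  have hone : ∀ x : F, x = 0 ∨ x = 1 := fun x => by
    by_cases hx : x = 0
    · exact Or.inl hx
    have := FiniteField.pow_card_sub_one_eq_one x hx
    rw [hq2] at this
    exact Or.inr (by simpa using this)
  have hc1 : c = 1 := (hone c).resolve_left hc
  rw [hc1] at hlab ⊢
  rcases hone (Q a') with e | e <;> rw [e] <;> rcases hone (Q a) with e' | e' <;> rw [e'] at hlab
  · exact hlab
  · exact lab_switch h hK hside hq2 hij hlab
  · have := hlab.swap
    rw [sub_zero] at this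
    have h0 := (lab_switch h hK hside hq2 (Ne.symm hij) this).swap
    rwa [sub_zero] at h0
  · exact hlab

end CfsgLib.Geometric.Orth.Blocks
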