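import Cfsg.Agent.Lib.Geometric.Orth.Blocks.Basic

/-!
The vectors of given value in a non-degenerate plane and their pairings with a fixed vector.
-/

namespace CfsgLib.Geometric.Orth.Blocks

open Matrix QuadraticMap CfsgLib.ClassicalForms

variable {ι : Type} [Fintype ι] [DecidableEq ι] {F : Type*} [Field F]
variable {Q : QuadraticForm F (ι → F)} {P : Submodule F (ι → F)}

/-- A non-degenerate plane. -/
structure IsPlane (Q : QuadraticForm F (ι → F)) (P : Submodule F (ι → F)) : Prop where
  dim : Module.finrank F P = 2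
  nondeg : Cfsg.Geo.IsNondegenerateOn (polar (⇑Q)) P

/-- No non-zero vector of the subspace is singular. -/
def Aniso (Q : QuadraticForm F (ι → F)) (P : Submodule F (ι → F)) : Prop :=
  ∀ x ∈ P, Q x = 0 → x = 0

variable (hP : IsPlane Q P)
include hP

omit [Fintype ι] [DecidableEq ι] in
lemma IsPlane.partner {u : ι → F} (hu : u ∈ P) (hu0 : u ≠ 0) :
    ∃ y ∈ P, polar Q u y = 1 ∧ ∀ s : F, y ≠ s • u := by
  obtain ⟨z, hz, hz0⟩ := (hP.nondeg u hu hu0).2
  obtain ⟨x, hx, hxu⟩ : ∃ x ∈ P, x ∉ Submodule.span F {u} := by
    by_contra! h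
    have := Submodule.finrank_mono (show P ≤ Submodule.span F {u} from h)
    rw [hP.dim, finrank_span_singleton hu0] at this
    omega
  have hli : ∀ s : F, x ≠ s • u := fun s hs =>
    hxu (hs ▸ Submodule.smul_mem _ s (Submodule.mem_span_singleton_self u))
  set y := (polar Q u z)⁻¹ • z with hy
  have hy1 : polar Q u y = 1 := by
    rw [hy, polar_smul_right, smul_eq_mul, inv_mul_cancel₀ hz0]
  have hyP : y ∈ P := P.smul_mem _ hz
  by_cases h : ∀ s : F, y ≠ s • u
  · exact ⟨y, hyP, hy1, h⟩
  push Not at h
  obtain ⟨r, hr⟩ := h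
  by_cases hx0 : polar Q u x = 0
  · refine ⟨y + x, P.add_mem hyP hx, by rw [polar_add_right, hy1, hx0, add_zero], fun s hs => ?_⟩
    refine hli (s - r) ?_
    rw [sub_smul, ← hs, ← hr, add_sub_cancel_left]
  · refine ⟨(polar Q u x)⁻¹ • x, P.smul_mem _ hx,
      by rw [polar_smul_right, smul_eq_mul, inv_mul_cancel₀ hx0], fun s hs => hli (polar Q u x * s) ?_⟩
    rw [mul_smul, ← hs, smul_inv_smul₀ hx0]

omit [DecidableEq ι] in
lemma IsPlane.coords {u y : ι → F} (hu : u ∈ P) (hy : y ∈ P) (hli : ∀ s : F, y ≠ s • u)
    (hu0 : u ≠ 0) {x : ι → F} (hx : x ∈ P) : ∃ a b : F, x = a • u + b • y := by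
  have hI : LinearIndependent F ![u, y] := by
    refine linearIndependent_fin2.2 ⟨fun h => hli 0 (by simpa using h), fun a h => ?_⟩
    simp at h
    by_cases ha : a = 0
    · rw [ha, zero_smul] at h; exact hu0 h.symm
    · exact hli a⁻¹ (by rw [← h, inv_smul_smul₀ ha])
  have hle : Submodule.span F (Set.range ![u, y]) ≤ P := by
    rw [Submodule.span_le]
    rintro _ ⟨i, rfl⟩
    fin_cases i <;> simpa
  have heq := Submodule.eq_of_le_of_finrank_eq hle
    (by rw [finrank_span_eq_card hI, hP.dim]; rfl)
  rw [← heq, Submodule.mem_span_range_iff_exists_fun] at hx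
  obtain ⟨c, rfl⟩ := hx
  exact ⟨c 0, c 1, by simp [Fin.sum_univ_two]⟩

omit [Fintype ι] [DecidableEq ι] hP in
lemma coord_eq_zero {u y : ι → F} (hli : ∀ s : F, y ≠ s • u) (hu0 : u ≠ 0) {a b : F}
    (h : a • u + b • y = 0) : a = 0 ∧ b = 0 := by
  by_cases hb : b = 0
  · rw [hb, zero_smul, add_zero] at h
    exact ⟨(smul_eq_zero.1 h).resolve_right hu0, hb⟩
  · refine absurd ?_ (hli (-(a / b)))
    rw [eq_comm, ← sub_eq_zero]
    calc -(a / b) • u - y = (-b⁻¹) • (a • u + b • y) := by
          match_scalars <;> field_simp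
      _ = 0 := by rw [h, smul_zero]

omit [DecidableEq ι] in
/-- The only vector of the plane orthogonal to two independent ones is zero. -/
lemma IsPlane.eq_zero {u y z : ι → F} (hu : u ∈ P) (hy : y ∈ P) (hli : ∀ s : F, y ≠ s • u)
    (hu0 : u ≠ 0) (hz : z ∈ P) (h1 : polar Q z u = 0) (h2 : polar Q z y = 0) : z = 0 := by
  by_contra hz0
  obtain ⟨x, hx, hzx⟩ := (hP.nondeg z hz hz0).2
  obtain ⟨a, b, rfl⟩ := hP.coords hu hy hli hu0 hx
  exact hzx (by rw [polar_add_right, polar_smul_right, polar_smul_right, h1, h2]; simp)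

omit [DecidableEq ι] in
/-- The determinant of a basis with pairing one does not vanish. -/
lemma IsPlane.det_ne {u y : ι → F} (hu : u ∈ P) (hy : y ∈ P) (hli : ∀ s : F, y ≠ s • u)
    (hu0 : u ≠ 0) (huy : polar Q u y = 1) : 4 * Q u * Q y - 1 ≠ 0 := fun h => by
  have hz := hP.eq_zero hu hy hli hu0 (z := u - (2 * Q u) • y)
    (P.sub_mem hu (P.smul_mem _ hy))
    (by rw [polar_sub_left, polar_smul_left, polar_self_mul, polar_comm Q y u, huy, smul_eq_mul,
          mul_one, sub_self])
    (by rw [polar_sub_left, polar_smul_left, huy, polar_self_mul, smul_eq_mul]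
        linear_combination -h)
  have := coord_eq_zero hli hu0 (a := 1) (b := -(2 * Q u)) (by rw [← hz]; module)
  exact one_ne_zero this.1

omit [DecidableEq ι] in
/-- Two vectors of the same non-zero value differ by a non-singular vector or are equal. -/
lemma IsPlane.eq_of_singular_diff {p p' : ι → F} (hp : p ∈ P) (hp' : p' ∈ P) (hQ : Q p = Q p')
    (hne : Q p ≠ 0) (hd : Q (p - p') = 0) : p = p' := by
  have hp0 : p ≠ 0 := fun h => hne (by rw [h, QuadraticMap.map_zero])
  have hB : polar Q p p' = 2 * Q p := by
    rw [CfsgLib.ClassicalForms.map_sub_eq, ← hQ] at hd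
    linear_combination -hd
  by_cases hli : ∀ s : F, p' ≠ s • p
  · exact sub_eq_zero.1 (hP.eq_zero hp hp' hli hp0 (P.sub_mem hp hp')
      (by rw [polar_sub_left, polar_self_mul, polar_comm Q p' p, hB, sub_self])
      (by rw [polar_sub_left, hB, polar_self_mul, hQ, sub_self]))
  push Not at hli
  obtain ⟨s, rfl⟩ := hli
  rw [show p - s • p = (1 - s) • p by rw [sub_smul, one_smul], QuadraticMap.map_smul] at hd
  have h3 : 1 - s = 0 := by simpa [hne] using hd
  rw [← sub_eq_zero.1 h3, one_smul]

/-- One reflection moves any vector of non-zero value to any other of that value. -/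
lemma IsPlane.move {p p' : ι → F} (hp : p ∈ P) (hp' : p' ∈ P) (hQ : Q p = Q p') (hne : Q p ≠ 0)
    (hpp : p ≠ p') : Q (p - p') ≠ 0 ∧ ap (rf Q (p - p')) p = p' :=
  have hd : Q (p - p') ≠ 0 := fun h => hpp (hP.eq_of_singular_diff hp hp' hQ hne h)
  ⟨hd, ap_rf_sub hQ hd⟩

variable [Fintype F]

omit hP in
open Classical in
/-- The vectors of value `c` in `P`. -/
noncomputable def circle (Q : QuadraticForm F (ι → F)) (P : Submodule F (ι → F)) (c : F) :
    Finset (ι → F) := Finset.univ.filter fun x => x ∈ P ∧ Q x = c

omit hP in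
lemma mem_circle {c : F} {x : ι → F} : x ∈ circle Q P c ↔ x ∈ P ∧ Q x = c := by
  simp [circle]

omit hP in
open Classical in
/-- The pairings of `u` with the vectors of value `c` in `P`. -/
noncomputable def pairs (Q : QuadraticForm F (ι → F)) (P : Submodule F (ι → F)) (u : ι → F)
    (c : F) : Finset F := (circle Q P c).image fun p => polar Q u p

omit hP in
lemma mem_pairs {u : ι → F} {c b : F} :
    b ∈ pairs Q P u c ↔ ∃ p ∈ P, Q p = c ∧ polar Q u p = b := by
  simp [pairs, mem_circle, and_assoc]

/-- The number of vectors of value `c` in a plane: one more than the field, less the number of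
singular lines. -/
lemma IsPlane.circle_card {c : F} (hc : c ≠ 0) :
    (Aniso Q P → (circle Q P c).card = Fintype.card F + 1) ∧
      (¬ Aniso Q P → (circle Q P c).card + 1 = Fintype.card F) ∧
      Fintype.card F ≤ (circle Q P c).card + 1 := by
  classical
  obtain ⟨p₀, hp₀, hQp₀⟩ := exists_value' hP.nondeg hP.dim.ge c
  have hp00 : p₀ ≠ 0 := fun h => hc (by rw [← hQp₀, h, QuadraticMap.map_zero])
  obtain ⟨y, hy, hpy, hli⟩ := hP.partner hp₀ hp00
  have hdet := hP.det_ne hp₀ hy hli hp00 hpy
  rw [hQp₀] at hdet
  have hQw : ∀ s : F, Q (y + s • p₀) = Q y + s + s * s * c := fun s => by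
    rw [QuadraticMap.map_add (⇑Q), QuadraticMap.map_smul, polar_smul_right, hQp₀,
      polar_comm Q y p₀, hpy, smul_eq_mul, smul_eq_mul]
    ring
  set f : F → ι → F := fun s => ap (rf Q (y + s • p₀)) p₀ with hf
  have hfs : ∀ s, f s = p₀ - ((Q y + s + s * s * c)⁻¹ * (1 + 2 * c * s)) • (y + s • p₀) := by
    intro s
    rw [hf]
    simp only
    rw [ap_rf, hQw, polar_add_right, polar_smul_right, hpy, polar_self_mul, hQp₀, smul_eq_mul]
    congr 3
    ring
  set R := Finset.univ.filter fun s : F => Q y + s + s * s * c = 0 with hR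
  have hval : ∀ s, f s ∈ circle Q P c := fun s => mem_circle.2
    ⟨by rw [hfs]; exact P.sub_mem hp₀ (P.smul_mem _ (P.add_mem hy (P.smul_mem _ hp₀))),
      by rw [hf]; simp only; rw [mem_isometryGroup_iff.mp (rf_mem_isom _), hQp₀]⟩
  have hnot : -p₀ ∉ (Finset.univ \ R).image f := by
    simp only [Finset.mem_image, Finset.mem_sdiff, Finset.mem_univ, true_and, not_exists, not_and]
    intro s hs heq
    have hz : (2 - (Q y + s + s * s * c)⁻¹ * (1 + 2 * c * s) * s) • p₀ +
        (-((Q y + s + s * s * c)⁻¹ * (1 + 2 * c * s))) • y = 0 := by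
      rw [hfs] at heq
      linear_combination (norm := module) heq
    obtain ⟨h1, h2⟩ := coord_eq_zero hli hp00 hz
    have hs' : Q y + s + s * s * c ≠ 0 := by simpa [hR] using hs
    simp only [neg_eq_zero, mul_eq_zero, inv_eq_zero, hs', false_or] at h2
    rw [h2] at h1
    simp at h1
    exact one_ne_zero (α := F) (by linear_combination h2 - c * s * h1)
  have hinj : Set.InjOn f ↑(Finset.univ \ R) := by
    intro s hs s' hs' heq
    simp [hR] at hs hs'
    rw [hfs, hfs] at heq
    set κ := (Q y + s + s * s * c)⁻¹ * (1 + 2 * c * s)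
    set κ' := (Q y + s' + s' * s' * c)⁻¹ * (1 + 2 * c * s') with hκ'
    have hz : (κ' * s' - κ * s) • p₀ + (κ' - κ) • y = 0 := by
      linear_combination (norm := module) heq
    obtain ⟨h1, h2⟩ := coord_eq_zero hli hp00 hz
    by_cases hκ : κ = 0
    · have e1 : 1 + 2 * c * s = 0 := by simpa [κ, hs] using hκ
      have e2 : 1 + 2 * c * s' = 0 := by
        have : κ' = 0 := by linear_combination h2 + hκ
        simpa [hκ', hs'] using this
      have h2c : (2 * c : F) ≠ 0 := fun h => one_ne_zero (α := F) (by
        linear_combination e1 - s * h)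
      exact mul_left_cancel₀ h2c (by linear_combination e1 - e2)
    · exact mul_left_cancel₀ hκ (by linear_combination -h1 + s' * h2)
  have hC : circle Q P c = insert (-p₀) ((Finset.univ \ R).image f) := by
    refine Finset.ext fun p => ⟨fun hp => ?_, fun hp => ?_⟩
    · rw [Finset.mem_insert]
      by_cases hpn : p = -p₀
      · exact Or.inl hpn
      refine Or.inr (Finset.mem_image.2 ?_)
      obtain ⟨hpP, hQp⟩ := mem_circle.1 hp
      by_cases hpp : p = p₀
      · subst hpp
        have h2 : (2 : F) ≠ 0 := fun h => hpn (by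
          rw [eq_neg_iff_add_eq_zero, ← two_smul F, h, zero_smul])
        have h2c : (2 * c : F) ≠ 0 := mul_ne_zero h2 hc
        have h4 : Q y + -(2 * c)⁻¹ + -(2 * c)⁻¹ * -(2 * c)⁻¹ * c ≠ 0 := by
          intro h0
          apply hdet
          field_simp at h0
          linear_combination h0
        refine ⟨-(2 * c)⁻¹, Finset.mem_sdiff.2 ⟨Finset.mem_univ _, fun hm => h4 (Finset.mem_filter.1 hm).2⟩, ?_⟩
        have e : (1 : F) + 2 * c * -(2 * c)⁻¹ = 0 := by field_simp; ring
        rw [hfs, e, mul_zero, zero_smul, sub_zero]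
      · obtain ⟨hd, hmv⟩ := hP.move hp₀ hpP (hQp₀.trans hQp.symm) (by rw [hQp₀]; exact hc)
          (Ne.symm hpp)
        obtain ⟨a, b, hab⟩ := hP.coords hp₀ hy hli hp00 (P.sub_mem hp₀ hpP)
        have hb : b ≠ 0 := fun h => by
          rw [h, zero_smul, add_zero] at hab
          have hpa : p = (1 - a) • p₀ := by
            rw [sub_smul, one_smul, ← hab, sub_sub_cancel]
          have := hQp
          rw [hpa, QuadraticMap.map_smul, hQp₀, smul_eq_mul] at this
          rcases mul_self_eq_one_iff.1 (mul_right_cancel₀ hc (this.trans (one_mul c).symm)) with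
            e | e
          · exact hpp (by rw [hpa, e, one_smul])
          · exact hpn (by rw [hpa, e, neg_one_smul])
        have hw : p₀ - p = b • (y + (a / b) • p₀) := by
          rw [hab]; match_scalars <;> field_simp
        refine ⟨a / b, ?_, ?_⟩
        · simp only [hR, Finset.mem_sdiff, Finset.mem_univ, true_and, Finset.mem_filter]
          intro h0
          rw [hw, QuadraticMap.map_smul, hQw, h0] at hd
          simp at hd
        · rw [hf]; simp only
          rw [← rf_smul hb, ← hw, hmv]
    · rw [Finset.mem_insert] at hp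
      rcases hp with rfl | hp
      · exact mem_circle.2 ⟨P.neg_mem hp₀, by rw [QuadraticMap.map_neg, hQp₀]⟩
      · obtain ⟨s, -, rfl⟩ := Finset.mem_image.1 hp
        exact hval s
  have hcard : (circle Q P c).card + R.card = Fintype.card F + 1 := by
    rw [hC, Finset.card_insert_of_notMem hnot, Finset.card_image_of_injOn hinj,
      Finset.card_sdiff_of_subset (Finset.subset_univ R), Finset.card_univ]
    have := Finset.card_le_univ R
    omega
  have hR2 : R.card ≤ 2 := by
    rcases R.eq_empty_or_nonempty with h0 | ⟨s₀, hs₀⟩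
    · simp [h0]
    refine (Finset.card_le_card (t := {s₀, -c⁻¹ - s₀}) fun s hs => ?_).trans Finset.card_le_two
    simp [hR] at hs hs₀
    rw [Finset.mem_insert, Finset.mem_singleton]
    by_cases he : s = s₀
    · exact Or.inl he
    · right
      have : (s - s₀) * (1 + (s + s₀) * c) = 0 := by linear_combination hs - hs₀
      have h1 := (mul_eq_zero.1 this).resolve_left (sub_ne_zero.2 he)
      field_simp
      linear_combination h1
  refine ⟨fun ha => ?_, fun hna => ?_, by omega⟩
  · have : R = ∅ := Finset.eq_empty_of_forall_notMem fun s hs => by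
      simp [hR] at hs
      have h0 := ha _ (P.add_mem hy (P.smul_mem s hp₀)) (by rw [hQw, hs])
      exact one_ne_zero (coord_eq_zero hli hp00 (a := s) (b := 1) (by rw [← h0]; module)).2
    rw [this] at hcard
    simpa using hcard
  · simp only [Aniso, not_forall] at hna
    obtain ⟨e, heP, hQe, he0⟩ := hna
    obtain ⟨a, b, rfl⟩ := hP.coords hp₀ hy hli hp00 heP
    have hb : b ≠ 0 := fun h => by
      rw [h, zero_smul, add_zero, QuadraticMap.map_smul, hQp₀, smul_eq_mul] at hQe
      simp [hc] at hQe
      exact he0 (by rw [h, hQe, zero_smul, zero_smul, add_zero])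
    have h1 : Q y + a / b + a / b * (a / b) * c = 0 := by
      rw [QuadraticMap.map_add (⇑Q), QuadraticMap.map_smul, QuadraticMap.map_smul,
        polar_smul_left, polar_smul_right, hQp₀, hpy] at hQe
      simp only [smul_eq_mul] at hQe
      field_simp
      linear_combination hQe
    have h2 : Q y + (-c⁻¹ - a / b) + (-c⁻¹ - a / b) * (-c⁻¹ - a / b) * c = 0 := by
      field_simp at h1 ⊢
      linear_combination c * h1
    have hne : a / b ≠ -c⁻¹ - a / b := fun h => by
      apply hdet
      have e : 2 * c * (a / b) = -1 := by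
        field_simp at h
        field_simp
        linear_combination h
      linear_combination (4 * c) * h1 - (2 * c * (a / b) + 1) * e
    have h2R : 2 ≤ R.card := by
      rw [← Finset.card_pair hne]
      refine Finset.card_le_card fun s hs => ?_
      rcases Finset.mem_insert.1 hs with rfl | hs
      · simp [hR, h1]
      · rw [Finset.mem_singleton.1 hs]; simp [hR, h2]
    omega

/-- The involution fixing the pairings with `u` gives the exact number of pairings. -/
lemma IsPlane.two_mul_card_pairs {u : ι → F} (hu : u ∈ P) (hQu : Q u ≠ 0) (c : F) :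
    ∃ f : Finset (ι → F), (∀ p, p ∈ f ↔ p ∈ circle Q P c ∧ ∃ s : F, p = s • u) ∧
      2 * (pairs Q P u c).card = (circle Q P c).card + f.card := by
  classical
  have hu0 : u ≠ 0 := fun h => hQu (by rw [h, QuadraticMap.map_zero])
  obtain ⟨y, hy, huy, hli⟩ := hP.partner hu hu0
  have hdet := hP.det_ne hu hy hli hu0 huy
  set w := u - (2 * Q u) • y with hw
  have hwP : w ∈ P := P.sub_mem hu (P.smul_mem _ hy)
  have hwu : polar Q u w = 0 := by
    rw [hw, polar_sub_right, polar_smul_right, polar_self_mul, huy, smul_eq_mul, mul_one, sub_self]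
  have hQw : Q w = Q u * (4 * Q u * Q y - 1) := by
    rw [hw, CfsgLib.ClassicalForms.map_sub_eq, QuadraticMap.map_smul, polar_smul_right, huy,
      smul_eq_mul, smul_eq_mul]
    ring
  have hQw0 : Q w ≠ 0 := by rw [hQw]; exact mul_ne_zero hQu hdet
  have hperp : ∀ z ∈ P, polar Q u z = 0 → ∃ a : F, z = a • w := by
    intro z hz hz0
    obtain ⟨a, b, rfl⟩ := hP.coords hu hy hli hu0 hz
    rw [polar_add_right, polar_smul_right, polar_smul_right, polar_self_mul, huy] at hz0
    simp only [smul_eq_mul, mul_one] at hz0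
    exact ⟨a, by rw [hw, show b = -(2 * Q u * a) by linear_combination hz0]; module⟩
  have hfix : ∀ p ∈ P, polar Q p w = 0 ↔ ∃ s : F, p = s • u := by
    intro p hp
    constructor
    · intro h
      obtain ⟨a, b, rfl⟩ := hP.coords hu hy hli hu0 hp
      have hyw : polar Q y w = 1 - 4 * Q u * Q y := by
        rw [hw, polar_sub_right, polar_smul_right, polar_self_mul, polar_comm Q y u, huy,
          smul_eq_mul]
        ring
      rw [polar_add_left, polar_smul_left, polar_smul_left, hwu, hyw, smul_zero, zero_add,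
        smul_eq_mul] at h
      have hb : b = 0 := (mul_eq_zero.1 h).resolve_right fun e => hdet (by linear_combination -e)
      exact ⟨a, by rw [hb, zero_smul, add_zero]⟩
    · rintro ⟨s, rfl⟩
      rw [polar_smul_left, hwu, smul_zero]
  refine ⟨(circle Q P c).filter fun p => polar Q p w = 0, fun p => ?_, ?_⟩
  · simp only [Finset.mem_filter]
    exact and_congr_right fun hp => hfix p (mem_circle.1 hp).1
  set g : (ι → F) → F := fun p => polar Q u p
  have hσ : ∀ p ∈ circle Q P c, ap (rf Q w) p ∈ circle Q P c ∧
      g (ap (rf Q w) p) = g p := fun p hp =>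
    ⟨mem_circle.2 ⟨ap_rf_mem hwP (mem_circle.1 hp).1,
      by rw [mem_isometryGroup_iff.mp (rf_mem_isom w), (mem_circle.1 hp).2]⟩,
     by simp only [g]; rw [ap_rf, polar_sub_right, polar_smul_right, hwu, smul_zero, sub_zero]⟩
  have hfib : ∀ b ∈ pairs Q P u c,
      ((circle Q P c).filter fun p => g p = b).card +
        (((circle Q P c).filter fun p => polar Q p w = 0).filter fun p => g p = b).card = 2 := by
    intro b hb
    obtain ⟨p, hp, hQp, hpb⟩ := mem_pairs.1 hb
    have hpc : p ∈ circle Q P c := mem_circle.2 ⟨hp, hQp⟩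
    have hset : ((circle Q P c).filter fun p => g p = b) = {p, ap (rf Q w) p} := by
      refine Finset.ext fun p' => ⟨fun h => ?_, fun h => ?_⟩
      · rw [Finset.mem_filter, mem_circle] at h
        obtain ⟨⟨hp', hQp'⟩, hb'⟩ := h
        obtain ⟨a, ha⟩ := hperp (p' - p) (P.sub_mem hp' hp)
          (by rw [polar_sub_right, show polar Q u p' = b from hb', hpb, sub_self])
        obtain rfl : p' = p + a • w := by rw [← ha, add_sub_cancel]
        have h0 : a * (polar Q p w + a * Q w) = 0 := by
          have := hQp'.trans hQp.symm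
          rw [QuadraticMap.map_add (⇑Q), QuadraticMap.map_smul, polar_smul_right, smul_eq_mul,
            smul_eq_mul] at this
          linear_combination this
        rw [Finset.mem_insert, Finset.mem_singleton]
        rcases mul_eq_zero.1 h0 with h0 | h0
        · exact Or.inl (by rw [h0, zero_smul, add_zero])
        · right
          rw [ap_rf, sub_eq_add_neg, ← neg_smul]
          congr 2
          field_simp
          linear_combination h0
      · rw [Finset.mem_filter]
        rcases Finset.mem_insert.1 h with rfl | h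
        · exact ⟨hpc, hpb⟩
        · rw [Finset.mem_singleton.1 h]
          exact ⟨(hσ p hpc).1, by rw [(hσ p hpc).2]; exact hpb⟩
    by_cases hf : polar Q p w = 0
    · rw [ap_rf_fix hf] at hset
      rw [show ((circle Q P c).filter fun p => polar Q p w = 0).filter (fun p => g p = b) =
        ((circle Q P c).filter fun p => g p = b).filter (fun p => polar Q p w = 0) by
          rw [Finset.filter_comm], hset]
      simp [Finset.filter_singleton, hf]
    · have hf' : polar Q (ap (rf Q w) p) w ≠ 0 := by
        rw [ap_rf, polar_sub_left, polar_smul_left, polar_self_mul, smul_eq_mul]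
        intro h; apply hf
        field_simp at h
        linear_combination -h
      have hne : p ≠ ap (rf Q w) p := fun h => by
        rw [ap_rf] at h
        have : ((Q w)⁻¹ * polar Q p w) • w = 0 := by rwa [eq_comm, sub_eq_self] at h
        rcases smul_eq_zero.1 this with h | h
        · exact mul_ne_zero (inv_ne_zero hQw0) hf h
        · exact hQw0 (by rw [h, QuadraticMap.map_zero])
      rw [show ((circle Q P c).filter fun p => polar Q p w = 0).filter (fun p => g p = b) =
        ((circle Q P c).filter fun p => g p = b).filter (fun p => polar Q p w = 0) by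
          rw [Finset.filter_comm], hset, Finset.card_pair hne]
      simp [Finset.filter_insert, hf, hf']
  have hmap : ∀ p ∈ circle Q P c, g p ∈ pairs Q P u c := fun p hp =>
    mem_pairs.2 ⟨p, (mem_circle.1 hp).1, (mem_circle.1 hp).2, rfl⟩
  rw [Finset.card_eq_sum_card_fiberwise (f := g) (t := pairs Q P u c) hmap,
    Finset.card_eq_sum_card_fiberwise (f := g) (t := pairs Q P u c)
      (fun p hp => hmap p (Finset.mem_of_mem_filter p hp)),
    ← Finset.sum_add_distrib, Finset.sum_congr rfl hfib, Finset.sum_const, smul_eq_mul, mul_comm]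

end CfsgLib.Geometric.Orth.Blocks
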