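import Cfsg.Agent.Lib.Geometric.Orth.Blocks.Main

/-!
Plus type members and members without singular vectors.
-/

namespace CfsgLib.Geometric.Orth.Blocks

open Matrix QuadraticMap CfsgLib.ClassicalForms

variable {ι : Type} [Fintype ι] [DecidableEq ι] {F : Type*} [Field F]
variable {Q : QuadraticForm F (ι → F)}

omit [DecidableEq ι] in
lemma isPlusTypeOn_of_isometric {W W' : Submodule F (ι → F)}
    (h : Cfsg.Geo.AreIsometricFor (⇑Q) W W') (hp : Cfsg.Geo.IsPlusTypeOn (⇑Q) W) :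
    Cfsg.Geo.IsPlusTypeOn (⇑Q) W' := by
  obtain ⟨e, he⟩ := h
  obtain ⟨U, hU, hs, hd⟩ := hp
  refine ⟨((U.comap W.subtype).map e.toLinearMap).map W'.subtype, Submodule.map_subtype_le W' _, ?_, ?_⟩
  · rintro _ ⟨_, ⟨u, hu, rfl⟩, rfl⟩
    exact (he u).trans (hs _ hu)
  · rw [Submodule.finrank_map_subtype_eq, LinearEquiv.finrank_map_eq,
      (Submodule.comapSubtypeEquivOfLe hU).finrank_eq, hd, e.finrank_eq]

omit [DecidableEq ι] in
/-- A plane is of plus type exactly if it has a non-zero singular vector. -/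
lemma isPlusTypeOn_plane {W : Submodule F (ι → F)} (hW : Module.finrank F W = 2) :
    Cfsg.Geo.IsPlusTypeOn (⇑Q) W ↔ ¬ Aniso Q W := by
  refine ⟨fun ⟨U, hU, hs, hd⟩ hA => ?_, fun hA => ?_⟩
  · obtain ⟨u, hu, hu0⟩ := Submodule.exists_mem_ne_zero_of_ne_bot
      (show U ≠ ⊥ from fun e => by rw [e, finrank_bot] at hd; omega)
    exact hu0 (hA u (hU hu) (hs u hu))
  · simp only [Aniso, not_forall] at hA
    obtain ⟨e, he, hQe, he0⟩ := hA
    refine ⟨Submodule.span F {e}, (Submodule.span_singleton_le_iff_mem _ _).2 he, ?_, ?_⟩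
    · intro w hw
      obtain ⟨a, rfl⟩ := Submodule.mem_span_singleton.1 hw
      rw [QuadraticMap.map_smul, hQe, smul_zero]
    · rw [finrank_span_singleton he0, hW]

end CfsgLib.Geometric.Orth.Blocks
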