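import Cfsg.Agent.Lib.Geometric.Orth.Blocks.SplitGap
import Cfsg.Agent.Lib.Geometric.Orth.DecompStabMax

/-!
The stabiliser in `omegaGL` of an orthogonal decomposition into planes with singular vectors is
maximal, for at least seven field elements.
-/

set_option autoImplicit false
set_option linter.unusedSectionVars false

namespace CfsgLib.Geometric.Orth.Blocks

open Matrix QuadraticMap CfsgLib.ClassicalForms
open CfsgLib.Geometric.Orth.Frame (rf_mul_self rf_mul_self_left rf_inv conj_rf rf_neg)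

variable {ι : Type} [Fintype ι] [DecidableEq ι] {F : Type*} [Field F] [Fintype F]
variable {Q : QuadraticForm F (ι → F)} {t : ℕ} {D : Fin t → Submodule F (ι → F)}
variable {M : Subgroup (GL ι F)} (h : Over Q 2 D M)

local notation3 "cp" => Decomp.comp (Over.dec h).decomp.decomp

include h

/-- A vector `u + y` with `u` singular and `y` of value `c` from one meeting two members. -/
lemma exists_mixed (hq : 7 ≤ Fintype.card F) (hsplit : ∀ i, ¬ Aniso Q (D i)) (ht : 3 ≤ t) {c : F}
    (hT : Two Q M D c) : ∃ i j, i ≠ j ∧ ∃ u ∈ D i, ∃ y ∈ D j,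
      u ≠ 0 ∧ Q u = 0 ∧ Q y = c ∧ Cls Q M D (u + y) := by
  classical
  obtain ⟨i, j, hij, a, ha, b, hb, ha0, hb0, hsum, hcl⟩ := hT
  have hd := h.dec.decomp.decomp
  have hab : polar Q a b = 0 := orth_apply_blocks h.dec hij ha hb
  have hc : c ≠ 0 := by
    rw [← hsum]
    simpa [QuadraticMap.map_add (⇑Q), hab] using hcl.1
  by_cases hQa : Q a = 0
  · exact ⟨i, j, hij, a, ha, b, hb, ha0, hQa, by rw [← hsum, hQa, zero_add], hcl⟩
  by_cases hQb : Q b = 0
  · exact ⟨j, i, Ne.symm hij, b, hb, a, ha, hb0, hQb, by rw [← hsum, hQb, add_zero],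
      by rwa [add_comm]⟩
  obtain ⟨s, β, hs, hβ, hsβ⟩ : ∃ s β : F, s ≠ 0 ∧ β ≠ 0 ∧ c * s * s + Q b * β * β = c := by
    by_cases h2 : (2 : F) = 0
    · have : CharP F 2 := CharTwo.of_one_ne_zero_of_two_eq_zero one_ne_zero h2
      obtain ⟨r, hr⟩ := isSquare_of_charTwo' (Q b / c)
      have hr' : r * r * c = Q b := by rw [← hr, div_mul_cancel₀ _ hc]
      refine ⟨1 + r, 1, fun e => hQa ?_, one_ne_zero, by linear_combination (c * r + c * r * r) * h2 - hr'⟩
      linear_combination hsum + hr' + (c - c * r) * e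
    · exact exists_both hc hQb h2 hq
  obtain ⟨m, -, hm⟩ := Finset.exists_mem_notMem_of_card_lt_card (s := ({i, j} : Finset (Fin t)))
    (t := Finset.univ) (by
      rw [Finset.card_univ, Fintype.card_fin]; exact lt_of_le_of_lt Finset.card_le_two (by omega))
  simp only [Finset.mem_insert, Finset.mem_singleton, not_or] at hm
  have hcomp : ∀ {p q : ι → F}, p ∈ D i → q ∈ D j → ∀ l,
      cp l (p + q) = (if l = i then p else 0) + (if l = j then q else 0) := fun hp hq l => by
    rw [map_add, Decomp.comp_of_mem hd hp, Decomp.comp_of_mem hd hq]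
  have hflex : ∀ {p q : ι → F}, p ∈ D i → q ∈ D j → Flex h {m} (p + q) := fun hp hq =>
    flex_of_zero h (by rw [hcomp hp hq, if_neg hm.1, if_neg hm.2, add_zero])
  have hci : cp i (a + b) = a := by rw [hcomp ha hb, if_pos rfl, if_neg hij, add_zero]
  have hb1 := Flex.base h (hflex ha hb) hcl (i := i) (by simp [Ne.symm hm.1]) (plane_member h i)
    le_rfl (by rw [hci]; exact ha) (by rwa [hci]) (by rw [hci, add_sub_cancel_left]; exact hQb)
  rw [hci, add_sub_cancel_left] at hb1
  have hval : Q (a + b) = c := by rw [QuadraticMap.map_add (⇑Q), hab, add_zero, hsum]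
  rw [hval] at hb1
  obtain ⟨p, hp, hQp⟩ := h.value i (c * s * s)
  have hp0 : p ≠ 0 := fun e => mul_ne_zero (mul_ne_zero hc hs) hs (by
    rw [← hQp, e, QuadraticMap.map_zero])
  have hl := hb1.all h (fun _ _ => hq) hp hp0 (β := β) (by rw [hQp]; linear_combination hsβ)
  have hq' : β • b ∈ D j := (D j).smul_mem β hb
  have hval2 : Q (p + β • b) = c := by
    rw [QuadraticMap.map_add (⇑Q), QuadraticMap.map_smul, orth_apply_blocks h.dec hij hp hq',
      hQp, smul_eq_mul]
    linear_combination hsβ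
  have hcj : cp j (p + β • b) = β • b := by
    rw [hcomp hp hq', if_neg (Ne.symm hij), if_pos rfl, zero_add]
  have hb2 := Flex.base h (hflex hp hq') hl (i := j) (by simp [Ne.symm hm.2]) (plane_member h j)
    le_rfl (by rw [hcj]; exact hq') (by rw [hcj]; exact smul_ne_zero hβ hb0)
    (by rw [hcj, add_sub_cancel_right, hQp]; exact mul_ne_zero (mul_ne_zero hc hs) hs)
  rw [hcj, add_sub_cancel_right, hval2] at hb2
  obtain ⟨e, he, f, hf, hef⟩ := exists_member_pair h hsplit j
  refine ⟨j, i, Ne.symm hij, e, he, s⁻¹ • p, (D i).smul_mem _ hp, hef.fst_ne, hef.qe, ?_,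
    hb2.all h (fun _ _ => hq) he hef.fst_ne ?_⟩
  · rw [QuadraticMap.map_smul, hQp, smul_eq_mul]; field_simp
  · rw [hef.qe, hQp]; field_simp; ring

/-- Equal members may be exchanged fixing another one. -/
lemma exists_swap_split (hsplit : ∀ i, ¬ Aniso Q (D i)) (ht : 4 ≤ t) {i j m : Fin t} (hij : i ≠ j)
    (him : i ≠ m) (hjm : j ≠ m) : ∃ g ∈ M, (∀ x ∈ D i, ap g x = x) ∧
      ∀ y ∈ D m, ∃ z ∈ D j, ap g z = y := by
  classical
  obtain ⟨l, -, hl⟩ := Finset.exists_mem_notMem_of_card_lt_card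
    (s := ({i, j, m} : Finset (Fin t))) (t := Finset.univ) (by
      rw [Finset.card_univ, Fintype.card_fin]; exact lt_of_le_of_lt Finset.card_le_three (by omega))
  simp only [Finset.mem_insert, Finset.mem_singleton, not_or] at hl
  obtain ⟨a, ha, b, hb, hab⟩ := exists_member_pair h hsplit j
  obtain ⟨φ, hφ⟩ := h.dec.isometric j m
  set a' : ι → F := (φ ⟨a, ha⟩ : ι → F) with ha'def
  set b' : ι → F := (φ ⟨b, hb⟩ : ι → F) with hb'def
  have ha' : a' ∈ D m := (φ ⟨a, ha⟩).2
  have hb' : b' ∈ D m := (φ ⟨b, hb⟩).2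
  have hab' : HPair Q a' b' := by
    refine ⟨by rw [ha'def, hφ]; exact hab.qe, by rw [hb'def, hφ]; exact hab.qf, ?_⟩
    have e1 : a' + b' = (φ ⟨a + b, (D j).add_mem ha hb⟩ : ι → F) := by
      rw [ha'def, hb'def, ← Submodule.coe_add, ← map_add]; rfl
    rw [← hab.ef]
    unfold polar
    rw [e1, hφ, ha'def, hφ, hb'def, hφ]
  have ho := fun {r r' : Fin t} (hrr : r ≠ r') {x y : ι → F} (hx : x ∈ D r) (hy : y ∈ D r') =>
    orth_apply_blocks h.dec hrr hx hy
  set u := a - a' with hu
  set w := b - b' with hw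
  have hQu : Q u = 0 := by
    rw [hu, CfsgLib.ClassicalForms.map_sub_eq, hab.qe, hab'.qe, ho hjm ha ha']; ring
  have hQw : Q w = 0 := by
    rw [hw, CfsgLib.ClassicalForms.map_sub_eq, hab.qf, hab'.qf, ho hjm hb hb']; ring
  have huw : polar Q u w = 2 := by
    rw [hu, hw, polar_sub_left, polar_sub_right, polar_sub_right, hab.ef, hab'.ef, ho hjm ha hb',
      ho (Ne.symm hjm) ha' hb]
    ring
  -- the exchange with a correction in the member `l`
  obtain ⟨g, hgΩ, hgl, hgo⟩ : ∃ g ∈ Cfsg.Geo.omegaGL (⇑Q), (∀ x ∈ D l, ap g x ∈ D l) ∧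
      ∀ r, r ≠ l → ∀ x ∈ D r, ap g x = x - polar Q x w • u - polar Q x u • w := by
    by_cases h2 : (2 : F) = 0
    · have huw' : polar Q u w = 0 := huw.trans h2
      have hneg : ∀ z : ι → F, -z = z := fun z => by
        rw [neg_eq_iff_add_eq_zero, ← two_smul F, h2, zero_smul]
      refine ⟨sg Q u w hQu huw', sg_mem h.nondeg h.card _ _, fun x hx => ?_, fun r _ x _ => ?_⟩
      · rw [ap_sg_fix hQu huw']
        · exact hx
        · rw [hu, polar_sub_right, ho hl.2.1 hx ha, ho hl.2.2 hx ha', sub_zero]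
        · rw [hw, polar_sub_right, ho hl.2.1 hx hb, ho hl.2.2 hx hb', sub_zero]
      · rw [ap_sg, hQw, zero_mul, add_zero, sub_right_comm, sub_eq_add_neg _ (polar Q x u • w),
          hneg]
    · obtain ⟨z, hz, hQz⟩ := h.value l (2 : F)
      obtain ⟨z', hz', hQz'⟩ := h.value l (-2 : F)
      have hv1 : Q (u + w) = 2 := by
        rw [QuadraticMap.map_add (⇑Q), hQu, hQw, huw]; ring
      have hv2 : Q (u - w) = -2 := by
        rw [CfsgLib.ClassicalForms.map_sub_eq, hQu, hQw, huw]; ring
      have hzv : ∀ {z : ι → F}, z ∈ D l → polar Q z u = 0 ∧ polar Q z w = 0 := fun hz =>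
        ⟨by rw [hu, polar_sub_right, ho hl.2.1 hz ha, ho hl.2.2 hz ha', sub_zero],
         by rw [hw, polar_sub_right, ho hl.2.1 hz hb, ho hl.2.2 hz hb', sub_zero]⟩
      have h12 : polar Q (u + w) (u - w) = 0 := by
        rw [polar_sub_right, polar_add_left, polar_add_left, polar_self_mul, polar_self_mul, hQu,
          hQw, polar_comm Q w u]
        ring
      have hcomm : rf Q (u - w) * rf Q z = rf Q z * rf Q (u - w) := by
        have e1 := conj_rf (rf_mem_isom (Q := Q) (u - w)) z
        rw [ap_rf_fix (by rw [polar_sub_right, (hzv hz).1, (hzv hz).2, sub_zero]), rf_inv] at e1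
        calc rf Q (u - w) * rf Q z = rf Q (u - w) * rf Q z * (rf Q (u - w) * rf Q (u - w)) := by
              rw [rf_mul_self, mul_one]
          _ = rf Q z * rf Q (u - w) := by rw [← mul_assoc, e1]
      refine ⟨(rf Q (u + w) * rf Q (u - w)) * (rf Q z * rf Q z'), ?_, fun x hx => ?_,
        fun r hr x hx => ?_⟩
      · have := mul_mem (rf_mul_rf_mem h.nondeg h.card (v := u + w) (w := z)
          (by rw [hv1]; exact h2) (hv1.trans hQz.symm)) (rf_mul_rf_mem h.nondeg h.card
          (v := u - w) (w := z') (by rw [hv2]; exact neg_ne_zero.2 h2) (hv2.trans hQz'.symm))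
        convert this using 1
        rw [mul_assoc, ← mul_assoc (rf Q (u - w)), hcomm]
        group
      · have hy : ap (rf Q z * rf Q z') x ∈ D l := by
          rw [ap_mul]; exact ap_rf_mem hz (ap_rf_mem hz' hx)
        rw [ap_mul, ap_mul (rf Q (u + w))]
        rw [ap_rf_fix (v := u - w) (by rw [polar_sub_right, (hzv hy).1, (hzv hy).2, sub_zero]),
          ap_rf_fix (by rw [polar_add_right, (hzv hy).1, (hzv hy).2, add_zero])]
        exact hy
      · have hfx : ap (rf Q z * rf Q z') x = x := by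
          rw [ap_mul, ap_rf_fix (ho hr hx hz'), ap_rf_fix (ho hr hx hz)]
        rw [ap_mul, hfx, ap_mul, ap_rf, ap_rf, hv1, hv2, polar_sub_left, polar_smul_left,
          polar_comm Q (u - w) (u + w), h12, polar_add_right, polar_sub_right]
        simp only [smul_eq_mul, mul_zero, sub_zero]
        match_scalars <;> field_simp <;> ring
  have hjmap : ∀ x ∈ D j, ap g x = polar Q x b • a' + polar Q x a • b' := fun x hx => by
    rw [hgo j (Ne.symm hl.2.1) x hx, hw, hu, polar_sub_right, polar_sub_right,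
      ho hjm hx hb', ho hjm hx ha', sub_zero, sub_zero]
    conv_lhs => arg 1; arg 1; rw [pair_rep h ha hb hab hx]
    module
  have hmmap : ∀ x ∈ D m, ap g x = polar Q x b' • a + polar Q x a' • b := fun x hx => by
    rw [hgo m (Ne.symm hl.2.2) x hx, hw, hu, polar_sub_right, polar_sub_right,
      ho (Ne.symm hjm) hx hb, ho (Ne.symm hjm) hx ha, zero_sub, zero_sub]
    conv_lhs => arg 1; arg 1; rw [pair_rep h ha' hb' hab' hx]
    module
  have hfix : ∀ r, r ≠ l → r ≠ j → r ≠ m → ∀ x ∈ D r, ap g x = x := fun r hrl hrj hrm x hx => by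
    rw [hgo r hrl x hx, hw, hu, polar_sub_right, polar_sub_right, ho hrj hx hb, ho hrm hx hb',
      ho hrj hx ha, ho hrm hx ha']
    simp
  refine ⟨g, h.stab ⟨mem_decompStab h.dec.decomp.decomp (π := Equiv.swap j m) fun r x hx => ?_, hgΩ⟩,
    hfix i (Ne.symm hl.1) hij him, fun y hy => ?_⟩
  · by_cases hrj : r = j
    · subst hrj
      rw [Equiv.swap_apply_left, hjmap x hx]
      exact (D m).add_mem ((D m).smul_mem _ ha') ((D m).smul_mem _ hb')
    by_cases hrm : r = m
    · subst hrm
      rw [Equiv.swap_apply_right, hmmap x hx]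
      exact (D j).add_mem ((D j).smul_mem _ ha) ((D j).smul_mem _ hb)
    rw [Equiv.swap_apply_of_ne_of_ne hrj hrm]
    by_cases hrl : r = l
    · subst hrl; exact hgl x hx
    · rw [hfix r hrl hrj hrm x hx]; exact hx
  · refine ⟨polar Q y b' • a + polar Q y a' • b,
      (D j).add_mem ((D j).smul_mem _ ha) ((D j).smul_mem _ hb), ?_⟩
    rw [hjmap _ ((D j).add_mem ((D j).smul_mem _ ha) ((D j).smul_mem _ hb)), hab.polar_right,
      hab.polar_left]
    exact (pair_rep h ha' hb' hab' hy).symm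

/-- A linked vector meeting exactly two members makes the group contain `omegaGL`. -/
theorem omega_le_of_two (hq : 7 ≤ Fintype.card F) (hsplit : ∀ i, ¬ Aniso Q (D i)) (ht : 4 ≤ t)
    {c : F} (hT : Two Q M D c) : Cfsg.Geo.omegaGL (⇑Q) ≤ M := by
  classical
  obtain ⟨i, j, hij, u₀, hu₀, y₀, hy₀, hu₀0, hQu₀, hQy₀, hl₀⟩ :=
    exists_mixed h hq hsplit (by omega) hT
  have hd := h.dec.decomp.decomp
  have hc : c ≠ 0 := by
    have := hl₀.1
    rwa [QuadraticMap.map_add (⇑Q), orth_apply_blocks h.dec hij hu₀ hy₀, hQu₀, hQy₀, zero_add,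
      add_zero] at this
  obtain ⟨m₀, -, hm₀⟩ := Finset.exists_mem_notMem_of_card_lt_card (s := ({i, j} : Finset (Fin t)))
    (t := Finset.univ) (by
      rw [Finset.card_univ, Fintype.card_fin]; exact lt_of_le_of_lt Finset.card_le_two (by omega))
  simp only [Finset.mem_insert, Finset.mem_singleton, not_or] at hm₀
  -- all such vectors are linked
  have hlink : ∀ u ∈ D i, u ≠ 0 → Q u = 0 → ∀ y ∈ D j, Q y = c → Cls Q M D (u + y) := by
    intro u hu hu0 hQu y hy hQy
    have hcomp : ∀ {p q : ι → F}, p ∈ D i → q ∈ D j → ∀ l,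
        cp l (p + q) = (if l = i then p else 0) + (if l = j then q else 0) := fun hp hq l => by
      rw [map_add, Decomp.comp_of_mem hd hp, Decomp.comp_of_mem hd hq]
    have hflex : Flex h {m₀} (u₀ + y₀) :=
      flex_of_zero h (by rw [hcomp hu₀ hy₀, if_neg hm₀.1, if_neg hm₀.2, add_zero])
    have hci : cp i (u₀ + y₀) = u₀ := by
      rw [hcomp hu₀ hy₀, if_pos rfl, if_neg hij, add_zero]
    have h1 := Flex.turn h hflex hl₀ rfl (β := 1) (fun l _ => (one_smul F _).symm) (i := i)
      (by simp [Ne.symm hm₀.1]) (plane_member h i) le_rfl (by rw [hci]; exact hu₀)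
      (by rwa [hci]) hu hu0 (by rw [hci, hQu₀, hQu])
    rw [hci, add_sub_cancel_left, add_comm] at h1
    have hcj : cp j (u + y₀) = y₀ := by
      rw [hcomp hu hy₀, if_neg (Ne.symm hij), if_pos rfl, zero_add]
    have hval : Q (u + y₀) = Q (u₀ + y₀) := by
      rw [QuadraticMap.map_add (⇑Q), QuadraticMap.map_add (⇑Q), orth_apply_blocks h.dec hij hu₀ hy₀,
        orth_apply_blocks h.dec hij hu hy₀, hQu, hQu₀]
    have h2 := Flex.turn h hflex h1 hval (β := 1) (fun l hl => by
      rw [Finset.mem_singleton.1 hl, one_smul, hcomp hu hy₀, hcomp hu₀ hy₀, if_neg hm₀.1,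
        if_neg hm₀.2, if_neg hm₀.1]) (i := j) (by simp [Ne.symm hm₀.2]) (plane_member h j) le_rfl
      (by rw [hcj]; exact hy₀) (by rw [hcj]; exact fun e => hc (by rw [← hQy₀, e, QuadraticMap.map_zero]))
      hy (fun e => hc (by rw [← hQy, e, QuadraticMap.map_zero])) (by rw [hcj, hQy, hQy₀])
    rwa [hcj, add_sub_cancel_right] at h2
  -- hence Siegel elements
  have hinn : ∀ u ∈ D i, u ≠ 0 → Q u = 0 → ∀ y ∈ D j, Q y = c → Inn Q M u y := by
    intro u hu hu0 hQu y hy hQy
    have huy : polar Q u y = 0 := orth_apply_blocks h.dec hij hu hy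
    refine ⟨hQu, huy, fun α => ?_⟩
    have hQw : Q (y + (α * c) • u) = c := by
      rw [QuadraticMap.map_add (⇑Q), QuadraticMap.map_smul, polar_smul_right, polar_comm Q y u,
        huy, hQu, hQy, smul_zero, smul_zero, add_zero, add_zero]
    have hw : Cls Q M D (y + (α * c) • u) := by
      by_cases hα : α * c = 0
      · rw [hα, zero_smul, add_zero]; exact Cls.of_mem hy (hQy ▸ hc)
      · rw [add_comm]
        exact hlink _ ((D i).smul_mem _ hu) (smul_ne_zero hα hu0)
          (by rw [QuadraticMap.map_smul, hQu, smul_zero]) y hy hQy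
    have := Cls.mul h (Cls.of_mem hy (hQy ▸ hc)) hw (hQy.trans hQw.symm)
    convert this using 1
    refine gl_ext fun x => ?_
    rw [ap_sg, ap_mul, ap_rf, ap_rf, hQw]
    simp only [polar_sub_left, polar_smul_left, polar_add_left, polar_add_right, polar_smul_right,
      polar_self_mul, QuadraticMap.map_smul, hQy, huy, smul_eq_mul, mul_zero, add_zero]
    match_scalars <;> field_simp <;> ring
  have hfull : ∀ u ∈ D i, u ≠ 0 → Q u = 0 → Full Q M u := by
    intro u hu hu0 hQu
    obtain ⟨a, ha, b, hb, hab⟩ := exists_member_pair h hsplit j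
    obtain ⟨s, hs, hs1, -⟩ := exists_scale h hq
    have h1 := hinn u hu hu0 hQu ((1 : F) • a + c • b)
      ((D j).add_mem ((D j).smul_mem _ ha) ((D j).smul_mem _ hb)) (by rw [hab.value, one_mul])
    have hs' := hinn u hu hu0 hQu (s • a + (c / s) • b)
      ((D j).add_mem ((D j).smul_mem _ ha) ((D j).smul_mem _ hb))
      (by rw [hab.value, mul_div_cancel₀ _ hs])
    have hd0 : s * s - 1 ≠ 0 := sub_ne_zero.2 hs1
    have hIa : Inn Q M u a := by
      have := ((hs'.smul s).sub h1).smul (s * s - 1)⁻¹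
      rwa [show s • (s • a + (c / s) • b) - ((1 : F) • a + c • b) = (s * s - 1) • a by
        match_scalars <;> field_simp <;> ring, inv_smul_smul₀ hd0] at this
    have hIb : Inn Q M u b := by
      have := (h1.sub (hIa.smul 1)).smul c⁻¹
      rwa [show (1 : F) • a + c • b - (1 : F) • a = c • b by abel, inv_smul_smul₀ hc] at this
    have hIj : ∀ y ∈ D j, Inn Q M u y := fun y hy => by
      rw [pair_rep h ha hb hab hy]; exact (hIa.smul _).add (hIb.smul _)
    intro hQu' v hv
    refine Inn.mem ?_ hQu' hv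
    rw [← Decomp.sum_comp hd v]
    have hall : ∀ l, Inn Q M u (cp l v) := by
      intro l
      by_cases hli : l = i
      · subst hli
        obtain ⟨f, hf, huf⟩ := exists_partner_pair h hu hu0 hQu
        have hrep := pair_rep h hu hf huf (Decomp.comp_mem hd l v)
        rw [show polar Q (cp l v) u = 0 by rw [← polar_comp h.dec v hu, polar_comm, hv], zero_smul,
          add_zero] at hrep
        rw [hrep]
        exact Inn.centre hQu' _
      by_cases hlj : l = j
      · exact hIj _ (hlj ▸ Decomp.comp_mem hd l v)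
      obtain ⟨g, hg, hgi, hgm⟩ := exists_swap_split h hsplit ht hij (Ne.symm hli) (Ne.symm hlj)
      obtain ⟨z, hz, hgz⟩ := hgm _ (Decomp.comp_mem hd l v)
      have := (hIj z hz).conj h.isom hg
      rwa [hgi u hu, hgz] at this
    have hsum : ∀ s : Finset (Fin t), Inn Q M u (∑ l ∈ s, cp l v) := fun s => by
      induction s using Finset.induction_on with
      | empty => simpa using Inn.zero hQu'
      | insert r s hr ih => rw [Finset.sum_insert hr]; exact (hall r).add ih
    exact hsum Finset.univ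
  obtain ⟨e, he, f, hf, hef⟩ := exists_member_pair h hsplit i
  have hf0 : f ≠ 0 := fun e0 => one_ne_zero (α := F) (by rw [← hef.ef, e0]; simp [polar])
  exact Full.le_of_pair h.nondeg h.card h.isom (hfull e he hef.fst_ne hef.qe) (hfull f hf hf0 hef.qf)
    hef.qe hef.qf (by rw [hef.ef]; exact one_ne_zero)

omit h

/-- The stabiliser in `omegaGL` of an orthogonal decomposition into at least four planes with
singular vectors is maximal if `7 ≤ q`, and the number of planes is odd,
or at least six, or `-1` a square. -/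
theorem splitPlanes_isMaximalIn {ι : Type} [Fintype ι] [DecidableEq ι] {F : Type*} [Field F]
    [Fintype F] {Q : QuadraticForm F (ι → F)} {t : ℕ} {D : Fin t → Submodule F (ι → F)}
    (hQ : Nondeg Q) (hq : 7 ≤ Fintype.card F) (ht : 4 ≤ t)
    (hpar : Odd t ∨ IsSquare (-1 : F) ∨ 6 ≤ t)
    (hD : Cfsg.Geo.IsOrthogonalMDecomposition (⇑Q) 2 D)
    (hsplit : ∀ i, ∃ e ∈ D i, e ≠ 0 ∧ Q e = 0) :
    Cfsg.Geo.IsMaximalIn (Cfsg.Geo.omegaGL (⇑Q))
      (Cfsg.Geo.decompositionStabilizer D ⊓ Cfsg.Geo.omegaGL (⇑Q)) := by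
  classical
  have hn : 5 ≤ Fintype.card ι := by
    have := decomp_card_eq hD.decomp.decomp
    omega
  set H := Cfsg.Geo.decompositionStabilizer D ⊓ Cfsg.Geo.omegaGL (⇑Q) with hH
  have h0 : Over Q 2 D H := ⟨hQ, hn, hD, le_rfl, le_rfl, inf_le_right.trans omegaGL_le⟩
  have hsp : ∀ i, ¬ Aniso Q (D i) := fun i hA => by
    obtain ⟨e, he, he0, hQe⟩ := hsplit i
    exact he0 (hA e he hQe)
  refine ⟨lt_of_le_of_ne inf_le_right fun he => ?_, fun M hHM hMS => ?_⟩
  · set a : Fin t := ⟨0, by omega⟩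
    set b : Fin t := ⟨1, by omega⟩
    have hab : a ≠ b := by simp [a, b, Fin.ext_iff]
    obtain ⟨e, he', f, hf, hef⟩ := exists_member_pair h0 hsp a
    obtain ⟨y, hy, hy0⟩ := Decomp.exists_ne_zero_mem hD.decomp.decomp b
    have hey := orth_apply_blocks hD hab he' hy
    have hm : sg Q e y hef.qe hey ∈ H := by
      rw [he]; exact sg_mem hQ hn hef.qe hey
    obtain ⟨π, hπ⟩ := hm.1
    have h1 : ap (sg Q e y hef.qe hey) f ∈ D (π a) := by rw [← hπ a]; exact ⟨f, hf, rfl⟩
    rw [ap_sg, hef.fe, one_smul, orth_apply_blocks hD hab hf hy, zero_add, mul_one] at h1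
    have ha := Decomp.comp_of_mem hD.decomp.decomp (i := a) h1
    have hb := Decomp.comp_of_mem hD.decomp.decomp (i := b) h1
    rw [map_sub, map_add, map_smul, Decomp.comp_of_mem _ hf, Decomp.comp_of_mem _ hy,
      Decomp.comp_of_mem _ he'] at ha hb
    simp only [if_pos, if_neg hab, add_zero] at ha
    simp only [if_pos, if_neg hab.symm, zero_add, smul_zero, sub_zero] at hb
    by_cases hπb : b = π a
    · rw [if_neg fun h => hab (h.trans hπb.symm), sub_eq_zero] at ha
      have := congrArg (fun z => polar Q z e) ha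
      simp [polar_smul_left, hef.fe, hef.ee] at this
    · rw [if_neg hπb] at hb
      exact hy0 hb
  by_cases hM : M ≤ Cfsg.Geo.decompositionStabilizer D
  · exact Or.inl (le_antisymm (le_inf hM hMS) hHM)
  have hO : Over Q 2 D M := ⟨hQ, hn, hD, le_rfl, hHM, hMS.trans omegaGL_le⟩
  obtain ⟨g, hgM, hg⟩ := SetLike.not_le_iff_exists.mp hM
  obtain ⟨c, hc⟩ := exists_two hO hq hsp ht hpar hgM hg
  exact Or.inr (le_antisymm hMS (omega_le_of_two hO hq hsp ht hc))

end CfsgLib.Geometric.Orth.Blocks
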