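import Cfsg.Agent.Lib.Geometric.Orth.Blocks.SplitLinked

/-!
For members with singular vectors, a linked vector outside the members yields one meeting exactly
two members: a shift by a singular vector gives a zero component, or negations free all members.
-/

set_option autoImplicit false
set_option linter.unusedSectionVars false

namespace CfsgLib.Geometric.Orth.Blocks

open Matrix QuadraticMap CfsgLib.ClassicalForms
open CfsgLib.Geometric.Orth.Frame (rf_mul_self rf_mul_self_left rf_inv conj_rf rf_neg)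

variable {ι : Type} [Fintype ι] [DecidableEq ι] {F : Type*} [Field F] [Fintype F]
variable {Q : QuadraticForm F (ι → F)} {t : ℕ} {D : Fin t → Submodule F (ι → F)}
variable {M : Subgroup (GL ι F)} (h : Over Q 2 D M)

local notation3 "cp" => Decomp.comp (Over.dec h).decomp.decomp

include h

/-- Two reflections along an orthogonal basis of a member negate its component. -/
lemma rf_rf_neg (h2 : (2 : F) ≠ 0) {i : Fin t} {p p' : ι → F} (hp : p ∈ D i) (hp' : p' ∈ D i)
    (hQp : Q p ≠ 0) (hQp' : Q p' ≠ 0) (hpp : polar Q p p' = 0) (z : ι → F) :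
    ap (rf Q p) (ap (rf Q p') z) = z - (2 : F) • cp i z := by
  have hp0 : p ≠ 0 := fun e => hQp (by rw [e, QuadraticMap.map_zero])
  have hli : ∀ s : F, p' ≠ s • p := fun s hs => by
    rw [hs, polar_smul_right, polar_self_mul, smul_eq_mul] at hpp
    rcases mul_eq_zero.1 hpp with e | e
    · exact hQp' (by rw [hs, e, zero_smul, QuadraticMap.map_zero])
    · exact mul_ne_zero h2 hQp e
  set d := (2 : F) • cp i z - ((Q p')⁻¹ * polar Q z p') • p' - ((Q p)⁻¹ * polar Q z p) • p
    with hd
  have hd0 : d = 0 := by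
    refine (plane_member h i).eq_zero hp hp' hli hp0 ((D i).sub_mem ((D i).sub_mem
      ((D i).smul_mem _ (Decomp.comp_mem _ i z)) ((D i).smul_mem _ hp')) ((D i).smul_mem _ hp)) ?_ ?_
    · rw [hd, polar_sub_left, polar_sub_left, polar_smul_left, polar_smul_left, polar_smul_left,
        ← polar_comp h.dec z hp, polar_comm Q p' p, hpp, polar_self_mul]
      simp only [smul_eq_mul, mul_zero, sub_zero]
      field_simp
      ring
    · rw [hd, polar_sub_left, polar_sub_left, polar_smul_left, polar_smul_left, polar_smul_left,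
        ← polar_comp h.dec z hp', hpp, polar_self_mul]
      simp only [smul_eq_mul, mul_zero, sub_zero]
      field_simp
      ring
  rw [hd] at hd0
  rw [ap_rf, ap_rf, polar_sub_left, polar_smul_left, polar_comm Q p' p, hpp, smul_zero, sub_zero]
  linear_combination (norm := module) hd0

/-- A vector of a member orthogonal to a given one of non-zero value, of the opposite value. -/
lemma exists_perp_opposite (hsplit : ∀ i, ¬ Aniso Q (D i)) {i : Fin t} {b : ι → F} (hb : b ∈ D i) :
    ∃ b' ∈ D i, Q b' = -Q b ∧ polar Q b b' = 0 := by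
  obtain ⟨e, he, f, hf, hef⟩ := exists_member_pair h hsplit i
  have hr := pair_rep h he hf hef hb
  generalize polar Q b f = p at hr
  generalize polar Q b e = q at hr
  refine ⟨p • e + (-q) • f, (D i).add_mem ((D i).smul_mem _ he) ((D i).smul_mem _ hf), ?_, ?_⟩
  · rw [hr, hef.value, hef.value]; ring
  · rw [hr, polar_add_right, polar_smul_right, polar_smul_right, hef.polar_left, hef.polar_right,
      smul_eq_mul, smul_eq_mul]
    ring

/-- Negations in an even number of members preserve linkage. -/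
lemma neg_members (h2 : (2 : F) ≠ 0) (hsplit : ∀ i, ¬ Aniso Q (D i)) (n : ℕ) :
    ∀ (s : Finset (Fin t)), s.card = 2 * n → ∀ y, Cls Q M D y →
      Cls Q M D (y - (2 : F) • ∑ l ∈ s, cp l y) := by
  classical
  induction n with
  | zero =>
    intro s hs y hy
    rw [Finset.card_eq_zero.1 (by omega : s.card = 0)]
    simpa using hy
  | succ n ih =>
    intro s hs y hy
    obtain ⟨a, ha⟩ := Finset.card_pos.1 (by omega : 0 < s.card)
    have hc1 : (s.erase a).card = 2 * n + 1 := by rw [Finset.card_erase_of_mem ha]; omega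
    obtain ⟨b, hb⟩ := Finset.card_pos.1 (by omega : 0 < (s.erase a).card)
    have hc2 : ((s.erase a).erase b).card = 2 * n := by rw [Finset.card_erase_of_mem hb]; omega
    have hy' := ih _ hc2 y hy
    set y' := y - (2 : F) • ∑ l ∈ (s.erase a).erase b, cp l y with hy'def
    have hba : b ≠ a := Finset.ne_of_mem_erase hb
    have hca : cp a y' = cp a y := by
      rw [hy'def, map_sub, map_smul, map_sum, Finset.sum_eq_zero, smul_zero, sub_zero]
      intro l hl
      rw [Decomp.comp_of_mem _ (Decomp.comp_mem _ l y), if_neg]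
      intro e; subst e
      exact Finset.notMem_erase _ s (Finset.mem_of_mem_erase hl)
    have hcb : cp b y' = cp b y := by
      rw [hy'def, map_sub, map_smul, map_sum, Finset.sum_eq_zero, smul_zero, sub_zero]
      intro l hl
      rw [Decomp.comp_of_mem _ (Decomp.comp_mem _ l y), if_neg]
      exact fun e => Finset.notMem_erase b (s.erase a) (e ▸ hl)
    obtain ⟨p, hp, hQp⟩ := h.value a (Q y')
    obtain ⟨p', hp', hQp', hpp⟩ := exists_perp_opposite h hsplit hp
    obtain ⟨r, hr, hQr⟩ := h.value b (Q y')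
    obtain ⟨r', hr', hQr', hrr⟩ := exists_perp_opposite h hsplit hr
    have hp0 : Q p ≠ 0 := by rw [hQp]; exact hy'.1
    have hp'0 : Q p' ≠ 0 := by rw [hQp']; exact neg_ne_zero.2 hp0
    have hr0 : Q r ≠ 0 := by rw [hQr]; exact hy'.1
    have hr'0 : Q r' ≠ 0 := by rw [hQr']; exact neg_ne_zero.2 hr0
    have h1 := Cls.pair h hy' hp' hr' hp'0 (by rw [hQp', hQr', hQp, hQr])
    have hiso : ∀ (v z : ι → F), Q (ap (rf Q v) z) = Q z := fun v z =>
      mem_isometryGroup_iff.mp (rf_mem_isom v) z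
    have h2' := Cls.reflect h h1 (Cls.of_mem hr hr0) (s := 1) (by rw [hiso, hiso, hQr]; ring)
    have h3' := Cls.reflect h h2' (Cls.of_mem hp hp0) (s := 1)
      (by rw [hiso, hiso, hiso, hQp]; ring)
    -- reorder the reflections of different members
    have hcomm : ∀ z, ap (rf Q r) (ap (rf Q p') z) = ap (rf Q p') (ap (rf Q r) z) := fun z => by
      have o : polar Q r p' = 0 := orth_apply_blocks h.dec hba hr hp'
      rw [ap_rf r, ap_rf p' z, ap_rf p' (ap (rf Q r) z), ap_rf r z, polar_sub_left,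
        polar_smul_left, polar_comm Q p' r, o, polar_sub_left, polar_smul_left, o]
      simp only [smul_zero, sub_zero]
      module
    rw [hcomm, rf_rf_neg h h2 hp hp' hp0 hp'0 hpp, rf_rf_neg h h2 hr hr' hr0 hr'0 hrr, hcb, map_sub,
      map_smul, hca, Decomp.comp_of_mem _ (Decomp.comp_mem _ b y), if_neg hba.symm, smul_zero,
      sub_zero] at h3'
    convert h3' using 1
    rw [← Finset.add_sum_erase s _ ha, ← Finset.add_sum_erase (s.erase a) _ hb, hy'def]
    module

/-- For an odd number of members and `-1` a non-square all members are free. -/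
lemma flex_of_odd (h2 : (2 : F) ≠ 0) (hsplit : ∀ i, ¬ Aniso Q (D i)) (hns : ¬ IsSquare (-1 : F))
    (ht : Odd t) (x : ι → F) : Flex h ∅ x := by
  classical
  intro y hy _ _ _ i _ b hb hQb
  by_cases hsq : IsSquare (Q b / Q y)
  · obtain ⟨s, hs⟩ := hsq
    exact Cls.reflect h hy (Cls.of_mem hb hQb) (s := s) (by rw [← hs, div_mul_cancel₀ _ hy.1])
  obtain ⟨b', hb', hQb', hbb⟩ := exists_perp_opposite h hsplit hb
  obtain ⟨r, hr⟩ := ht
  have h1 := (neg_members h h2 hsplit r (Finset.univ.erase i) (by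
    rw [Finset.card_erase_of_mem (Finset.mem_univ _), Finset.card_univ, Fintype.card_fin]; omega)
    y hy).neg
  have hsum : ∑ l ∈ Finset.univ.erase i, cp l y = y - cp i y := by
    rw [eq_sub_iff_add_eq, add_comm, Finset.add_sum_erase Finset.univ (fun l => cp l y) (Finset.mem_univ i),
      Decomp.sum_comp]
  rw [hsum, show -(y - (2 : F) • (y - cp i y)) = y - (2 : F) • cp i y by module] at h1
  have hQb'0 : Q b' ≠ 0 := by rw [hQb']; exact neg_ne_zero.2 hQb
  have hneg := rf_rf_neg h h2 hb' hb hQb'0 hQb (by rw [polar_comm]; exact hbb) y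
  rw [← hneg] at h1
  have hiso : ∀ (v z : ι → F), Q (ap (rf Q v) z) = Q z := fun v z =>
    mem_isometryGroup_iff.mp (rf_mem_isom v) z
  obtain ⟨s, hs⟩ : IsSquare (Q b' / Q y) := by
    have hch : ringChar F ≠ 2 := fun e => h2 (by
      have := ringChar.Nat.cast_ringChar (R := F); rw [e] at this; exact_mod_cast this)
    rw [hQb', neg_div, ← quadraticChar_one_iff_isSquare (neg_ne_zero.2 (div_ne_zero hQb hy.1)),
      neg_eq_neg_one_mul, map_mul, quadraticChar_neg_one_iff_not_isSquare.2 hns,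
      quadraticChar_neg_one_iff_not_isSquare.2 hsq]
    norm_num
  have := Cls.reflect h h1 (Cls.of_mem hb' hQb'0) (s := s)
    (by rw [hiso, hiso, ← hs, div_mul_cancel₀ _ hy.1])
  rwa [← ap_mul, rf_mul_self, ap_one] at this

/-- A shift of a linked vector by a singular vector orthogonal to it gives a zero component. -/
theorem gap_of_shift (hq : 7 ≤ Fintype.card F) (hsplit : ∀ i, ¬ Aniso Q (D i)) {x y d : ι → F}
    (hx : Cls Q M D x) (hy : Cls Q M D y) (hyd : y = x - d) (hQd : Q d = 0)
    (hxd : polar Q x d = 0) {i r r' : Fin t} (hir' : i ≠ r') (hrr : r ≠ r') (hi : cp i d ≠ 0)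
    (hr : cp r d = 0) (hr' : cp r' d = 0) (hxr' : cp r' x ≠ 0) : Gap h := by
  have hQy : Q x = Q y := by
    rw [hyd, CfsgLib.ClassicalForms.map_sub_eq, hQd, hxd]; ring
  set g := rf Q x * rf Q y with hg
  have hgM : g ∈ M := hx.mul h hy hQy
  have hact : ∀ z, polar Q z d = 0 → ap g z = z + ((Q x)⁻¹ * polar Q z x) • d := by
    intro z hz
    have hc := hx.1
    rw [hg, ap_mul, ap_rf y, ← hQy, hyd, polar_sub_right, hz, sub_zero, ap_rf, polar_sub_left,
      polar_smul_left, polar_sub_left, polar_self_mul, polar_comm Q d x, hxd, smul_eq_mul]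
    match_scalars <;> field_simp <;> ring
  have hz' : ∀ z ∈ D r', polar Q z d = 0 := fun z hz => by
    rw [polar_comm]; exact polar_eq_zero_of_comp h hz hr'
  obtain ⟨e, he, f, hf, hef⟩ := exists_member_pair h hsplit r'
  have hcr : ∀ z ∈ D r', cp r (ap g z) = 0 := fun z hz => by
    rw [hact z (hz' z hz), map_add, map_smul, hr, Decomp.comp_of_mem _ hz, if_neg hrr]; simp
  refine gap_of_block h hq hsplit hgM he hf hef (hcr e he) (hcr f hf) fun o ho => ?_
  obtain ⟨z, hz, hzx⟩ : ∃ z ∈ D r', polar Q z x ≠ 0 := by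
    by_contra! hall
    exact hxr' (comp_eq_zero_of_orth h fun z hz => by rw [polar_comm]; exact hall z hz)
  have hgz : ap g z ∈ D o := by
    rw [pair_rep h he hf hef hz, ap_add, ap_smul, ap_smul]
    exact (D o).add_mem ((D o).smul_mem _ ho.1) ((D o).smul_mem _ ho.2)
  have e1 := Decomp.comp_of_mem h.dec.decomp.decomp (i := i) hgz
  have e2 := Decomp.comp_of_mem h.dec.decomp.decomp (i := r') hgz
  rw [hact z (hz' z hz), map_add, map_smul, Decomp.comp_of_mem _ hz] at e1 e2
  rw [if_neg hir', zero_add] at e1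
  rw [if_pos rfl, hr', smul_zero, add_zero] at e2
  by_cases hio : i = o
  · rw [if_neg fun e => hir' (hio.trans e.symm)] at e2
    exact hzx (by rw [e2]; simp [polar])
  · rw [if_neg hio] at e1
    exact smul_ne_zero (mul_ne_zero (inv_ne_zero hx.1) hzx) hi e1

/-- A vector moving a component by a reflection of given value. -/
lemma exists_shift_vec (hsplit : ∀ i, ¬ Aniso Q (D i)) (h2 : (2 : F) ≠ 0) {i : Fin t} {u : ι → F}
    (hu : u ∈ D i) (hQu : Q u ≠ 0) {δ Y : F} (hδ : δ ≠ 0) (hY : 1 + Y ≠ 0)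
    (heq : 4 * Q u = δ * (1 - Y * Y)) : ∃ d ∈ D i, Q d = δ ∧ polar Q u d = δ := by
  obtain ⟨e, he, f, hf, hef⟩ := exists_member_pair h hsplit i
  have hr := pair_rep h he hf hef hu
  generalize polar Q u f = A at hr
  generalize polar Q u e = B at hr
  rw [hr, hef.value] at heq hQu
  have hB : B ≠ 0 := fun e0 => hQu (by rw [e0, mul_zero])
  have hp : δ * (1 + Y) / (2 * B) * (2 * B / (1 + Y)) = δ := by field_simp
  refine ⟨(δ * (1 + Y) / (2 * B)) • e + (2 * B / (1 + Y)) • f,
    (D i).add_mem ((D i).smul_mem _ he) ((D i).smul_mem _ hf), by rw [hef.value, hp], ?_⟩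
  rw [hr, polar_add_right, polar_smul_right, polar_smul_right, hef.polar_left, hef.polar_right,
    smul_eq_mul, smul_eq_mul]
  field_simp
  linear_combination heq

/-- Two members have shifts of opposite values at a vector with components of non-zero value. -/
lemma exists_opposite (hq : 7 ≤ Fintype.card F) (hsplit : ∀ i, ¬ Aniso Q (D i)) (h2 : (2 : F) ≠ 0)
    {x : ι → F} {i j : Fin t} (hsi : Q (cp i x) ≠ 0) (hsj : Q (cp j x) ≠ 0) :
    ∃ δ : F, δ ≠ 0 ∧ ∃ d ∈ D i, ∃ d' ∈ D j, Q d = δ ∧ Q d' = -δ ∧ polar Q x d = δ ∧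
      polar Q x d' = -δ := by
  classical
  set A := 4 * Q (cp i x) with hA
  set B := 4 * Q (cp j x) with hB
  have h4 : (4 : F) ≠ 0 := by
    rw [show (4 : F) = 2 * 2 by norm_num]; exact mul_ne_zero h2 h2
  have hA0 : A ≠ 0 := mul_ne_zero h4 hsi
  have hB0 : B ≠ 0 := mul_ne_zero h4 hsj
  obtain ⟨m, hm0, hm1', hlin, hden⟩ : ∃ m : F, m ≠ 0 ∧ m ≠ 1 ∧ B + A * m ≠ 0 ∧
      B + A * (m * m) ≠ 0 := by
    have hb : (Finset.univ.filter fun m : F => B + A * (m * m) = 0).card ≤ 2 := by
      rcases (Finset.univ.filter fun m : F => B + A * (m * m) = 0).eq_empty_or_nonempty with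
        h0 | ⟨m₀, hm₀⟩
      · simp [h0]
      refine (Finset.card_le_card (t := {m₀, -m₀}) fun m hm => ?_).trans Finset.card_le_two
      simp at hm hm₀
      rw [Finset.mem_insert, Finset.mem_singleton]
      exact mul_self_eq_mul_self_iff.1 (mul_left_cancel₀ hA0 (by linear_combination hm - hm₀))
    obtain ⟨m, -, hm⟩ := Finset.exists_mem_notMem_of_card_lt_card
      (s := (Finset.univ.filter fun m : F => B + A * (m * m) = 0) ∪ {0, 1, -B / A})
      (t := Finset.univ) (by
        have := Finset.card_union_le (Finset.univ.filter fun m : F => B + A * (m * m) = 0)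
          {0, 1, -B / A}
        have := Finset.card_le_three (a := (0 : F)) (b := 1) (c := -B / A)
        rw [Finset.card_univ]
        omega)
    simp only [Finset.mem_union, Finset.mem_filter, Finset.mem_univ, true_and, Finset.mem_insert,
      Finset.mem_singleton, not_or] at hm
    refine ⟨m, hm.2.1, hm.2.2.1, fun e => hm.2.2.2 ?_, hm.1⟩
    rw [eq_div_iff hA0]; linear_combination e
  set k := -2 * (B + A * m) / (B + A * (m * m)) with hk
  have hk' : k * (B + A * (m * m)) = -2 * (B + A * m) := by rw [hk, div_mul_cancel₀ _ hden]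
  have hk0 : k ≠ 0 := div_ne_zero (mul_ne_zero (neg_ne_zero.2 h2) hlin) hden
  have hk2 : 2 + k ≠ 0 := fun e => mul_ne_zero (mul_ne_zero (mul_ne_zero h2 hA0) hm0)
    (sub_ne_zero.2 hm1') (by linear_combination -hk' + (B + A * (m * m)) * e)
  set δ := -A / (k * (2 + k)) with hδdef
  have hδ : δ ≠ 0 := div_ne_zero (neg_ne_zero.2 hA0) (mul_ne_zero hk0 hk2)
  have hδk : δ * (k * (2 + k)) = -A := by
    rw [hδdef, div_mul_cancel₀ _ (mul_ne_zero hk0 hk2)]
  obtain ⟨d, hdi, hQd, hud⟩ := exists_shift_vec h hsplit h2 (Decomp.comp_mem _ i x) hsi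
    (δ := δ) (Y := 1 + k) hδ (fun e => hk2 (by linear_combination e))
    (by rw [← hA]; linear_combination hδk)
  obtain ⟨d', hdj, hQd', hud'⟩ := exists_shift_vec h hsplit h2 (Decomp.comp_mem _ j x) hsj
    (δ := -δ) (Y := 1 + m * k) (neg_ne_zero.2 hδ) (fun e => hB0 (by
      have e1 : (m - 1) * B = 0 := mul_left_cancel₀ h2 (by
        rw [mul_zero]; linear_combination m * hk' - (B + A * (m * m)) * e)
      exact (mul_eq_zero.1 e1).resolve_left (sub_ne_zero.2 hm1')))
    (by
      rw [← hB]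
      refine mul_left_cancel₀ (mul_ne_zero hk0 hk2) ?_
      linear_combination k * hk' - (2 * (m * k) + m * k * (m * k)) * hδk)
  exact ⟨δ, hδ, d, hdi, d', hdj, hQd, hQd', by rw [polar_comp h.dec x hdi, hud],
    by rw [polar_comp h.dec x hdj, hud']⟩

/-- A singular component gives a zero component. -/
theorem gap_of_singular (hq : 7 ≤ Fintype.card F) (hsplit : ∀ i, ¬ Aniso Q (D i)) (ht : 4 ≤ t)
    {x : ι → F} (hx : Cls Q M D x) (hall : ∀ l, cp l x ≠ 0) (hsing : ∃ l, Q (cp l x) = 0) :
    Gap h := by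
  classical
  have hd := h.dec.decomp.decomp
  have hthree : ∀ i j : Fin t, ∃ r r', r ≠ i ∧ r ≠ j ∧ r' ≠ i ∧ r' ≠ j ∧ r ≠ r' := by
    intro i j
    obtain ⟨r, -, hr⟩ := Finset.exists_mem_notMem_of_card_lt_card (s := ({i, j} : Finset (Fin t)))
      (t := Finset.univ) (by
        rw [Finset.card_univ, Fintype.card_fin]; exact lt_of_le_of_lt Finset.card_le_two (by omega))
    obtain ⟨r', -, hr'⟩ := Finset.exists_mem_notMem_of_card_lt_card
      (s := ({i, j, r} : Finset (Fin t))) (t := Finset.univ) (by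
        rw [Finset.card_univ, Fintype.card_fin]; exact lt_of_le_of_lt Finset.card_le_three (by omega))
    simp only [Finset.mem_insert, Finset.mem_singleton, not_or] at hr hr'
    exact ⟨r, r', hr.1, hr.2, hr'.1, hr'.2.1, Ne.symm hr'.2.2⟩
  obtain ⟨i, hQi⟩ := hsing
  set u := cp i x with hu
  have hui : u ∈ D i := Decomp.comp_mem _ i x
  obtain ⟨f, hf, huf⟩ := exists_partner_pair h hui (hall i) hQi
  obtain ⟨s, hs, hs1, -⟩ := exists_scale h hq
  obtain ⟨r, r', hri, -, hr'i, -, hrr⟩ := hthree i i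
  have hxu : polar Q x u = 0 := by
    rw [polar_comp h.dec x hui, ← hu, polar_self_mul, hQi, mul_zero]
  have hy : Cls Q M D (ap (hrot Q u f s) x) := by
    rw [hrot, ap_mul]
    refine Cls.pair h hx ((D i).add_mem hui hf) ((D i).add_mem ((D i).smul_mem _ hui)
      ((D i).smul_mem _ hf)) ?_ ?_
    · rw [← one_smul F u, ← one_smul F f, huf.value, mul_one]; exact one_ne_zero
    · rw [← one_smul F u, ← one_smul F f, huf.value, mul_one, one_smul, one_smul, huf.value,
        inv_mul_cancel₀ hs]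
  refine gap_of_shift h hq hsplit hx hy (d := (1 - s * s) • u) (i := i) (r := r) (r' := r') ?_
    (by rw [QuadraticMap.map_smul, hQi, smul_zero]) (by rw [polar_smul_right, hxu, smul_zero])
    (Ne.symm hr'i) hrr ?_ ?_ ?_ (hall r')
  · rw [ap_hrot huf hs, hxu, polar_comp h.dec x hf, ← hu, huf.ef, mul_one, mul_zero, zero_smul,
      add_zero]
    module
  · rw [map_smul, Decomp.comp_of_mem hd hui, if_pos rfl]
    exact smul_ne_zero (sub_ne_zero.2 (Ne.symm hs1)) (hall i)
  · rw [map_smul, Decomp.comp_of_mem hd hui, if_neg hri, smul_zero]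
  · rw [map_smul, Decomp.comp_of_mem hd hui, if_neg hr'i, smul_zero]

/-- With `-1` a square a linked vector outside the members gives a zero component. -/
theorem gap_of_square (hq : 7 ≤ Fintype.card F) (hsplit : ∀ i, ¬ Aniso Q (D i)) (h2 : (2 : F) ≠ 0)
    (ht : 4 ≤ t) (hm1 : IsSquare (-1 : F)) {x : ι → F} (hx : Cls Q M D x)
    (hall : ∀ l, cp l x ≠ 0) : Gap h := by
  classical
  have hd := h.dec.decomp.decomp
  have hthree : ∀ i j : Fin t, ∃ r r', r ≠ i ∧ r ≠ j ∧ r' ≠ i ∧ r' ≠ j ∧ r ≠ r' := by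
    intro i j
    obtain ⟨r, -, hr⟩ := Finset.exists_mem_notMem_of_card_lt_card (s := ({i, j} : Finset (Fin t)))
      (t := Finset.univ) (by
        rw [Finset.card_univ, Fintype.card_fin]; exact lt_of_le_of_lt Finset.card_le_two (by omega))
    obtain ⟨r', -, hr'⟩ := Finset.exists_mem_notMem_of_card_lt_card
      (s := ({i, j, r} : Finset (Fin t))) (t := Finset.univ) (by
        rw [Finset.card_univ, Fintype.card_fin]; exact lt_of_le_of_lt Finset.card_le_three (by omega))
    simp only [Finset.mem_insert, Finset.mem_singleton, not_or] at hr hr'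
    exact ⟨r, r', hr.1, hr.2, hr'.1, hr'.2.1, Ne.symm hr'.2.2⟩
  by_cases hsing : ∃ l, Q (cp l x) = 0
  · exact gap_of_singular h hq hsplit ht hx hall hsing
  push Not at hsing
  let i : Fin t := ⟨0, by omega⟩
  let j : Fin t := ⟨1, by omega⟩
  have hij : i ≠ j := by simp [i, j, Fin.ext_iff]
  obtain ⟨r, r', hri, hrj, hr'i, hr'j, hrr⟩ := hthree i j
  obtain ⟨δ, hδ, d, hdi, d', hdj, hQd, hQd', hxd, hxd'⟩ :=
    exists_opposite h hq hsplit h2 (hsing i) (hsing j)
  obtain ⟨σ, hσ⟩ := hm1
  have hσ0 : σ ≠ 0 := fun e => by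
    rw [e, mul_zero] at hσ; exact neg_ne_zero.2 one_ne_zero hσ
  have hQσ : Q (σ • d') = δ := by
    rw [QuadraticMap.map_smul, smul_eq_mul, hQd', ← hσ]; ring
  have hy := Cls.pair h hx hdi ((D j).smul_mem σ hdj) (by rw [hQd]; exact hδ) (hQd.trans hQσ.symm)
  rw [rf_smul hσ0] at hy
  have hdd : polar Q d d' = 0 := orth_apply_blocks h.dec hij hdi hdj
  refine gap_of_shift h hq hsplit hx hy (d := d + d') (i := i) (r := r) (r' := r') ?_ ?_ ?_
    (Ne.symm hr'i) hrr ?_ ?_ ?_ (hall r')
  · rw [ap_rf d', hQd', hxd', inv_mul_cancel₀ (neg_ne_zero.2 hδ), one_smul, ap_rf, polar_sub_left,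
      hQd, hxd, polar_comm Q d' d, hdd, sub_zero, inv_mul_cancel₀ hδ, one_smul]
    abel
  · rw [QuadraticMap.map_add (⇑Q), hQd, hQd', hdd]; ring
  · rw [polar_add_right, hxd, hxd']; ring
  · rw [map_add, Decomp.comp_of_mem hd hdi, if_pos rfl, Decomp.comp_of_mem hd hdj, if_neg hij,
      add_zero]
    exact fun e => hδ (by rw [← hQd, e, QuadraticMap.map_zero])
  · rw [map_add, Decomp.comp_of_mem hd hdi, if_neg hri, Decomp.comp_of_mem hd hdj, if_neg hrj,
      add_zero]
  · rw [map_add, Decomp.comp_of_mem hd hdi, if_neg hr'i, Decomp.comp_of_mem hd hdj, if_neg hr'j,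
      add_zero]

/-- With `-1` a non-square and at least six members four shifts give a zero component. -/
theorem gap_of_six (hq : 7 ≤ Fintype.card F) (hsplit : ∀ i, ¬ Aniso Q (D i)) (h2 : (2 : F) ≠ 0)
    (ht : 6 ≤ t) (hns : ¬ IsSquare (-1 : F)) {x : ι → F} (hx : Cls Q M D x)
    (hall : ∀ l, cp l x ≠ 0) : Gap h := by
  classical
  have hd := h.dec.decomp.decomp
  by_cases hsing : ∃ l, Q (cp l x) = 0
  · exact gap_of_singular h hq hsplit (by omega) hx hall hsing
  push Not at hsing
  let col : Fin 6 → Fin t := fun l => ⟨l.1, by omega⟩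
  have hcol : Function.Injective col := fun a b e => Fin.ext (by simpa [col, Fin.ext_iff] using e)
  have hne : ∀ {a b : Fin 6}, a ≠ b → col a ≠ col b := fun hab => hcol.ne hab
  obtain ⟨δ, hδ, d, hdi, d', hdj, hQd, hQd', hxd, hxd'⟩ :=
    exists_opposite h hq hsplit h2 (hsing (col 0)) (hsing (col 1))
  obtain ⟨ε, hε, e, hek, e', hel, hQe, hQe', hxe, hxe'⟩ :=
    exists_opposite h hq hsplit h2 (hsing (col 2)) (hsing (col 3))
  have key : ∀ (a b : Fin 6), a ≠ b → a ≠ 0 → a ≠ 1 → a ≠ 4 → a ≠ 5 → b ≠ 0 → b ≠ 1 → b ≠ 4 →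
      b ≠ 5 → ∀ (s η : F) (v w : ι → F), v ∈ D (col a) → w ∈ D (col b) → η = s * s * δ → η ≠ 0 →
      Q v = η → Q w = -η → polar Q x v = η → polar Q x w = -η → Gap h := by
    intro a b hab ha0 ha1 ha4 ha5 hb0 hb1 hb4 hb5 s η v w hv hw hs hη hQv hQw hxv hxw
    have hs0 : s ≠ 0 := fun e0 => hη (by rw [hs, e0]; ring)
    have hQv' : Q (s⁻¹ • v) = δ := by
      rw [QuadraticMap.map_smul, smul_eq_mul, hQv, hs]; field_simp
    have hQw' : Q (s⁻¹ • w) = -δ := by
      rw [QuadraticMap.map_smul, smul_eq_mul, hQw, hs]; field_simp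
    have hy1 := Cls.pair h hx hdi ((D _).smul_mem s⁻¹ hv) (by rw [hQd]; exact hδ)
      (hQd.trans hQv'.symm)
    have hy := Cls.pair h hy1 hdj ((D _).smul_mem s⁻¹ hw) (by rw [hQd']; exact neg_ne_zero.2 hδ)
      (hQd'.trans hQw'.symm)
    rw [rf_smul (inv_ne_zero hs0), rf_smul (inv_ne_zero hs0)] at hy
    have o : ∀ {p q : Fin 6} {y z : ι → F}, p ≠ q → y ∈ D (col p) → z ∈ D (col q) →
        polar Q y z = 0 := fun hpq hy hz => orth_apply_blocks h.dec (hne hpq) hy hz
    have hstep : ∀ {y z : ι → F}, Q z ≠ 0 → polar Q y z = Q z → ap (rf Q z) y = y - z :=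
      fun {y z} hz0 hyz => by rw [ap_rf, hyz, inv_mul_cancel₀ hz0, one_smul]
    have hxyz : ap (rf Q d') (ap (rf Q w) (ap (rf Q d) (ap (rf Q v) x))) = x - v - d - w - d' := by
      rw [hstep (z := v) (by rw [hQv]; exact hη) (by rw [hxv, hQv]),
        hstep (z := d) (by rw [hQd]; exact hδ) (by
          rw [polar_sub_left, hxd, o ha0 hv hdi, sub_zero, hQd]),
        hstep (z := w) (by rw [hQw]; exact neg_ne_zero.2 hη) (by
          rw [polar_sub_left, polar_sub_left, hxw, o hab hv hw, o (Ne.symm hb0) hdi hw, hQw]; ring),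
        hstep (z := d') (by rw [hQd']; exact neg_ne_zero.2 hδ) (by
          rw [polar_sub_left, polar_sub_left, polar_sub_left, hxd', o ha1 hv hdj,
            o (by decide) hdi hdj, o hb1 hw hdj, hQd']; ring)]
    refine gap_of_shift h hq hsplit hx hy (d := v + d + w + d') (i := col 0) (r := col 4)
      (r' := col 5) (by rw [hxyz]; abel) ?_ ?_ (hne (by decide)) (hne (by decide)) ?_ ?_ ?_ (hall _)
    · rw [QuadraticMap.map_add (⇑Q), QuadraticMap.map_add (⇑Q), QuadraticMap.map_add (⇑Q),
        polar_add_left, polar_add_left, polar_add_left, o ha0 hv hdi, o hab hv hw,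
        o (Ne.symm hb0) hdi hw, o ha1 hv hdj, o (by decide) hdi hdj, o hb1 hw hdj, hQv, hQd, hQw,
        hQd']
      ring
    · rw [polar_add_right, polar_add_right, polar_add_right, hxv, hxd, hxw, hxd']; ring
    all_goals simp only [map_add, Decomp.comp_of_mem hd hv, Decomp.comp_of_mem hd hdi,
      Decomp.comp_of_mem hd hw, Decomp.comp_of_mem hd hdj]
    · rw [if_neg (hne (Ne.symm ha0)), if_true, if_neg (hne (Ne.symm hb0)),
        if_neg (hne (by decide))]
      simp only [zero_add, add_zero]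
      exact fun e0 => hδ (by rw [← hQd, e0, QuadraticMap.map_zero])
    · rw [if_neg (hne (Ne.symm ha4)), if_neg (hne (by decide)), if_neg (hne (Ne.symm hb4)),
        if_neg (hne (by decide))]
      simp
    · rw [if_neg (hne (Ne.symm ha5)), if_neg (hne (by decide)), if_neg (hne (Ne.symm hb5)),
        if_neg (hne (by decide))]
      simp
  by_cases hsq : IsSquare (ε / δ)
  · obtain ⟨s, hs⟩ := hsq
    exact key 2 3 (by decide) (by decide) (by decide) (by decide) (by decide) (by decide)
      (by decide) (by decide) (by decide) s ε e e' hek hel (by rw [← hs, div_mul_cancel₀ _ hδ]) hε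
      hQe hQe' hxe hxe'
  · obtain ⟨s, hs⟩ : IsSquare (-ε / δ) := by
      rw [neg_div, ← quadraticChar_one_iff_isSquare (neg_ne_zero.2 (div_ne_zero hε hδ)),
        neg_eq_neg_one_mul, map_mul, quadraticChar_neg_one_iff_not_isSquare.2 hns,
        quadraticChar_neg_one_iff_not_isSquare.2 hsq]
      norm_num
    exact key 3 2 (by decide) (by decide) (by decide) (by decide) (by decide) (by decide)
      (by decide) (by decide) (by decide) s (-ε) e' e hel hek
      (by rw [← hs, div_mul_cancel₀ _ hδ]) (neg_ne_zero.2 hε) hQe' (by rw [neg_neg]; exact hQe)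
      hxe' (by rw [neg_neg]; exact hxe)

/-- A group outside the stabiliser has a linked vector meeting exactly two members. -/
theorem exists_two (hq : 7 ≤ Fintype.card F) (hsplit : ∀ i, ¬ Aniso Q (D i)) (ht : 4 ≤ t)
    (hpar : Odd t ∨ IsSquare (-1 : F) ∨ 6 ≤ t) {g : GL ι F} (hg : g ∈ M)
    (hst : g ∉ Cfsg.Geo.decompositionStabilizer D) : ∃ c, Two Q M D c := by
  obtain ⟨x, hx, hout⟩ : ∃ x, Cls Q M D x ∧ ∀ r, x ∉ D r := by
    by_contra! hno
    exact false_of_not_stab h hno hq hsplit ht hg hst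
  have hgap : Gap h → ∃ c, Two Q M D c := fun ⟨x', hx', hout', j, hj⟩ =>
    ⟨_, two_of_split h hq hsplit (J := {j}) (by simp) (flex_of_zero h hj) hx' hout'⟩
  by_cases hz : ∃ l, cp l x = 0
  · obtain ⟨l, hl⟩ := hz
    exact hgap ⟨x, hx, hout, l, hl⟩
  push Not at hz
  by_cases h2 : (2 : F) = 0
  · exact ⟨_, two_of_split h hq hsplit (J := ∅) (by simp) (flex_of_two h h2 x) hx hout⟩
  by_cases hm : IsSquare (-1 : F)
  · exact hgap (gap_of_square h hq hsplit h2 ht hm hx hz)
  rcases hpar with hodd | hsq | h6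
  · exact ⟨_, two_of_split h hq hsplit (J := ∅) (by simp)
      (flex_of_odd h h2 hsplit hm hodd x) hx hout⟩
  · exact absurd hsq hm
  · exact hgap (gap_of_six h hq hsplit h2 h6 hm hx hz)

end CfsgLib.Geometric.Orth.Blocks
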