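import Cfsg.Agent.Lib.Geometric.Orth.Blocks.SplitRot

/-!
For members with singular vectors: an element outside the stabiliser gives a linked vector outside
the members, and from one a linked vector meeting exactly two members.
-/

set_option autoImplicit false
set_option linter.unusedSectionVars false

namespace CfsgLib.Geometric.Orth.Blocks

open Matrix QuadraticMap CfsgLib.ClassicalForms
open CfsgLib.Geometric.Orth.Frame (rf_mul_self rf_mul_self_left rf_inv conj_rf rf_neg)

variable {ι : Type} [Fintype ι] [DecidableEq ι] {F : Type*} [Field F] [Fintype F]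
variable {Q : QuadraticForm F (ι → F)} {t : ℕ} {D : Fin t → Submodule F (ι → F)}
variable {M : Subgroup (GL ι F)} (h : Over Q 2 D M)

local notation3 "cp" => Decomp.comp (Over.dec h).decomp.decomp

include h

lemma exists_linked_pairing (hq : 7 ≤ Fintype.card F) (hsplit : ∀ i, ¬ Aniso Q (D i)) {w : GL ι F}
    (hw : w ∈ M) (hst : w ∉ Cfsg.Geo.decompositionStabilizer D) {m : Fin t} {v : ι → F}
    (hv : v ∈ D m) (hQv : Q v ≠ 0) (hfix : ap w v = v) : ∃ x, Cls Q M D x ∧ ∀ r, x ∉ D r := by
  obtain ⟨i, a, ha, hQa, hwa⟩ := exists_moved_value h hq hsplit (h.isom hw) hst hQv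
  exact ⟨ap w a, Cls.ap h hw (Cls.of_mem hv hQv) (by rw [hfix]; exact Cls.of_mem hv hQv)
    (Cls.of_mem ha (by rw [hQa]; exact hQv)) hQa.symm, hwa⟩

variable (hno : ∀ x, Cls Q M D x → ∃ r, x ∈ D r) (hq : 7 ≤ Fintype.card F)
  (hsplit : ∀ i, ¬ Aniso Q (D i)) (ht : 4 ≤ t)

section
include hno hq hsplit

/-- If every linked vector lies in a member, an element fixing a member vector of non-zero value
preserves the members. -/
lemma stab_of_fix {w : GL ι F} (hw : w ∈ M) {m : Fin t} {v : ι → F} (hv : v ∈ D m)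
    (hQv : Q v ≠ 0) (hfix : ap w v = v) : w ∈ Cfsg.Geo.decompositionStabilizer D := by
  by_contra hst
  obtain ⟨x, hx, hout⟩ := exists_linked_pairing h hq hsplit hw hst hv hQv hfix
  obtain ⟨r, hr⟩ := hno x hx
  exact hout r hr

lemma member_of_zero {g : GL ι F} (hg : g ∈ M) {i m : Fin t} {e f : ι → F} (hei : e ∈ D i)
    (hfi : f ∈ D i) (he : HPair Q e f) (hze : cp m (ap g e) = 0) (hzf : cp m (ap g f) = 0) :
    ∃ r, ap g e ∈ D r ∧ ap g f ∈ D r := by
  by_contra! hout
  obtain ⟨x, hx, hxout, -⟩ := gap_of_block h hq hsplit hg hei hfi he hze hzf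
    fun r hr => hout r hr.1 hr.2
  obtain ⟨r, hr⟩ := hno x hx
  exact hxout r hr

/-- No member is mapped into a member by an element outside the stabiliser. -/
lemma no_member {g : GL ι F} (hg : g ∈ M) (hst : g ∉ Cfsg.Geo.decompositionStabilizer D) {i : Fin t}
    {e f : ι → F} (hei : e ∈ D i) (hfi : f ∈ D i) (he : HPair Q e f) (r : Fin t) :
    ¬ (ap g e ∈ D r ∧ ap g f ∈ D r) := by
  rintro ⟨hre, hrf⟩
  have hd := h.dec.decomp.decomp
  have hmap : ∀ {l : Fin t} {a b : ι → F}, a ∈ D l → b ∈ D l → HPair Q a b → ∀ {r : Fin t},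
      ap g a ∈ D r → ap g b ∈ D r → ∀ x ∈ D l, ap g x ∈ D r := by
    intro l a b ha hb hab r hra hrb x hx
    rw [pair_rep h ha hb hab hx, ap_add, ap_smul, ap_smul]
    exact (D r).add_mem ((D r).smul_mem _ hra) ((D r).smul_mem _ hrb)
  refine hst (stab_of_maps h fun l => ?_)
  by_cases hli : l = i
  · subst hli; exact ⟨r, hmap hei hfi he hre hrf⟩
  obtain ⟨a, ha, b, hb, hab⟩ := exists_member_pair h hsplit l
  have hrp := he.ap (h.isom hg)
  have hz : ∀ {x : ι → F}, x ∈ D l → cp r (ap g x) = 0 := fun {x} hx =>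
    comp_eq_zero_of_orth h fun z hz => by
      rw [pair_rep h hre hrf hrp hz, polar_add_right, polar_smul_right, polar_smul_right,
        polar_ap (h.isom hg), polar_ap (h.isom hg), orth_apply_blocks h.dec hli hx hei,
        orth_apply_blocks h.dec hli hx hfi]
      simp
  obtain ⟨r', hra, hrb⟩ := member_of_zero h hno hq hsplit hg ha hb hab (hz ha) (hz hb)
  exact ⟨r', hmap ha hb hab hra hrb⟩

include ht

/-- If every linked vector lies in a member, only the stabiliser fixes a non-zero member vector. -/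
lemma stab_of_fix' {w : GL ι F} (hw : w ∈ M) {m : Fin t} {v : ι → F} (hv : v ∈ D m) (hv0 : v ≠ 0)
    (hfix : ap w v = v) : w ∈ Cfsg.Geo.decompositionStabilizer D := by
  classical
  by_cases hQv : Q v ≠ 0
  · exact stab_of_fix h hno hq hsplit hw hv hQv hfix
  push Not at hQv
  by_contra hst
  obtain ⟨f, hfm, hvf⟩ := exists_partner_pair h hv hv0 hQv
  obtain ⟨s, hs, hs1, hs2⟩ := exists_scale h hq
  have hnm := no_member h hno hq hsplit hw hst hv hfm hvf
  have hp : HPair Q v (ap w f) := by have := hvf.ap (h.isom hw); rwa [hfix] at this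
  set u := hrot Q v (ap w f) s with hu
  have huM : u ∈ M := by
    have := mul_mem (mul_mem hw (hrot_mem h hv hfm hvf hs)) (inv_mem hw)
    rwa [conj_hrot (h.isom hw), hfix] at this
  have hust : u ∉ Cfsg.Geo.decompositionStabilizer D := fun hmem => by
    obtain ⟨r, hr⟩ := member_of_hrot_mem h hsplit hp hs hs1 hs2 hmem
    exact hnm r (by rwa [hfix])
  obtain ⟨a', -, ha'⟩ := Finset.exists_mem_notMem_of_card_lt_card (s := ({m} : Finset (Fin t)))
    (t := Finset.univ) (by rw [Finset.card_univ, Fintype.card_fin, Finset.card_singleton]; omega)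
  obtain ⟨a, -, ha⟩ := Finset.exists_mem_notMem_of_card_lt_card (s := ({m, a'} : Finset (Fin t)))
    (t := Finset.univ) (by
      rw [Finset.card_univ, Fintype.card_fin]
      exact lt_of_le_of_lt Finset.card_le_two (by omega))
  simp only [Finset.mem_singleton] at ha'
  simp only [Finset.mem_insert, Finset.mem_singleton, not_or] at ha
  obtain ⟨e', he', f', hf', hef'⟩ := exists_member_pair h hsplit a'
  have hz : ∀ {x : ι → F}, x ∈ D a' → cp a (ap u x) = 0 := fun {x} hx => by
    rw [hu, ap_hrot hp hs, orth_apply_blocks h.dec ha' hx hv, map_add, map_add, map_smul,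
      Decomp.comp_of_mem _ hx, if_neg ha.2, Decomp.comp_of_mem _ hv, if_neg ha.1]
    simp
  obtain ⟨r, hr⟩ := member_of_zero h hno hq hsplit huM he' hf' hef' (hz he') (hz hf')
  exact no_member h hno hq hsplit huM hust he' hf' hef' r hr

/-- If every linked vector lies in a member, every element maps each member into each member
bijectively, or preserves the members. -/
lemma comp_ne_zero {g : GL ι F} (hg : g ∈ M) (hst : g ∉ Cfsg.Geo.decompositionStabilizer D)
    {i : Fin t} {x : ι → F} (hx : x ∈ D i) (hx0 : x ≠ 0) (m : Fin t) : cp m (ap g x) ≠ 0 := by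
  intro hz
  obtain ⟨e, hei, f, hfi, hef⟩ := exists_member_pair h hsplit i
  obtain ⟨a, hma, b, hmb, hab⟩ := exists_member_pair h hsplit m
  obtain ⟨s, hs, hs1, hs2⟩ := exists_scale h hq
  -- a vector of the member orthogonal to the image
  obtain ⟨z, hz', hz0, hze, hzf⟩ : ∃ z ∈ D m, z ≠ 0 ∧ polar Q z (ap g e) = 0 ∧
      polar Q z (ap g f) = 0 := by
    set p := polar Q x f
    set q := polar Q x e
    have hxr : x = p • e + q • f := pair_rep h hei hfi hef hx
    set ue := cp m (ap g e)
    set uf := cp m (ap g f)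
    have hrel : p • ue + q • uf = 0 := by
      rw [← map_smul, ← map_smul, ← map_add, ← ap_smul, ← ap_smul, ← ap_add, ← hxr, hz]
    obtain ⟨u, hu, α, β, hα, hβ⟩ : ∃ u ∈ D m, ∃ α β : F, ue = α • u ∧ uf = β • u := by
      by_cases hp : p = 0
      · have hq0 : q ≠ 0 := fun e0 => hx0 (by rw [hxr, hp, e0]; simp)
        refine ⟨ue, Decomp.comp_mem _ m _, 1, 0, (one_smul F _).symm, ?_⟩
        rw [hp, zero_smul, zero_add] at hrel
        rw [zero_smul, (smul_eq_zero.1 hrel).resolve_left hq0]
      · refine ⟨uf, Decomp.comp_mem _ m _, -(q / p), 1, ?_, (one_smul F _).symm⟩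
        rw [← smul_right_injective (ι → F) hp |>.eq_iff, smul_smul]
        rw [show p * -(q / p) = -q by field_simp]
        linear_combination (norm := module) hrel
    obtain ⟨z, hz', hz0, hzu⟩ : ∃ z ∈ D m, z ≠ 0 ∧ polar Q z u = 0 := by
      by_cases hb : polar Q b u = 0
      · exact ⟨b, hmb, fun e0 => one_ne_zero (α := F) (by rw [← hab.ef, e0]; simp [polar]), hb⟩
      · refine ⟨polar Q b u • a + (-polar Q a u) • b,
          (D m).add_mem ((D m).smul_mem _ hma) ((D m).smul_mem _ hmb), fun e0 => hb ?_, ?_⟩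
        · have := hab.polar_right (polar Q b u) (-polar Q a u)
          rw [e0] at this
          simpa [polar] using this.symm
        · rw [polar_add_left, polar_smul_left, polar_smul_left, smul_eq_mul, smul_eq_mul]; ring
    refine ⟨z, hz', hz0, ?_, ?_⟩
    · rw [polar_comm, polar_comp h.dec _ hz', show cp m (ap g e) = α • u from hα, polar_smul_left,
        polar_comm Q u z, hzu, smul_zero]
    · rw [polar_comm, polar_comp h.dec _ hz', show cp m (ap g f) = β • u from hβ, polar_smul_left,
        polar_comm Q u z, hzu, smul_zero]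
  have hwM := mul_mem (mul_mem hg (hrot_mem h hei hfi hef hs)) (inv_mem hg)
  rw [conj_hrot (h.isom hg)] at hwM
  have hgp := hef.ap (h.isom hg)
  obtain ⟨r, hr⟩ := member_of_hrot_mem h hsplit hgp hs hs1 hs2
    (stab_of_fix' h hno hq hsplit ht hwM hz' hz0 (hrot_fix hgp hs hze hzf))
  exact no_member h hno hq hsplit hg hst hei hfi hef r hr

/-- If every linked vector lies in a member, the group preserves the members. -/
theorem false_of_not_stab {g : GL ι F} (hg : g ∈ M)
    (hst : g ∉ Cfsg.Geo.decompositionStabilizer D) : False := by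
  classical
  have hd := h.dec.decomp.decomp
  let m : Fin t := ⟨0, by omega⟩
  let col : Fin 4 → Fin t := fun l => ⟨l.1, by omega⟩
  have hcol : Function.Injective col := fun a b e => Fin.ext (by simpa [col, Fin.ext_iff] using e)
  obtain ⟨a, hma, b, hmb, hab⟩ := exists_member_pair h hsplit m
  choose e he f hf hef using exists_member_pair h hsplit
  -- the preimages of a vector of the member in every member
  have hinj : ∀ i, Function.Injective (((cp m).comp (apEquiv g).toLinearMap).comp (D i).subtype) := by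
    intro i
    rw [← LinearMap.ker_eq_bot, LinearMap.ker_eq_bot']
    rintro ⟨x, hx⟩ h0
    by_contra hne
    exact comp_ne_zero h hno hq hsplit ht hg hst hx (fun e0 => hne (Subtype.ext e0)) m
      (by simpa using h0)
  have hsurj : ∀ i, ∀ u ∈ D m, ∃ x ∈ D i, cp m (ap g x) = u := by
    intro i u hu
    let φ : D i →ₗ[F] D m := LinearMap.codRestrict (D m)
      (((cp m).comp (apEquiv g).toLinearMap).comp (D i).subtype) fun x => Decomp.comp_mem hd m _
    have hφi : Function.Injective φ := fun x y e0 => hinj i (congrArg Subtype.val e0)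
    obtain ⟨x, hx⟩ := (LinearMap.injective_iff_surjective_of_finrank_eq_finrank
      (by rw [hd.finrank_eq, hd.finrank_eq])).1 hφi ⟨u, hu⟩
    exact ⟨x, x.2, by simpa [φ] using congrArg Subtype.val hx⟩
  let u : F → ι → F := fun s => (1 : F) • a + s • b
  have humem : ∀ s, u s ∈ D m := fun s => (D m).add_mem ((D m).smul_mem _ hma) ((D m).smul_mem _ hmb)
  choose P hP hPu using fun (l : Fin 4) (s : F) => hsurj (col l) (u s) (humem s)
  -- at most two bad parameters for each column
  have hbad : ∀ l, (Finset.univ.filter fun s : F => Q (P l s) = 0).card ≤ 2 := by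
    intro l
    by_contra! hlt
    set S := Finset.univ.filter fun s : F => Q (P l s) = 0 with hS
    set p : F → F := fun s => polar Q (P l s) (f (col l))
    set q : F → F := fun s => polar Q (P l s) (e (col l))
    have hrep : ∀ s, P l s = p s • e (col l) + q s • f (col l) := fun s =>
      pair_rep h (he _) (hf _) (hef _) (hP l s)
    have hpq : ∀ s ∈ S, p s = 0 ∨ q s = 0 := fun s hs => by
      have h0 : Q (P l s) = 0 := (Finset.mem_filter.1 hs).2
      rw [hrep s, (hef _).value] at h0
      exact mul_eq_zero.1 h0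
    have hu_inj : ∀ s s' μ μ' : F, μ • u s = μ' • u s' → μ = μ' ∧ μ * s = μ' * s' := by
      intro s s' μ μ' e0
      simp only [u, smul_add, smul_smul] at e0
      have e1 := congrArg (fun z => polar Q z b) e0
      have e2 := congrArg (fun z => polar Q z a) e0
      simp only [hab.polar_left, hab.polar_right] at e1 e2
      exact ⟨by simpa using e1, e2⟩
    have hne0 : ∀ s, P l s ≠ 0 := fun s e0 => by
      have := hPu l s
      rw [e0, ap_zero, map_zero] at this
      have e1 := hab.polar_right 1 s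
      rw [show (1 : F) • a + s • b = u s from rfl, ← this] at e1
      simp [polar] at e1
    have hsame : ∀ s ∈ S, ∀ s' ∈ S, (p s = 0 ↔ p s' = 0) → s = s' := by
      intro s hs s' hs' hiff
      obtain ⟨μ, hμ0, hμ⟩ : ∃ μ : F, μ ≠ 0 ∧ P l s = μ • P l s' := by
        by_cases hp : p s = 0
        · have hp' := hiff.1 hp
          have hq0 : q s ≠ 0 := fun e0 => hne0 s (by rw [hrep s, hp, e0]; simp)
          have hq0' : q s' ≠ 0 := fun e0 => hne0 s' (by rw [hrep s', hp', e0]; simp)
          exact ⟨q s / q s', div_ne_zero hq0 hq0', by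
            rw [hrep s, hrep s', hp, hp', smul_add, smul_smul, smul_smul, mul_zero,
              div_mul_cancel₀ _ hq0']⟩
        · have hp' : p s' ≠ 0 := fun e0 => hp (hiff.2 e0)
          have hq := (hpq s hs).resolve_left hp
          have hq' := (hpq s' hs').resolve_left hp'
          exact ⟨p s / p s', div_ne_zero hp hp', by
            rw [hrep s, hrep s', hq, hq', smul_add, smul_smul, smul_smul, mul_zero,
              div_mul_cancel₀ _ hp']⟩
      have e0 := hPu l s
      rw [hμ, ap_smul, map_smul, hPu l s'] at e0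
      obtain ⟨h1, h2⟩ := hu_inj s' s μ 1 (by rw [e0, one_smul])
      rw [h1, one_mul, one_mul] at h2
      exact h2.symm
    obtain ⟨x, hx, y, hy, z, hz, hxy, hxz, hyz⟩ := Finset.two_lt_card.1 hlt
    by_cases hpx : p x = 0 <;> by_cases hpy : p y = 0 <;> by_cases hpz : p z = 0
    all_goals first
      | exact hxy (hsame x hx y hy (iff_of_true hpx hpy))
      | exact hxy (hsame x hx y hy (iff_of_false hpx hpy))
      | exact hxz (hsame x hx z hz (iff_of_true hpx hpz))
      | exact hxz (hsame x hx z hz (iff_of_false hpx hpz))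
      | exact hyz (hsame y hy z hz (iff_of_true hpy hpz))
      | exact hyz (hsame y hy z hz (iff_of_false hpy hpz))
  obtain ⟨s, hs, hgood⟩ : ∃ s : F, s ≠ 0 ∧ 3 ≤ (Finset.univ.filter fun l => Q (P l s) ≠ 0).card := by
    by_contra! hall
    have h1 : ∀ s ∈ (Finset.univ : Finset F).erase 0,
        2 ≤ (Finset.univ.filter fun l : Fin 4 => Q (P l s) = 0).card := by
      intro s hs
      have h2 := hall s (Finset.ne_of_mem_erase hs)
      have h3 := Finset.card_filter_add_card_filter_not (s := (Finset.univ : Finset (Fin 4)))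
        (fun l => Q (P l s) = 0)
      rw [Finset.card_univ, Fintype.card_fin] at h3
      simp only [ne_eq] at h2
      omega
    have h2 := Finset.card_nsmul_le_sum _ (fun s => (Finset.univ.filter fun l : Fin 4 =>
      Q (P l s) = 0).card) 2 h1
    have h3 : ∑ s ∈ (Finset.univ : Finset F).erase 0,
        (Finset.univ.filter fun l : Fin 4 => Q (P l s) = 0).card ≤ 8 := by
      simp only [Finset.card_filter]
      rw [Finset.sum_comm]
      refine (Finset.sum_le_sum (g := fun _ => 2) fun l _ => ?_).trans (by simp)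
      refine le_trans ?_ (hbad l)
      rw [Finset.card_filter]
      exact Finset.sum_le_sum_of_subset (Finset.subset_univ _)
    rw [Finset.card_erase_of_mem (Finset.mem_univ _), Finset.card_univ, smul_eq_mul] at h2
    omega
  obtain ⟨i, hi, j, hj, k, hk, hij, hik, hjk⟩ := Finset.two_lt_card.1 hgood
  simp only [Finset.mem_filter, Finset.mem_univ, true_and] at hi hj hk
  have hclass : ∀ {i j : Fin 4}, i ≠ j → Q (P i s) ≠ 0 → Q (P j s) ≠ 0 →
      IsSquare (Q (P i s) / Q (P j s)) → False := by
    intro i j hij hi hj ⟨r, hr⟩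
    have hr' : Q (P i s) = r * r * Q (P j s) := by rw [← hr, div_mul_cancel₀ _ hj]
    have hr0 : r ≠ 0 := fun e0 => hi (by rw [hr', e0]; ring)
    set x := P i s with hxdef
    set y := r • P j s with hydef
    have hQy : Q x = Q y := by rw [hydef, QuadraticMap.map_smul, smul_eq_mul, hr']
    have hwM : rf Q (ap g x) * rf Q (ap g y) ∈ M := by
      rw [← conj_rf (h.isom hg), ← conj_rf (h.isom hg)]
      have hpm : rf Q x * rf Q y ∈ M :=
        h.pair_mem (hP i s) ((D (col j)).smul_mem r (hP j s)) hi hQy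
      convert mul_mem (mul_mem hg hpm) (inv_mem hg) using 1
      group
    set X := ap g x
    set Y := ap g y
    have hcX : cp m X = u s := hPu i s
    have hcY : cp m Y = r • u s := by rw [show Y = r • ap g (P j s) from ap_smul g r _, map_smul, hPu]
    set v := (1 : F) • a + (-s) • b with hvdef
    have hv : v ∈ D m := (D m).add_mem ((D m).smul_mem _ hma) ((D m).smul_mem _ hmb)
    have hQv : Q v ≠ 0 := by rw [hvdef, hab.value, one_mul]; exact neg_ne_zero.2 hs
    have huv : polar Q (u s) v = 0 := by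
      simp only [u, hvdef, polar_add_right, polar_smul_right, hab.polar_left, hab.polar_right,
        smul_eq_mul]
      ring
    have hfX : polar Q v X = 0 := by rw [polar_comm, polar_comp h.dec _ hv, hcX, huv]
    have hfY : polar Q v Y = 0 := by
      rw [polar_comm, polar_comp h.dec _ hv, hcY, polar_smul_left, huv, smul_zero]
    have hfix : ap (rf Q X * rf Q Y) v = v := by rw [ap_mul, ap_rf_fix hfY, ap_rf_fix hfX]
    obtain ⟨π, hπ⟩ := stab_of_fix h hno hq hsplit hwM hv hQv hfix
    have hm : ∀ l, ∀ z ∈ D l, ap (rf Q X * rf Q Y) z ∈ D (π l) := fun l z hz => by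
      rw [← hπ l]; exact ⟨z, hz, rfl⟩
    have hQX : Q X ≠ 0 := by rw [mem_isometryGroup_iff.mp (h.isom hg)]; exact hi
    -- differences lie in the span of the two images
    have hdiff : ∀ z, ∃ p q : F, ap (rf Q X * rf Q Y) z - z = ap g (p • x + q • y) := fun z =>
      ⟨-((Q X)⁻¹ * polar Q (z - ((Q Y)⁻¹ * polar Q z Y) • Y) X), -((Q Y)⁻¹ * polar Q z Y), by
        rw [ap_mul, ap_rf, ap_rf, ap_add, ap_smul, ap_smul]; module⟩
    have hxD : x ∈ D (col i) := hP i s
    have hyD : y ∈ D (col j) := (D _).smul_mem r (hP j s)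
    have hcij : col i ≠ col j := fun e0 => hij (hcol e0)
    have hxy : ∀ p q : F, p • x + q • y = 0 → p = 0 ∧ q = 0 := by
      intro p q e0
      have e1 := congrArg (cp (col i)) e0
      have e2 := congrArg (cp (col j)) e0
      simp only [map_add, map_smul, map_zero, Decomp.comp_of_mem _ hxD,
        Decomp.comp_of_mem _ hyD, if_neg hcij, if_neg (Ne.symm hcij), if_true, smul_zero,
        add_zero, zero_add] at e1 e2
      exact ⟨(smul_eq_zero.1 e1).resolve_right fun e3 => hi (by rw [e3, QuadraticMap.map_zero]),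
        (smul_eq_zero.1 e2).resolve_right fun e3 => hi (by rw [hQy, e3, QuadraticMap.map_zero])⟩
    have hX0 : ∀ o, cp o X ≠ 0 := comp_ne_zero h hno hq hsplit ht hg hst hxD
      fun e0 => hi (by rw [e0, QuadraticMap.map_zero])
    by_cases hfixπ : ∀ l, π l = l
    · -- the components of `X` would lie in a two-dimensional space
      have hcomm : ∀ o z, cp o (ap (rf Q X * rf Q Y) z) = ap (rf Q X * rf Q Y) (cp o z) :=
        fun o z => comp_ap h.dec (fun l x hx => by simpa [hfixπ l] using hm l x hx) o z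
      -- a vector pairing only with `X`
      obtain ⟨z₀, hz₀X, hz₀Y⟩ : ∃ z₀, polar Q z₀ X ≠ 0 ∧ polar Q z₀ Y = 0 := by
        obtain ⟨z₁, hz₁, hz₁x⟩ := (h.dec.decomp.nondegenerate (col i) x hxD
          (fun e0 => hi (by rw [e0, QuadraticMap.map_zero]))).2
        exact ⟨ap g z₁, by rw [polar_ap (h.isom hg), polar_comm]; exact hz₁x, by
          rw [polar_ap (h.isom hg)]; exact orth_apply_blocks h.dec hcij hz₁ hyD⟩
      have hmult : ∀ o, ∃ p q : F, cp o X = ap g (p • x + q • y) := by
        intro o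
        have e1 : ap (rf Q X * rf Q Y) z₀ - z₀ = (-((Q X)⁻¹ * polar Q z₀ X)) • X := by
          rw [ap_mul, ap_rf_fix hz₀Y, ap_rf]; module
        obtain ⟨p, q, hpq⟩ := hdiff (cp o z₀)
        rw [← hcomm, ← map_sub, e1, map_smul] at hpq
        have hk : -((Q X)⁻¹ * polar Q z₀ X) ≠ 0 :=
          neg_ne_zero.2 (mul_ne_zero (inv_ne_zero hQX) hz₀X)
        refine ⟨(-((Q X)⁻¹ * polar Q z₀ X))⁻¹ * p, (-((Q X)⁻¹ * polar Q z₀ X))⁻¹ * q, ?_⟩
        rw [mul_smul, mul_smul, ← smul_add, ap_smul, ← hpq, inv_smul_smul₀ hk]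
      choose p q hpq using hmult
      -- three members give a dependence
      let o₀ : Fin t := ⟨0, by omega⟩
      let o₁ : Fin t := ⟨1, by omega⟩
      let o₂ : Fin t := ⟨2, by omega⟩
      have h01 : o₀ ≠ o₁ := by simp [o₀, o₁, Fin.ext_iff]
      have h02 : o₀ ≠ o₂ := by simp [o₀, o₂, Fin.ext_iff]
      have h12 : o₁ ≠ o₂ := by simp [o₁, o₂, Fin.ext_iff]
      have hz0 : ∀ {o o' : Fin t}, o ≠ o' → p o * q o' - q o * p o' ≠ 0 := by
        intro o o' hoo e0
        have e1 : q o' • cp o X - q o • cp o' X = ap g ((p o * q o' - q o * p o') • x) := by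
          rw [hpq, hpq, ← ap_smul, ← ap_smul, ← ap_sub]; congr 1; module
        rw [e0, zero_smul, ap_zero] at e1
        have e2 := congrArg (cp o) e1
        rw [map_sub, map_smul, map_smul, map_zero, Decomp.comp_of_mem _ (Decomp.comp_mem _ o X),
          if_pos rfl, Decomp.comp_of_mem _ (Decomp.comp_mem _ o' X), if_neg hoo, smul_zero,
          sub_zero] at e2
        have hq' := (smul_eq_zero.1 e2).resolve_right (hX0 o)
        have e3 : p o' • cp o X - p o • cp o' X = ap g (-(p o * q o' - q o * p o') • y) := by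
          rw [hpq, hpq, ← ap_smul, ← ap_smul, ← ap_sub]; congr 1; module
        rw [e0, neg_zero, zero_smul, ap_zero] at e3
        have e4 := congrArg (cp o) e3
        rw [map_sub, map_smul, map_smul, map_zero, Decomp.comp_of_mem _ (Decomp.comp_mem _ o X),
          if_pos rfl, Decomp.comp_of_mem _ (Decomp.comp_mem _ o' X), if_neg hoo, smul_zero,
          sub_zero] at e4
        have hp' := (smul_eq_zero.1 e4).resolve_right (hX0 o)
        exact hX0 o' (by rw [hpq, hp', hq']; simp [ap_zero])
      have e1 : (p o₁ * q o₂ - q o₁ * p o₂) • cp o₀ X - (p o₀ * q o₂ - q o₀ * p o₂) • cp o₁ X +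
          (p o₀ * q o₁ - q o₀ * p o₁) • cp o₂ X = 0 := by
        rw [hpq, hpq, hpq, ← ap_smul, ← ap_smul, ← ap_smul, ← ap_sub, ← ap_add,
          show (p o₁ * q o₂ - q o₁ * p o₂) • (p o₀ • x + q o₀ • y) -
            (p o₀ * q o₂ - q o₀ * p o₂) • (p o₁ • x + q o₁ • y) +
            (p o₀ * q o₁ - q o₀ * p o₁) • (p o₂ • x + q o₂ • y) = 0 by module, ap_zero]
      have e2 := congrArg (cp o₀) e1
      rw [map_add, map_sub, map_smul, map_smul, map_smul, map_zero,
        Decomp.comp_of_mem _ (Decomp.comp_mem _ o₀ X), if_pos rfl,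
        Decomp.comp_of_mem _ (Decomp.comp_mem _ o₁ X), if_neg h01,
        Decomp.comp_of_mem _ (Decomp.comp_mem _ o₂ X), if_neg h02, smul_zero, sub_zero, smul_zero,
        add_zero] at e2
      exact hz0 h12 ((smul_eq_zero.1 e2).resolve_right (hX0 o₀))
    push Not at hfixπ
    obtain ⟨l, hl⟩ := hfixπ
    obtain ⟨c₀, hc₀, d₀, hd₀, hcd⟩ := exists_member_pair h hsplit l
    obtain ⟨p₁, q₁, e₁⟩ := hdiff c₀
    obtain ⟨p₂, q₂, e₂⟩ := hdiff d₀
    obtain ⟨o, -, ho⟩ := Finset.exists_mem_notMem_of_card_lt_card (s := ({l, π l} : Finset (Fin t)))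
      (t := Finset.univ) (by
        rw [Finset.card_univ, Fintype.card_fin]
        exact lt_of_le_of_lt Finset.card_le_two (by omega))
    simp only [Finset.mem_insert, Finset.mem_singleton, not_or] at ho
    set d := q₂ • c₀ + (-q₁) • d₀ with hddef
    have hdl : d ∈ D l := (D l).add_mem ((D l).smul_mem _ hc₀) ((D l).smul_mem _ hd₀)
    have hcd0 : ∀ z ∈ D l, cp o (ap (rf Q X * rf Q Y) z - z) = 0 := fun z hz => by
      rw [map_sub, Decomp.comp_of_mem _ (hm l z hz), if_neg ho.2, Decomp.comp_of_mem _ hz,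
        if_neg ho.1, sub_zero]
    have hzero : ∀ z ∈ D l, ap (rf Q X * rf Q Y) z - z = 0 → z = 0 := fun z hz e0 => by
      have e1 := congrArg (cp l) e0
      rwa [map_sub, Decomp.comp_of_mem _ (hm l z hz), if_neg (Ne.symm hl),
        Decomp.comp_of_mem _ hz, if_pos rfl, map_zero, zero_sub, neg_eq_zero] at e1
    have ed : ap (rf Q X * rf Q Y) d - d = ap g ((q₂ * p₁ - q₁ * p₂) • x) := by
      rw [hddef, ap_add, ap_smul, ap_smul,
        show q₂ • ap (rf Q X * rf Q Y) c₀ + (-q₁) • ap (rf Q X * rf Q Y) d₀ -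
            (q₂ • c₀ + (-q₁) • d₀) = q₂ • (ap (rf Q X * rf Q Y) c₀ - c₀) +
            (-q₁) • (ap (rf Q X * rf Q Y) d₀ - d₀) by module, e₁, e₂, ← ap_smul, ← ap_smul,
        ← ap_add]
      congr 1; module
    by_cases hdet : q₂ * p₁ - q₁ * p₂ = 0
    · have hd0 := hzero d hdl (by rw [ed, hdet, zero_smul, ap_zero])
      rw [hddef] at hd0
      have hq2 := hcd.polar_right q₂ (-q₁)
      have hq1 := hcd.polar_left q₂ (-q₁)
      rw [hd0] at hq2 hq1
      simp [polar] at hq2 hq1
      rw [hq1, zero_smul, add_zero, ap_smul] at e₁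
      have hp1 : p₁ ≠ 0 := fun e0 => hcd.fst_ne (hzero c₀ hc₀ (by rw [e₁, e0, zero_smul]))
      have := hcd0 c₀ hc₀
      rw [e₁, map_smul] at this
      exact hX0 o ((smul_eq_zero.1 this).resolve_left hp1)
    · have := hcd0 d hdl
      rw [ed, ap_smul, map_smul] at this
      exact hX0 o ((smul_eq_zero.1 this).resolve_left hdet)
  have h2 : ∀ {A B C : F}, A ≠ 0 → B ≠ 0 → C ≠ 0 →
      IsSquare (A / B) ∨ IsSquare (A / C) ∨ IsSquare (B / C) := by
    intro A B C hA hB hC
    by_cases hch : ringChar F = 2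
    · exact Or.inl (FiniteField.isSquare_of_char_two hch _)
    have hm : ∀ {A B : F}, A ≠ 0 → B ≠ 0 → ¬ IsSquare (A / B) →
        quadraticChar F A = -quadraticChar F B := by
      intro A B hA hB hn
      have e1 := quadraticChar_neg_one_iff_not_isSquare.2 hn
      rw [show A = A / B * B by rw [div_mul_cancel₀ _ hB], map_mul, e1]
      ring
    by_contra! hall
    have e1 := hm hA hB hall.1
    have e2 := hm hA hC hall.2.1
    have e3 := hm hB hC hall.2.2
    rcases quadraticChar_dichotomy hC with e | e <;> rw [e] at e2 e3 <;> rw [e2, e3] at e1 <;>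
      norm_num at e1
  rcases h2 hi hj hk with e | e | e
  · exact hclass hij hi hj e
  · exact hclass hik hi hk e
  · exact hclass hjk hj hk e

end

end CfsgLib.Geometric.Orth.Blocks
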