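import Cfsg.Agent.Lib.Geometric.Orth.Blocks.SupportPlane

/-!
Rotations of a hyperbolic pair; one of order at least three that preserves a decomposition into
planes has its pair inside one member. Linked vectors with a zero component from conjugate
rotations.
-/

set_option autoImplicit false
set_option linter.unusedSectionVars false

namespace CfsgLib.Geometric.Orth.Blocks

open Matrix QuadraticMap CfsgLib.ClassicalForms
open CfsgLib.Geometric.Orth.Frame (rf_mul_self rf_mul_self_left rf_inv conj_rf rf_neg)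

variable {ι : Type} [Fintype ι] [DecidableEq ι] {F : Type*} [Field F]
variable {Q : QuadraticForm F (ι → F)}

/-- Two singular vectors pairing to one. -/
structure HPair (Q : QuadraticForm F (ι → F)) (e f : ι → F) : Prop where
  qe : Q e = 0
  qf : Q f = 0
  ef : polar Q e f = 1

/-- The rotation of a hyperbolic pair multiplying the first vector by `s * s`. -/
noncomputable def hrot (Q : QuadraticForm F (ι → F)) (e f : ι → F) (s : F) : GL ι F :=
  rf Q (e + f) * rf Q (s⁻¹ • e + s • f)

variable {e f : ι → F} (he : HPair Q e f)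
include he

lemma HPair.value (a b : F) : Q (a • e + b • f) = a * b := by
  rw [QuadraticMap.map_add (⇑Q), QuadraticMap.map_smul, QuadraticMap.map_smul, polar_smul_left,
    polar_smul_right, he.qe, he.qf, he.ef]
  simp

lemma HPair.ee : polar Q e e = 0 := by rw [polar_self_mul, he.qe, mul_zero]

lemma HPair.ff : polar Q f f = 0 := by rw [polar_self_mul, he.qf, mul_zero]

lemma HPair.fe : polar Q f e = 1 := by rw [polar_comm, he.ef]

lemma HPair.polar_left (a b : F) : polar Q (a • e + b • f) e = b := by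
  rw [polar_add_left, polar_smul_left, polar_smul_left, he.ee, he.fe]; simp

lemma HPair.polar_right (a b : F) : polar Q (a • e + b • f) f = a := by
  rw [polar_add_left, polar_smul_left, polar_smul_left, he.ef, he.ff]; simp

lemma HPair.fst_ne : e ≠ 0 := fun h => one_ne_zero (α := F) (by rw [← he.ef, h]; simp [polar])

lemma HPair.ap {g : GL ι F} (hg : g ∈ Cfsg.isometryGroup F (⇑Q)) :
    HPair Q (Geometric.ap g e) (Geometric.ap g f) :=
  ⟨by rw [mem_isometryGroup_iff.mp hg, he.qe], by rw [mem_isometryGroup_iff.mp hg, he.qf],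
    by rw [polar_ap hg, he.ef]⟩

lemma ap_hrot {s : F} (hs : s ≠ 0) (x : ι → F) : ap (hrot Q e f s) x =
    x + ((s * s - 1) * polar Q x f) • e + (((s * s)⁻¹ - 1) * polar Q x e) • f := by
  have e1 : Q (e + f) = 1 := by
    rw [← one_smul F e, ← one_smul F f, he.value, mul_one]
  have e2 : Q (s⁻¹ • e + s • f) = 1 := by rw [he.value, inv_mul_cancel₀ hs]
  rw [hrot, ap_mul, ap_rf, ap_rf, e1, e2]
  simp only [inv_one, one_mul, polar_sub_left, polar_add_left, polar_add_right, polar_smul_left,
    polar_smul_right, smul_eq_mul, he.ee, he.ff, he.ef, he.fe]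
  match_scalars <;> field_simp <;> ring

lemma hrot_fix {s : F} (hs : s ≠ 0) {x : ι → F} (h1 : polar Q x e = 0) (h2 : polar Q x f = 0) :
    ap (hrot Q e f s) x = x := by
  rw [ap_hrot he hs, h1, h2]; simp

lemma hrot_fst {s : F} (hs : s ≠ 0) : ap (hrot Q e f s) e = (s * s) • e := by
  rw [ap_hrot he hs, he.ef, he.ee]; module

lemma hrot_snd {s : F} (hs : s ≠ 0) : ap (hrot Q e f s) f = (s * s)⁻¹ • f := by
  rw [ap_hrot he hs, he.ff, he.fe]; module

omit he in
lemma conj_hrot {g : GL ι F} (hg : g ∈ Cfsg.isometryGroup F (⇑Q)) (e f : ι → F) (s : F) :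
    g * hrot Q e f s * g⁻¹ = hrot Q (ap g e) (ap g f) s := by
  have h1 := conj_rf hg (e + f)
  have h2 := conj_rf hg (s⁻¹ • e + s • f)
  rw [ap_add] at h1
  rw [ap_add, ap_smul, ap_smul] at h2
  rw [hrot, hrot, ← h1, ← h2]
  group

omit he

variable [Fintype F] {t : ℕ} {D : Fin t → Submodule F (ι → F)} {M : Subgroup (GL ι F)}
variable (h : Over Q 2 D M)

local notation3 "cp" => Decomp.comp (Over.dec h).decomp.decomp

include h

lemma hrot_mem {i : Fin t} (hei : e ∈ D i) (hfi : f ∈ D i) (he : HPair Q e f) {s : F}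
    (hs : s ≠ 0) : hrot Q e f s ∈ M := by
  refine h.pair_mem ((D i).add_mem hei hfi) ((D i).add_mem ((D i).smul_mem _ hei)
    ((D i).smul_mem _ hfi)) ?_ ?_
  · rw [← one_smul F e, ← one_smul F f, he.value, mul_one]; exact one_ne_zero
  · rw [← one_smul F e, ← one_smul F f, he.value, mul_one, one_smul, one_smul, he.value,
      inv_mul_cancel₀ hs]

lemma exists_partner_pair {i : Fin t} (hei : e ∈ D i) (he0 : e ≠ 0) (hQe : Q e = 0) :
    ∃ f ∈ D i, HPair Q e f := by
  obtain ⟨y, hy, hey, -⟩ := (plane_member h i).partner hei he0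
  refine ⟨y - Q y • e, (D i).sub_mem hy ((D i).smul_mem _ hei), hQe, ?_, ?_⟩
  · rw [CfsgLib.ClassicalForms.map_sub_eq, QuadraticMap.map_smul, polar_smul_right, hQe,
      polar_comm Q y e, hey]
    simp
  · rw [polar_sub_right, polar_smul_right, polar_self_mul, hQe, hey]; simp

lemma pair_rep {i : Fin t} (hei : e ∈ D i) (hfi : f ∈ D i) (he : HPair Q e f) {x : ι → F}
    (hx : x ∈ D i) : x = polar Q x f • e + polar Q x e • f := by
  refine (sub_eq_zero.1 ((plane_member h i).eq_zero hei hfi (fun s hs => ?_) he.fst_ne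
    ((D i).sub_mem hx ((D i).add_mem ((D i).smul_mem _ hei) ((D i).smul_mem _ hfi))) ?_ ?_))
  · have := he.ef
    rw [hs, polar_smul_right, he.ee, smul_zero] at this
    exact zero_ne_one this
  · rw [polar_sub_left, he.polar_left, sub_self]
  · rw [polar_sub_left, he.polar_right, sub_self]

lemma exists_member_pair (hsplit : ∀ i, ¬ Aniso Q (D i)) (i : Fin t) :
    ∃ e ∈ D i, ∃ f ∈ D i, HPair Q e f := by
  have := hsplit i
  simp only [Aniso, not_forall] at this
  obtain ⟨e, he, hQe, he0⟩ := this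
  obtain ⟨f, hf, hef⟩ := exists_partner_pair h he he0 hQe
  exact ⟨e, he, f, hf, hef⟩

lemma eq_zero_of_orth {i : Fin t} {x : ι → F} (hx : x ∈ D i) (hperp : ∀ z ∈ D i, polar Q x z = 0) :
    x = 0 := by
  by_contra hx0
  obtain ⟨z, hz, hxz⟩ := (h.dec.decomp.nondegenerate i x hx hx0).2
  exact hxz (hperp z hz)

lemma comp_eq_zero_of_orth {i : Fin t} {x : ι → F} (hperp : ∀ z ∈ D i, polar Q x z = 0) :
    cp i x = 0 :=
  eq_zero_of_orth h (Decomp.comp_mem _ i x) fun z hz => by rw [← polar_comp h.dec x hz, hperp z hz]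

lemma stab_of_maps {g : GL ι F} (hg : ∀ i, ∃ r, ∀ x ∈ D i, ap g x ∈ D r) :
    g ∈ Cfsg.Geo.decompositionStabilizer D := by
  choose π hπ using hg
  have hd := h.dec.decomp.decomp
  have hmap : ∀ l, (D l).map (apEquiv g).toLinearMap = D (π l) := fun l =>
    Submodule.eq_of_le_of_finrank_eq (fun _ ⟨x, hx, e⟩ => e ▸ hπ l x hx)
      ((LinearEquiv.finrank_map_eq _ _).trans (by simp only [hd.finrank_eq]))
  have hinj : Function.Injective π := fun a b hab => by
    by_contra hne
    obtain ⟨x, hx, hx0⟩ := Decomp.exists_ne_zero_mem hd a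
    obtain ⟨y, hy, hyx⟩ := ((hmap b).trans (congrArg D hab.symm)).ge (hπ a x hx)
    have hxy : y = x := ap_injective g hyx
    subst hxy
    have h1 := Decomp.comp_of_mem hd (i := a) hx
    rw [Decomp.comp_of_mem hd (i := a) hy, if_pos rfl, if_neg hne] at h1
    exact hx0 h1.symm
  exact mem_decompStab hd (π := Equiv.ofBijective π (Finite.injective_iff_bijective.1 hinj)) hπ

/-- A rotation by a value other than `0`, `1`, `-1` preserving the members moves only one of them. -/
theorem member_of_hrot_mem (hsplit : ∀ i, ¬ Aniso Q (D i)) {E G : ι → F} (hEG : HPair Q E G)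
    {s : F} (hs : s ≠ 0) (h1 : s * s ≠ 1) (h1' : s * s ≠ -1)
    (hst : hrot Q E G s ∈ Cfsg.Geo.decompositionStabilizer D) : ∃ r, E ∈ D r ∧ G ∈ D r := by
  classical
  have hd := h.dec.decomp.decomp
  obtain ⟨π, hπ⟩ := hst
  set w := hrot Q E G s with hw
  set C := s * s with hC
  have hC0 : C ≠ 0 := mul_ne_zero hs hs
  have hm : ∀ i, ∀ x ∈ D i, ap w x ∈ D (π i) := fun i x hx => by
    rw [← hπ i]; exact ⟨x, hx, rfl⟩
  have happ : ∀ x, ap w x = x + ((C - 1) * polar Q x G) • E + ((C⁻¹ - 1) * polar Q x E) • G :=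
    ap_hrot hEG hs
  by_cases hfix : ∀ i, π i = i
  · have hcomm : ∀ r x, cp r (ap w x) = ap w (cp r x) :=
      fun r x => comp_ap h.dec (fun i x hx => by simpa [hfix i] using hm i x hx) r x
    have hCinv : C - C⁻¹ ≠ 0 := fun e0 => by
      have h' : (C - 1) * (C + 1) = 0 := by
        field_simp at e0
        linear_combination e0
      rcases mul_eq_zero.1 h' with e1 | e1
      · exact h1 (sub_eq_zero.1 e1)
      · exact h1' (eq_neg_of_add_eq_zero_left e1)
    have hone : ∀ r, polar Q (cp r E) E = 0 ∧ cp r E = polar Q (cp r E) G • E := by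
      intro r
      have e0 := hcomm r E
      rw [hw, hrot_fst hEG hs, map_smul, ← hC, ← hw, happ] at e0
      have e1 := congrArg (fun z => polar Q z E) e0
      simp only [polar_smul_left, polar_add_left, smul_eq_mul, hEG.ee, hEG.fe] at e1
      have hz : polar Q (cp r E) E = 0 :=
        (mul_eq_zero.1 (show (C - C⁻¹) * polar Q (cp r E) E = 0 by linear_combination e1)).resolve_left
          hCinv
      refine ⟨hz, smul_right_injective _ (sub_ne_zero.2 h1) ?_⟩
      rw [hz] at e0
      simp only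
      linear_combination (norm := module) e0
    have htwo : ∀ r, cp r G = polar Q (cp r G) E • G := by
      intro r
      have e0 := hcomm r G
      rw [hw, hrot_snd hEG hs, map_smul, ← hC, ← hw, happ] at e0
      have e1 := congrArg (fun z => polar Q z G) e0
      simp only [polar_smul_left, polar_add_left, smul_eq_mul, hEG.ff, hEG.ef] at e1
      have hz : polar Q (cp r G) G = 0 :=
        (mul_eq_zero.1 (show (C - C⁻¹) * polar Q (cp r G) G = 0 by linear_combination -e1)).resolve_left
          hCinv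
      refine smul_right_injective _ (sub_ne_zero.2 (fun e2 : C⁻¹ = 1 => h1 (inv_eq_one.1 e2))) ?_
      rw [hz] at e0
      simp only
      linear_combination (norm := module) e0
    have hmemb : ∀ {x : ι → F}, x ≠ 0 → (∀ r, ∃ l : F, cp r x = l • x) → ∃ r, x ∈ D r := by
      intro x hx0 hall
      obtain ⟨r, hr⟩ : ∃ r, cp r x ≠ 0 := by
        by_contra! h0
        exact hx0 (by rw [← Decomp.sum_comp hd x]; exact Finset.sum_eq_zero fun r _ => h0 r)
      obtain ⟨l, hl⟩ := hall r
      have hl0 : l ≠ 0 := fun e0 => hr (by rw [hl, e0, zero_smul])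
      refine ⟨r, ?_⟩
      have := (D r).smul_mem l⁻¹ (Decomp.comp_mem hd r x)
      rwa [hl, inv_smul_smul₀ hl0] at this
    obtain ⟨r, hr⟩ := hmemb hEG.fst_ne fun r => ⟨_, (hone r).2⟩
    obtain ⟨r', hr'⟩ := hmemb (fun e0 => one_ne_zero (α := F)
      (by rw [← hEG.ef, e0]; simp [polar])) fun r => ⟨_, htwo r⟩
    by_cases hrr : r = r'
    · exact ⟨r, hr, hrr ▸ hr'⟩
    · exact absurd (hEG.ef.symm.trans (orth_apply_blocks h.dec hrr hr hr')) one_ne_zero
  push Not at hfix
  obtain ⟨r, hr⟩ := hfix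
  exfalso
  obtain ⟨a, ha, b, hb, hab⟩ := exists_member_pair h hsplit r
  have hne' : π (π r) ≠ π r := fun e0 => hr (π.injective e0)
  -- a combination sent to a multiple of `E` or `G` vanishes
  have key : ∀ (d : ι → F), d ∈ D r → ∀ (μ : F), μ + 1 ≠ 0 →
      ap w (ap w d - d) = μ • (ap w d - d) → d = 0 := by
    intro d hd' μ hμ e0
    have e1 := congrArg (cp (π r)) e0
    rw [map_smul, ap_sub, map_sub, map_sub, Decomp.comp_of_mem hd (hm _ _ (hm r d hd')),
      if_neg (Ne.symm hne'), Decomp.comp_of_mem hd (hm r d hd'), if_pos rfl,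
      Decomp.comp_of_mem hd hd', if_neg hr] at e1
    have : (μ + 1) • ap w d = 0 := by linear_combination (norm := module) -e1
    exact ap_injective w (((smul_eq_zero.1 this).resolve_left hμ).trans (ap_zero w).symm)
  have hlin : ∀ p q : F, ap w (p • a + q • b) - (p • a + q • b) =
      (p * ((C - 1) * polar Q a G) + q * ((C - 1) * polar Q b G)) • E +
        (p * ((C⁻¹ - 1) * polar Q a E) + q * ((C⁻¹ - 1) * polar Q b E)) • G := by
    intro p q
    rw [ap_add, ap_smul, ap_smul, happ, happ]
    module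
  have hmul : ∀ p q : F, p • a + q • b = 0 → p = 0 ∧ q = 0 := fun p q e0 => by
    have e1 := hab.polar_right p q
    have e2 := hab.polar_left p q
    rw [e0] at e1 e2
    simp [polar] at e1 e2
    exact ⟨e1.symm, e2.symm⟩
  have hmemr : ∀ p q : F, p • a + q • b ∈ D r := fun p q =>
    (D r).add_mem ((D r).smul_mem p ha) ((D r).smul_mem q hb)
  obtain ⟨b2, b1⟩ := hmul _ _ (key _ (hmemr ((C⁻¹ - 1) * polar Q b E) (-((C⁻¹ - 1) * polar Q a E)))
    C (fun e0 => h1' (eq_neg_of_add_eq_zero_left e0)) (by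
      rw [hlin, ap_add, ap_smul, ap_smul, hrot_fst hEG hs, hrot_snd hEG hs]; module))
  obtain ⟨a2, a1⟩ := hmul _ _ (key _ (hmemr ((C - 1) * polar Q b G) (-((C - 1) * polar Q a G)))
    C⁻¹ (fun e0 => h1' (by
      have := eq_neg_of_add_eq_zero_left e0
      rw [← inv_inv C, this, inv_neg, inv_one])) (by
      rw [hlin, ap_add, ap_smul, ap_smul, hrot_fst hEG hs, hrot_snd hEG hs]; module))
  have hwa : ap w a = a := by
    rw [happ, neg_eq_zero.1 b1, neg_eq_zero.1 a1]; simp
  have := hm r a ha
  rw [hwa] at this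
  have e1 := Decomp.comp_of_mem hd (i := r) this
  rw [Decomp.comp_of_mem hd ha, if_pos rfl, if_neg (Ne.symm hr)] at e1
  exact hab.fst_ne e1

/-- A suitable rotation. -/
lemma exists_scale (hq : 7 ≤ Fintype.card F) : ∃ s : F, s ≠ 0 ∧ s * s ≠ 1 ∧ s * s ≠ -1 := by
  classical
  have hb : ∀ e : F, (Finset.univ.filter fun m : F => m * m = e).card ≤ 2 := fun e => by
    rcases (Finset.univ.filter fun m : F => m * m = e).eq_empty_or_nonempty with h0 | ⟨m₀, hm₀⟩
    · simp [h0]
    refine (Finset.card_le_card (t := {m₀, -m₀}) fun m hm => ?_).trans Finset.card_le_two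
    simp at hm hm₀
    rw [Finset.mem_insert, Finset.mem_singleton]
    exact mul_self_eq_mul_self_iff.1 (hm.trans hm₀.symm)
  obtain ⟨m, -, hm⟩ := Finset.exists_mem_notMem_of_card_lt_card
    (s := (Finset.univ.filter fun m : F => m * m = 1) ∪
      (Finset.univ.filter fun m : F => m * m = -1) ∪ {0}) (t := Finset.univ) (by
      have := hb 1
      have := hb (-1)
      have := Finset.card_union_le ((Finset.univ.filter fun m : F => m * m = 1) ∪
        (Finset.univ.filter fun m : F => m * m = -1)) {0}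
      have := Finset.card_union_le (Finset.univ.filter fun m : F => m * m = 1)
        (Finset.univ.filter fun m : F => m * m = -1)
      rw [Finset.card_univ]
      simp only [Finset.card_singleton] at *
      omega)
  simp only [Finset.mem_union, Finset.mem_filter, Finset.mem_univ, true_and, Finset.mem_singleton,
    not_or] at hm
  exact ⟨m, hm.2, hm.1.1, hm.1.2⟩

/-- Outside the stabiliser some member vector of a given value leaves the members. -/
lemma exists_moved_value (hq : 7 ≤ Fintype.card F) (hsplit : ∀ i, ¬ Aniso Q (D i)) {w : GL ι F}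
    (hw : w ∈ Cfsg.isometryGroup F (⇑Q)) (hst : w ∉ Cfsg.Geo.decompositionStabilizer D) {c : F}
    (hc : c ≠ 0) : ∃ i, ∃ a ∈ D i, Q a = c ∧ ∀ r, ap w a ∉ D r := by
  by_contra! hall
  refine hst (stab_of_maps h fun i => ?_)
  obtain ⟨e, hei, f, hfi, hef⟩ := exists_member_pair h hsplit i
  obtain ⟨s, hs, hs1, hs2⟩ := exists_scale h hq
  have hv : ∀ p q : F, p • e + q • f ∈ D i := fun p q =>
    (D i).add_mem ((D i).smul_mem p hei) ((D i).smul_mem q hfi)
  obtain ⟨r, hr⟩ := hall i _ (hv 1 c) (by rw [hef.value, one_mul])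
  obtain ⟨r', hr'⟩ := hall i _ (hv s (c / s)) (by rw [hef.value, mul_div_cancel₀ _ hs])
  have hB : polar Q ((1 : F) • e + c • f) (s • e + (c / s) • f) ≠ 0 := by
    rw [polar_add_right, polar_smul_right, polar_smul_right, hef.polar_left, hef.polar_right,
      smul_eq_mul, smul_eq_mul, mul_one]
    intro e0
    field_simp at e0
    exact hs2 (mul_left_cancel₀ hc (by linear_combination e0))
  have hrr : r' = r := by
    by_contra hne
    exact hB (by rw [← polar_ap hw]; exact orth_apply_blocks h.dec (Ne.symm hne) hr hr')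
  rw [hrr] at hr'
  rw [ap_add, ap_smul, ap_smul] at hr hr'
  have hd0 : s * s - 1 ≠ 0 := sub_ne_zero.2 hs1
  have he' : ap w e ∈ D r := by
    have := (D r).smul_mem (s * s - 1)⁻¹ ((D r).sub_mem ((D r).smul_mem s hr') hr)
    have e1 : s • (s • ap w e + (c / s) • ap w f) - ((1 : F) • ap w e + c • ap w f) =
        (s * s - 1) • ap w e := by
      match_scalars <;> field_simp <;> ring
    rwa [e1, inv_smul_smul₀ hd0] at this
  have hf' : ap w f ∈ D r := by
    have := (D r).smul_mem c⁻¹ ((D r).sub_mem hr ((D r).smul_mem (1 : F) he'))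
    convert this using 1
    match_scalars <;> field_simp <;> ring
  refine ⟨r, fun x hx => ?_⟩
  rw [pair_rep h hei hfi hef hx, ap_add, ap_smul, ap_smul]
  exact (D r).add_mem ((D r).smul_mem _ he') ((D r).smul_mem _ hf')

/-- Some linked vector outside the members has a zero component. -/
def Gap : Prop := ∃ x, Cls Q M D x ∧ (∀ r, x ∉ D r) ∧ ∃ j, cp j x = 0

/-- A member whose image misses a member and lies in none gives such a vector. -/
theorem gap_of_block (hq : 7 ≤ Fintype.card F) (hsplit : ∀ i, ¬ Aniso Q (D i)) {g : GL ι F}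
    (hg : g ∈ M) {i m : Fin t} {e f : ι → F} (hei : e ∈ D i) (hfi : f ∈ D i) (he : HPair Q e f)
    (hze : cp m (ap g e) = 0) (hzf : cp m (ap g f) = 0)
    (hno : ∀ r, ¬ (ap g e ∈ D r ∧ ap g f ∈ D r)) : Gap h := by
  obtain ⟨s, hs, hs1, hs2⟩ := exists_scale h hq
  set w := g * hrot Q e f s * g⁻¹ with hw
  have hwM : w ∈ M := mul_mem (mul_mem hg (hrot_mem h hei hfi he hs)) (inv_mem hg)
  have hweq : w = hrot Q (ap g e) (ap g f) s := conj_hrot (h.isom hg) e f s
  have hgp := he.ap (h.isom hg)
  have hst : w ∉ Cfsg.Geo.decompositionStabilizer D := fun hmem => by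
    rw [hweq] at hmem
    obtain ⟨r, hr⟩ := member_of_hrot_mem h hsplit hgp hs hs1 hs2 hmem
    exact hno r hr
  have hfix : ∀ z ∈ D m, ap w z = z := fun z hz => by
    rw [hweq]
    exact hrot_fix hgp hs
      (by rw [polar_comm]; exact polar_eq_zero_of_comp h hz hze)
      (by rw [polar_comm]; exact polar_eq_zero_of_comp h hz hzf)
  obtain ⟨v, hv, hQv⟩ := h.value m (1 : F)
  obtain ⟨l, a, ha, hQa, hwa⟩ := exists_moved_value h hq hsplit (h.isom hwM) hst one_ne_zero
  have hlm : l ≠ m := fun e0 => hwa m (by rw [hfix a (e0 ▸ ha)]; exact e0 ▸ ha)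
  refine ⟨ap w a, ?_, hwa, m, comp_eq_zero_of_orth h fun z hz => ?_⟩
  · exact Cls.ap h hwM (Cls.of_mem hv (by rw [hQv]; exact one_ne_zero))
      (by rw [hfix v hv]; exact Cls.of_mem hv (by rw [hQv]; exact one_ne_zero))
      (Cls.of_mem ha (by rw [hQa]; exact one_ne_zero)) (hQv.trans hQa.symm)
  · rw [← hfix z hz, polar_ap (h.isom hwM)]
    exact orth_apply_blocks h.dec hlm ha hz

end CfsgLib.Geometric.Orth.Blocks
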