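import Cfsg.Agent.Lib.Geometric.Orth.Blocks.Moves

/-!
From a linked vector to one meeting exactly two members: the common step and the case of members
of dimension at least four in characteristic two.
-/

namespace CfsgLib.Geometric.Orth.Blocks

open Matrix QuadraticMap CfsgLib.ClassicalForms

variable {ι : Type} [Fintype ι] [DecidableEq ι] {F : Type*} [Field F]
variable {Q : QuadraticForm F (ι → F)} {t k : ℕ} {D : Fin t → Submodule F (ι → F)}
variable {M : Subgroup (GL ι F)} (h : Over Q k D M)

local notation3 "cp" => Decomp.comp (Over.dec h).decomp.decomp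

/-- Some linked vector of value `c` has non-zero components in exactly two members. -/
def Two (Q : QuadraticForm F (ι → F)) (M : Subgroup (GL ι F))
    (D : Fin t → Submodule F (ι → F)) (c : F) : Prop :=
  ∃ i j, i ≠ j ∧ ∃ a ∈ D i, ∃ b ∈ D j, a ≠ 0 ∧ b ≠ 0 ∧ Q a + Q b = c ∧ Cls Q M D (a + b)

include h
variable [Finite F]

/-- The common step. -/
lemma two_of_sum {x y : ι → F} (hx : Cls Q M D x) (hy : Cls Q M D y) (hyx : Q y = Q x)
    {i j : Fin t} (hij : i ≠ j) {p q : ι → F} (hp : p ∈ D i) (hq : q ∈ D j)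
    (hyval : y = x - cp i x + p - cp j x + q) (hpi : p ≠ cp i x) (hqj : q ≠ cp j x)
    (hsum : Q (p - cp i x) + Q (q - cp j x) = Q x) : Two Q M D (Q x) := by
  have ha : p - cp i x ∈ D i := (D i).sub_mem hp (Decomp.comp_mem _ i x)
  have hb : q - cp j x ∈ D j := (D j).sub_mem hq (Decomp.comp_mem _ j x)
  refine ⟨i, j, hij, _, ha, _, hb, sub_ne_zero.2 hpi, sub_ne_zero.2 hqj, hsum, ?_⟩
  have hd : y - x = (p - cp i x) + (q - cp j x) := by rw [hyval]; abel
  have hQd : Q (y - x) = Q x := by
    rw [hd, QuadraticMap.map_add (⇑Q), orth_apply_blocks h.dec hij ha hb, add_zero, hsum]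
  have hB : polar Q y x = Q x := by
    rw [CfsgLib.ClassicalForms.map_sub_eq, hyx] at hQd
    linear_combination -hQd
  have := Cls.reflect h hy hx (s := 1) (by rw [one_mul, one_mul, hyx])
  rwa [ap_rf, hB, inv_mul_cancel₀ hx.1, one_smul, hd] at this

omit [Finite F] in
/-- One reflection replaces a component. -/
lemma Flex.step {J : Finset (Fin t)} {x y : ι → F} (hf : Flex h J x) (hy : Cls Q M D y)
    (hyx : Q y = Q x) {β : F} (hcomp : ∀ l ∈ J, cp l y = β • cp l x) {i : Fin t} (hi : i ∉ J)
    {p : ι → F} (hp : p ∈ D i) (hQ : Q p = Q (cp i y)) (hd : Q (cp i y - p) ≠ 0) :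
    Cls Q M D (y - cp i y + p) ∧ Q (y - cp i y + p) = Q x ∧
      (∀ l, cp l (y - cp i y + p) = if l = i then p else cp l y) := by
  have hc : ∀ l, cp l (y - cp i y + p) = if l = i then p else cp l y := fun l => by
    rw [map_add, map_sub, Decomp.comp_of_mem _ (Decomp.comp_mem _ i y), Decomp.comp_of_mem _ hp]
    split_ifs with e
    · subst e; abel
    · abel
  refine ⟨?_, ?_, hc⟩
  · have := hf y hy hyx β hcomp i hi (cp i y - p) ((D i).sub_mem (Decomp.comp_mem _ i y) hp) hd
    convert this using 1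
    rw [ap_rf, polar_comp h.dec y ((D i).sub_mem (Decomp.comp_mem _ i y) hp),
      show polar Q (cp i y) (cp i y - p) = Q (cp i y - p) by
        rw [polar_sub_right, polar_self_mul, CfsgLib.ClassicalForms.map_sub_eq, hQ]; ring,
      inv_mul_cancel₀ hd, one_smul]
    abel
  · rw [value_split h i (y - cp i y + p), hc i, if_pos rfl, add_sub_cancel_right, hQ, ← hyx,
      ← value_split h i y]

omit [DecidableEq ι] h [Finite F] in
/-- The orthogonal complement of a pair with pairing one, in characteristic two. -/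
lemma nondeg_perp_pair {W : Submodule F (ι → F)}
    (hW : Cfsg.Geo.IsNondegenerateOn (polar (⇑Q)) W) (h2 : (2 : F) = 0) {u y : ι → F} (hu : u ∈ W)
    (hy : y ∈ W) (huy : polar Q u y = 1) :
    let W' := W ⊓ LinearMap.ker (pf Q u) ⊓ LinearMap.ker (pf Q y)
    Cfsg.Geo.IsNondegenerateOn (polar (⇑Q)) W' ∧
      Module.finrank F W ≤ Module.finrank F W' + 2 := by
  intro W'
  refine ⟨fun z hz hz0 => ?_, ?_⟩
  · obtain ⟨x, hx, hzx⟩ := (hW z hz.1.1 hz0).2
    have hzu : polar Q z u = 0 := hz.1.2
    have hzy : polar Q z y = 0 := hz.2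
    set x' := x - polar Q x y • u - polar Q x u • y
    have hx' : x' ∈ W' := by
      refine ⟨⟨W.sub_mem (W.sub_mem hx (W.smul_mem _ hu)) (W.smul_mem _ hy), ?_⟩, ?_⟩
      · show polar Q x' u = 0
        rw [polar_sub_left, polar_sub_left, polar_smul_left, polar_smul_left, polar_self_mul,
          polar_comm Q y u, huy, h2]
        simp
      · show polar Q x' y = 0
        rw [polar_sub_left, polar_sub_left, polar_smul_left, polar_smul_left, polar_self_mul,
          huy, h2]
        simp
    have hne : polar Q z x' ≠ 0 := by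
      rw [polar_sub_right, polar_sub_right, polar_smul_right, polar_smul_right, hzu, hzy]
      simpa using hzx
    exact ⟨⟨x', hx', by rwa [polar_comm]⟩, ⟨x', hx', hne⟩⟩
  · have e1 := finrank_le_inf_ker W (pf Q u)
    have e2 := finrank_le_inf_ker (W ⊓ LinearMap.ker (pf Q u)) (pf Q y)
    show Module.finrank F W ≤ Module.finrank F ↥(W ⊓ _ ⊓ _) + 2
    omega

omit [DecidableEq ι] h in
/-- A partner, and a difference of given non-zero value pairing accordingly, in characteristic
two and dimension at least four. -/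
lemma exists_diff_large {W : Submodule F (ι → F)}
    (hW : Cfsg.Geo.IsNondegenerateOn (polar (⇑Q)) W) (hd : 4 ≤ Module.finrank F W)
    (h2 : (2 : F) = 0) {u : ι → F} (hu : u ∈ W) (hu0 : u ≠ 0) (δ : F) :
    ∃ w ∈ W, Q w = δ ∧ polar Q u w = δ := by
  classical
  obtain ⟨z, hz, hz0⟩ := (hW u hu hu0).2
  set y := (polar Q u z)⁻¹ • z
  have huy : polar Q u y = 1 := by rw [polar_smul_right, smul_eq_mul, inv_mul_cancel₀ hz0]
  obtain ⟨hW', hd'⟩ := nondeg_perp_pair hW h2 hu (W.smul_mem _ hz) huy
  obtain ⟨w', hw', hQw'⟩ := exists_value' hW' (by omega) (δ - δ * δ * Q y)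
  have hwu : polar Q w' u = 0 := hw'.1.2
  have hwy : polar Q w' y = 0 := hw'.2
  refine ⟨δ • y + w', W.add_mem (W.smul_mem _ (W.smul_mem _ hz)) hw'.1.1, ?_, ?_⟩
  · rw [QuadraticMap.map_add (⇑Q), QuadraticMap.map_smul, polar_smul_left, polar_comm Q y w', hwy,
      hQw', smul_eq_mul, smul_zero]
    ring
  · rw [polar_add_right, polar_smul_right, huy, polar_comm Q u w', hwu, smul_eq_mul]
    ring

/-- Members of dimension at least four in characteristic two. -/
theorem two_of_large (h2 : (2 : F) = 0) (hk : 4 ≤ k) (hev : Even k)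
    (hex : Nat.card F = 2 → k = 4 → ∀ i, ¬ Cfsg.Geo.IsPlusTypeOn (⇑Q) (D i))
    {x : ι → F} (hx : Cls Q M D x) (hnb : ∀ i, x ∉ D i) : Two Q M D (Q x) := by
  classical
  have hW := fun i => h.dec.decomp.nondegenerate i
  have hdim : ∀ i, 4 ≤ Module.finrank F (D i) := fun i => by
    rw [h.dec.decomp.decomp.finrank_eq]; exact hk
  have hf := flex_of_two h h2 x
  have hsum := Decomp.sum_comp h.dec.decomp.decomp x
  obtain ⟨i, hi⟩ : ∃ i, cp i x ≠ 0 := by
    by_contra! h0
    refine hx.1 ?_
    rw [← hsum, Finset.sum_eq_zero fun l _ => h0 l, QuadraticMap.map_zero]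
  have hother : ∀ i, ∃ j, j ≠ i ∧ cp j x ≠ 0 := fun i => by
    by_contra! h0
    refine hnb i ?_
    rw [← hsum, Finset.sum_eq_single i (fun l _ hl => h0 l hl) (by simp)]
    exact Decomp.comp_mem _ i x
  have hneg : ∀ a : ι → F, -a = a := fun a => by
    rw [neg_eq_iff_add_eq_zero, ← two_smul F, h2, zero_smul]
  -- a component replaced through a difference of non-zero value
  have hmove : ∀ (y : ι → F), Cls Q M D y → Q y = Q x → ∀ i, ∀ w ∈ D i, Q w ≠ 0 →
      polar Q (cp i y) w = Q w → Cls Q M D (y - cp i y + (cp i y + w)) ∧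
        Q (y - cp i y + (cp i y + w)) = Q x ∧
        (∀ l, cp l (y - cp i y + (cp i y + w)) = if l = i then cp i y + w else cp l y) :=
    fun y hy hyx i w hw hQw hB => hf.step h hy hyx (β := 1) (by simp) (Finset.notMem_empty i)
      ((D i).add_mem (Decomp.comp_mem _ i y) hw) (by
        rw [QuadraticMap.map_add (⇑Q), hB]; linear_combination (Q w) * h2) (by
        rw [sub_add_cancel_left, QuadraticMap.map_neg]; exact hQw)
  by_cases hq : ∃ δ : F, δ ≠ 0 ∧ δ ≠ Q x
  · obtain ⟨δ, hδ, hδ'⟩ := hq
    obtain ⟨j, hji, hj⟩ := hother i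
    obtain ⟨w, hw, hQw, hB⟩ := exists_diff_large (hW i) (hdim i) h2 (Decomp.comp_mem _ i x) hi δ
    obtain ⟨h1, hv1, hc1⟩ := hmove x hx rfl i w hw (by rwa [hQw]) (hB.trans hQw.symm)
    set y := x - cp i x + (cp i x + w)
    have hjy : cp j y = cp j x := by rw [hc1, if_neg hji]
    obtain ⟨w', hw', hQw', hB'⟩ := exists_diff_large (hW j) (hdim j) h2 (Decomp.comp_mem _ j x) hj
      (Q x - δ)
    obtain ⟨h3, hv3, -⟩ := hmove y h1 hv1 j w' hw' (by rw [hQw']; exact sub_ne_zero.2 (Ne.symm hδ'))
      (by rw [hjy, hB', hQw'])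
    refine two_of_sum h hx h3 hv3 (Ne.symm hji) ((D i).add_mem (Decomp.comp_mem _ i x) hw)
      ((D j).add_mem (Decomp.comp_mem _ j x) hw') (by rw [hjy]) (fun e => hδ ?_) (fun e => hδ' ?_) ?_
    · rw [← hQw, (add_eq_left.1 e), QuadraticMap.map_zero]
    · have h0 := hQw'
      rw [(add_eq_left.1 e), QuadraticMap.map_zero] at h0
      exact (sub_eq_zero.1 h0.symm).symm
    · rw [add_sub_cancel_left, add_sub_cancel_left, hQw, hQw']; ring
  push Not at hq
  have hone : ∀ a : F, a ≠ 0 → a = 1 := fun a ha => (hq a ha).trans (hq 1 one_ne_zero).symm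
  have hcard : Nat.card F = 2 := by
    rw [Nat.card_eq_two_iff]
    exact ⟨0, 1, zero_ne_one, Set.eq_univ_of_forall fun a => by
      by_cases ha : a = 0
      · exact Or.inl ha
      · exact Or.inr (hone a ha)⟩
  obtain ⟨j, hjQ⟩ : ∃ j, Q (cp j x) ≠ 0 := by
    by_contra! h0
    have hs : ∀ s : Finset (Fin t), Q (∑ l ∈ s, cp l x) = 0 := fun s => by
      induction s using Finset.induction_on with
      | empty => simp
      | insert a s ha ih =>
        rw [Finset.sum_insert ha, QuadraticMap.map_add (⇑Q), h0, ih, zero_add, zero_add]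
        refine (polar_comm Q _ _).trans (polar_eq_zero_of_comp h (Decomp.comp_mem _ a x) ?_)
        rw [map_sum]
        exact Finset.sum_eq_zero fun l hl => by
          rw [Decomp.comp_of_mem _ (Decomp.comp_mem _ l x), if_neg fun e : a = l => ha (by rwa [e])]
    exact hx.1 (by rw [← hsum]; exact hs Finset.univ)
  obtain ⟨i, hij, hi⟩ := hother j
  have hj : cp j x ≠ 0 := fun e => hjQ (by rw [e, QuadraticMap.map_zero])
  set v := cp j x with hv
  have hQv : Q v = 1 := hone _ hjQ
  have hx1 : Q x = 1 := hone _ hx.1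
  -- a vector `p` orthogonal to `v` of the same value and a common neighbour `m`
  obtain ⟨z, hz, hz0⟩ := (hW j v (Decomp.comp_mem _ j x) hj).2
  set yv := (polar Q v z)⁻¹ • z
  have hyv : yv ∈ D j := (D j).smul_mem _ hz
  have hvy : polar Q v yv = 1 := by rw [polar_smul_right, smul_eq_mul, inv_mul_cancel₀ hz0]
  obtain ⟨hW', hd'⟩ := nondeg_perp_pair (hW j) h2 (Decomp.comp_mem _ j x) hyv hvy
  have := hdim j
  obtain ⟨p, hp, hQp⟩ := exists_value' hW' (by omega) (1 : F)
  have hp0 : p ≠ 0 := fun e => one_ne_zero (α := F) (by rw [← hQp, e, QuadraticMap.map_zero])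
  obtain ⟨z', hz', hz'0⟩ := (hW' p hp hp0).2
  set yp := (polar Q p z')⁻¹ • z'
  have hpy : polar Q p yp = 1 := by rw [polar_smul_right, smul_eq_mul, inv_mul_cancel₀ hz'0]
  have hypW := Submodule.smul_mem _ (polar Q p z')⁻¹ hz'
  obtain ⟨hW'', hd''⟩ := nondeg_perp_pair hW' h2 hp hypW hpy
  have hvp : polar Q v p = 0 := by rw [polar_comm]; exact hp.1.2
  have hyvp : polar Q yv p = 0 := by rw [polar_comm]; exact hp.2
  have hvyp : polar Q v yp = 0 := by rw [polar_comm]; exact hypW.1.2
  have hyvyp : polar Q yv yp = 0 := by rw [polar_comm]; exact hypW.2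
  obtain ⟨m, hmD, hQm, hvm, hpm⟩ :
      ∃ m ∈ D j, Q m = 1 ∧ polar Q v m = 1 ∧ polar Q p m = 1 := by
    by_cases hy1 : Q (yv + yp) = 1
    · exact ⟨yv + yp, (D j).add_mem hyv hypW.1.1, hy1, by
        rw [polar_add_right, hvy, hvyp, add_zero], by
        rw [polar_add_right, polar_comm Q p yv, hyvp, hpy, zero_add]⟩
    have hy0 : Q (yv + yp) = 0 := by
      by_contra he; exact hy1 (hone _ he)
    by_cases hk4 : k = 4
    · refine absurd ⟨Submodule.span F (Set.range ![v + p, yv + yp]), ?_, ?_, ?_⟩ (hex hcard hk4 j)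
      · rw [Submodule.span_le]
        rintro _ ⟨l, rfl⟩
        fin_cases l
        · exact (D j).add_mem (Decomp.comp_mem _ j x) hp.1.1
        · exact (D j).add_mem hyv hypW.1.1
      · intro e he
        rw [Submodule.mem_span_range_iff_exists_fun] at he
        obtain ⟨c, rfl⟩ := he
        have e1 : Q (v + p) = 0 := by
          rw [QuadraticMap.map_add (⇑Q), hQv, hQp, hvp, add_zero, one_add_one_eq_two, h2]
        have e2 : polar Q (v + p) (yv + yp) = 0 := by
          rw [polar_add_left, polar_add_right, polar_add_right, hvy, hvyp, polar_comm Q p yv,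
            hyvp, hpy, add_zero, zero_add, one_add_one_eq_two, h2]
        rw [Fin.sum_univ_two, QuadraticMap.map_add (⇑Q), QuadraticMap.map_smul,
          QuadraticMap.map_smul, polar_smul_left, polar_smul_right]
        simp only [Matrix.cons_val_zero, Matrix.cons_val_one]
        rw [e1, e2, hy0]
        simp
      · have hli : LinearIndependent F ![v + p, yv + yp] := by
          refine linearIndependent_fin2.2 ⟨fun e => ?_, fun a e => ?_⟩
          · have := congrArg (polar Q v) (show yv + yp = 0 by simpa using e)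
            rw [polar_add_right, hvy, hvyp] at this
            simp [polar] at this
          · simp at e
            have := congrArg (polar Q v) e
            simp only [polar_add_right, polar_smul_right, hvy, hvyp, polar_self_mul, hvp, h2] at this
            simp at this
            simp only [this, zero_smul, add_zero] at e
            have := congrArg (polar Q yv) e
            rw [polar_add_right, polar_comm Q yv v, hvy, hyvp] at this
            simp [polar] at this
        rw [finrank_span_eq_card hli, h.dec.decomp.decomp.finrank_eq, hk4]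
        rfl
    obtain ⟨e, he, hQe⟩ := exists_value' hW'' (by
      have := h.dec.decomp.decomp.finrank_eq j
      obtain ⟨r, hr⟩ := hev
      omega) (1 : F)
    refine ⟨yv + yp + e, (D j).add_mem ((D j).add_mem hyv hypW.1.1) he.1.1.1.1, ?_, ?_, ?_⟩
    · rw [QuadraticMap.map_add (⇑Q), hy0, hQe, polar_add_left, polar_comm Q yv e,
        show polar Q e yv = 0 from he.1.1.2, polar_comm Q yp e,
        show polar Q e yp = 0 from he.2]
      ring
    · rw [polar_add_right, polar_add_right, hvy, hvyp, polar_comm Q v e,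
        show polar Q e v = 0 from he.1.1.1.2]
      ring
    · rw [polar_add_right, polar_add_right, polar_comm Q p yv, hyvp, hpy, polar_comm Q p e,
        show polar Q e p = 0 from he.1.2]
      ring
  obtain ⟨w, hw, hQw, hB⟩ := exists_diff_large (hW i) (hdim i) h2 (Decomp.comp_mem _ i x) hi 1
  obtain ⟨h1, hv1, hc1⟩ := hmove x hx rfl i w hw (by rw [hQw]; exact one_ne_zero)
    (hB.trans hQw.symm)
  set y := x - cp i x + (cp i x + w) with hy
  have hjy : cp j y = v := by rw [hc1, if_neg (Ne.symm hij)]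
  obtain ⟨h3, hv3, hc3⟩ := hf.step h h1 hv1 (β := 1) (by simp) (Finset.notMem_empty j) hmD
    (by rw [hjy, hQm, hQv]) (by
      rw [hjy, CfsgLib.ClassicalForms.map_sub_eq, hQv, hQm, hvm]; simp)
  set y' := y - cp j y + m with hy'
  obtain ⟨h4, hv4, -⟩ := hf.step h h3 hv3 (β := 1) (by simp) (Finset.notMem_empty j) hp.1.1
    (by rw [hc3, if_pos rfl, hQm, hQp]) (by
      rw [hc3, if_pos rfl, CfsgLib.ClassicalForms.map_sub_eq, hQm, hQp, polar_comm, hpm]; simp)
  refine two_of_sum h hx h4 hv4 hij ((D i).add_mem (Decomp.comp_mem _ i x) hw) hp.1.1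
    (by rw [hc3, if_pos rfl, hy', hjy, add_sub_cancel_right]) (fun e => ?_) (fun e => ?_) ?_
  · exact one_ne_zero (α := F) (by rw [← hQw, add_eq_left.1 e, QuadraticMap.map_zero])
  · have : polar Q p yv = polar Q v yv := by rw [e]
    rw [polar_comm Q p yv, hyvp, hvy] at this
    exact zero_ne_one this
  · rw [add_sub_cancel_left, hQw, ← hv, CfsgLib.ClassicalForms.map_sub_eq, hQp, hQv, polar_comm,
      hvp, hx1]
    linear_combination h2

end CfsgLib.Geometric.Orth.Blocks
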