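import Cfsg.Agent.Lib.Geometric.Orth.Blocks.Support

/-!
From a linked vector to one meeting exactly two members, for members of dimension two.
-/

namespace CfsgLib.Geometric.Orth.Blocks

open Matrix QuadraticMap CfsgLib.ClassicalForms

variable {ι : Type} [Fintype ι] [DecidableEq ι] {F : Type*} [Field F] [Fintype F]
variable {Q : QuadraticForm F (ι → F)} {t : ℕ} {D : Fin t → Submodule F (ι → F)}
variable {M : Subgroup (GL ι F)} (h : Over Q 2 D M)

local notation3 "cp" => Decomp.comp (Over.dec h).decomp.decomp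

include h

omit [Fintype F] in
lemma plane_member (i : Fin t) : IsPlane Q (D i) :=
  ⟨h.dec.decomp.decomp.finrank_eq i, h.dec.decomp.nondegenerate i⟩

omit [Fintype F] in
lemma aniso_member {i : Fin t} (ha : Aniso Q (D i)) (l : Fin t) : Aniso Q (D l) := fun x hx hQx => by
  obtain ⟨φ, hφ⟩ := h.dec.isometric l i
  have := ha _ (φ ⟨x, hx⟩).2 (by rw [hφ]; exact hQx)
  have h0 : φ ⟨x, hx⟩ = 0 := Subtype.ext this
  simpa using congrArg Subtype.val ((map_eq_zero_iff φ φ.injective).1 h0)

omit [Fintype F] in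
lemma Flex.scale {J : Finset (Fin t)} {x x' : ι → F} (hf : Flex h J x) (hQ : Q x' = Q x) {β : F}
    (hc : ∀ l ∈ J, cp l x' = β • cp l x) : Flex h J x' :=
  fun y hy hyx γ hcomp => hf y hy (hyx.trans hQ) (γ * β) fun l hl => by
    rw [hcomp l hl, hc l hl, smul_smul]

omit [Fintype F] in
/-- Two free non-zero components, unless there are just two components. -/
lemma two_or_pair {J : Finset (Fin t)} (hJ : J.card ≤ 1) {x : ι → F} (hx : Cls Q M D x)
    (hnb : ∀ i, x ∉ D i) :
    Two Q M D (Q x) ∨ ∃ i l, i ≠ l ∧ i ∉ J ∧ l ∉ J ∧ cp i x ≠ 0 ∧ cp l x ≠ 0 := by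
  classical
  have hsum := Decomp.sum_comp h.dec.decomp.decomp x
  by_cases hp : ∃ i l, i ≠ l ∧ i ∉ J ∧ l ∉ J ∧ cp i x ≠ 0 ∧ cp l x ≠ 0
  · exact Or.inr hp
  left
  push Not at hp
  set S := Finset.univ.filter fun l => cp l x ≠ 0 with hS
  have hSsum : x = ∑ l ∈ S, cp l x := by
    conv_lhs => rw [← hsum]
    exact (Finset.sum_filter_ne_zero _).symm
  have h1 : (S \ J).card ≤ 1 := Finset.card_le_one.2 fun a ha b hb => by
    simp only [hS, Finset.mem_sdiff, Finset.mem_filter, Finset.mem_univ, true_and] at ha hb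
    by_contra hab
    exact hb.1 (hp a b hab ha.2 hb.2 ha.1)
  have h2 : 2 ≤ S.card := by
    by_contra! hlt
    obtain ⟨a, ha⟩ : ∃ a, S ⊆ {a} := by
      rcases S.eq_empty_or_nonempty with h0 | ⟨a, ha⟩
      · refine absurd ?_ hx.1
        rw [hSsum, h0, Finset.sum_empty, QuadraticMap.map_zero]
      · exact ⟨a, fun b hb => Finset.mem_singleton.2
          (Finset.card_le_one.1 (show S.card ≤ 1 by omega) b hb a ha)⟩
    refine hnb a ?_
    rw [hSsum]
    exact Submodule.sum_mem _ fun l hl => by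
      rw [Finset.mem_singleton.1 (ha hl)]; exact Decomp.comp_mem _ a x
  have h3 : S.card ≤ 2 := by
    have := Finset.card_le_card (show S ⊆ (S \ J) ∪ J from fun a ha => by
      by_cases hJa : a ∈ J
      · exact Finset.mem_union_right _ hJa
      · exact Finset.mem_union_left _ (Finset.mem_sdiff.2 ⟨ha, hJa⟩))
    have := Finset.card_union_le (S \ J) J
    omega
  obtain ⟨a, b, hab, hSab⟩ := Finset.card_eq_two.1 (show S.card = 2 by omega)
  have hna : cp a x ≠ 0 := (Finset.mem_filter.1 (hSab ▸ Finset.mem_insert_self a {b} : a ∈ S)).2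
  have hnb' : cp b x ≠ 0 := (Finset.mem_filter.1 (hSab ▸ by simp : b ∈ S)).2
  rw [hSab, Finset.sum_pair hab] at hSsum
  refine ⟨a, b, hab, _, Decomp.comp_mem _ a x, _, Decomp.comp_mem _ b x, hna, hnb', ?_,
    by rwa [← hSsum]⟩
  conv_rhs => rw [hSsum]
  rw [QuadraticMap.map_add (⇑Q),
    orth_apply_blocks h.dec hab (Decomp.comp_mem _ a x) (Decomp.comp_mem _ b x), add_zero]

/-- Two components replaced. -/
lemma two_of_turn {J : Finset (Fin t)} {x : ι → F} (hf : Flex h J x) (hx : Cls Q M D x)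
    {i l : Fin t} (hil : i ≠ l) (hi : i ∉ J) (hl : l ∉ J) (hi0 : cp i x ≠ 0) (hl0 : cp l x ≠ 0)
    {p q : ι → F} (hp : p ∈ D i) (hq : q ∈ D l) (hp0 : p ≠ 0) (hq0 : q ≠ 0)
    (hQp : Q p = Q (cp i x)) (hQq : Q q = Q (cp l x)) (hpi : p ≠ cp i x) (hql : q ≠ cp l x)
    (hsum : Q (p - cp i x) + Q (q - cp l x) = Q x) : Two Q M D (Q x) := by
  have h1 := Flex.turn h hf hx rfl (β := 1) (fun m _ => (one_smul F _).symm) hi (plane_member h i)
    le_rfl (Decomp.comp_mem _ i x) hi0 hp hp0 hQp
  set y := x - cp i x + p with hy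
  have hcy : ∀ m, cp m y = if m = i then p else cp m x := fun m => by
    rw [hy, map_add, map_sub, Decomp.comp_of_mem _ (Decomp.comp_mem _ i x),
      Decomp.comp_of_mem _ hp]
    split_ifs with e
    · subst e; abel
    · abel
  have hyv : Q y = Q x := by
    rw [value_split h i y, hcy, if_pos rfl, hy, add_sub_cancel_right, hQp, ← value_split h i x]
  have hly : cp l y = cp l x := by rw [hcy, if_neg (Ne.symm hil)]
  have h2 := Flex.turn h hf h1 hyv (β := 1) (fun m hm => by
      rw [one_smul, hcy, if_neg (fun e : m = i => hi (by rwa [← e]))]) hl (plane_member h l)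
    le_rfl (Decomp.comp_mem _ l y) (by rwa [hly]) hq hq0 (by rw [hly, hQq])
  rw [hly] at h2
  refine two_of_sum h hx h2 ?_ hil hp hq rfl hpi hql hsum
  rw [value_split h l (y - cp l x + q)]
  rw [show cp l (y - cp l x + q) = q by
    rw [map_add, map_sub, hly, Decomp.comp_of_mem _ (Decomp.comp_mem _ l x), if_pos rfl,
      Decomp.comp_of_mem _ hq, if_pos rfl, sub_self, zero_add], add_sub_cancel_right, hQq, ← hly,
    ← value_split h l y, hyv]

/-- The values of differences on the circle through `u`. -/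
noncomputable def diffs (Q : QuadraticForm F (ι → F)) (P : Submodule F (ι → F)) (u : ι → F) :
    Finset F :=
  letI := Classical.decEq F
  ((pairs Q P u (Q u)).erase (2 * Q u)).image fun b => 2 * Q u - b

omit h in
lemma mem_diffs {P : Submodule F (ι → F)} {u : ι → F} {δ : F} (hd : δ ∈ diffs Q P u) :
    δ ≠ 0 ∧ ∃ p ∈ P, Q p = Q u ∧ p ≠ u ∧ Q (p - u) = δ := by
  classical
  simp only [diffs, Finset.mem_image, Finset.mem_erase] at hd
  obtain ⟨b, ⟨hb2, hb⟩, rfl⟩ := hd
  obtain ⟨p, hp, hQp, rfl⟩ := mem_pairs.1 hb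
  refine ⟨sub_ne_zero.2 (Ne.symm hb2), p, hp, hQp, fun e => hb2 ?_, ?_⟩
  · rw [e, polar_self_mul]
  · rw [CfsgLib.ClassicalForms.map_sub_eq, hQp, polar_comm Q p u]; ring

omit h in
lemma card_diffs {P : Submodule F (ι → F)} {u : ι → F} :
    (pairs Q P u (Q u)).card ≤ (diffs Q P u).card + 1 := by
  classical
  unfold diffs
  rw [Finset.card_image_of_injective _ fun a b hab => by simpa using hab]
  exact Nat.le_add_of_sub_le (Finset.pred_card_le_card_erase)

omit h in
lemma mem_diffs_of {P : Submodule F (ι → F)} {u p : ι → F} (hp : p ∈ P) (hQp : Q p = Q u)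
    (hd : Q (p - u) ≠ 0) : Q (p - u) ∈ diffs Q P u := by
  classical
  simp only [diffs, Finset.mem_image, Finset.mem_erase]
  refine ⟨polar Q u p, ⟨fun e => hd ?_, mem_pairs.2 ⟨p, hp, hQp, rfl⟩⟩, ?_⟩ <;>
    rw [CfsgLib.ClassicalForms.map_sub_eq, hQp, polar_comm Q p u]
  · rw [e]; ring
  · ring

/-- Two free components with complementary differences. -/
lemma two_of_diffs {J : Finset (Fin t)} {x : ι → F} (hf : Flex h J x) (hx : Cls Q M D x)
    {i l : Fin t} (hil : i ≠ l) (hi : i ∉ J) (hl : l ∉ J) (hi0 : cp i x ≠ 0) (hl0 : cp l x ≠ 0)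
    (hQi : Q (cp i x) ≠ 0) (hQl : Q (cp l x) ≠ 0)
    (hd : ∃ δ ∈ diffs Q (D i) (cp i x), Q x - δ ∈ diffs Q (D l) (cp l x)) :
    Two Q M D (Q x) := by
  obtain ⟨δ, hδ, hδ'⟩ := hd
  obtain ⟨-, p, hp, hQp, hpi, hpd⟩ := mem_diffs hδ
  obtain ⟨-, q, hq, hQq, hql, hqd⟩ := mem_diffs hδ'
  refine two_of_turn h hf hx hil hi hl hi0 hl0 hp hq (fun e => hQi ?_) (fun e => hQl ?_) hQp hQq
    hpi hql (by rw [hpd, hqd]; ring)
  · rw [← hQp, e, QuadraticMap.map_zero]
  · rw [← hQq, e, QuadraticMap.map_zero]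

omit h in
lemma exists_common {A B : Finset F} {c : F} (h : Fintype.card F < A.card + B.card) :
    ∃ δ ∈ A, c - δ ∈ B := by
  classical
  obtain ⟨x, hx, hx'⟩ := exists_mem_of_sum_gt (A := A) (B := B.image (c - ·)) (by
    rwa [Finset.card_image_of_injective _ sub_right_injective])
  obtain ⟨b, hb, rfl⟩ := Finset.mem_image.1 hx'
  exact ⟨c - b, hx, by rwa [sub_sub_cancel]⟩

/-- Moving the component in `i` by the closure. -/
lemma moved {J : Finset (Fin t)} {x : ι → F} (hf : Flex h J x) (hx : Cls Q M D x) {i l : Fin t}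
    (hil : i ≠ l) (hi : i ∉ J) (hi0 : cp i x ≠ 0) (hν : Q (x - cp i x) ≠ 0)
    (hq : (2 : F) ≠ 0 → ¬ Aniso Q (D i) → 7 ≤ Fintype.card F) {p : ι → F} (hp : p ∈ D i)
    (hp0 : p ≠ 0) {β : F} (hval : Q p + β * β * Q (x - cp i x) = Q x) :
    ∃ x', Cls Q M D x' ∧ Q x' = Q x ∧ Flex h J x' ∧ cp i x' = p ∧
      cp l x' = β • cp l x := by
  have hb := Flex.base h hf hx hi (plane_member h i) le_rfl (Decomp.comp_mem _ i x) hi0 hν
  have hcl := hb.all h hq hp hp0 hval
  have hc : ∀ m, m ≠ i → cp m (p + β • (x - cp i x)) = β • cp m x := fun m hm => by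
    rw [map_add, map_smul, map_sub, Decomp.comp_of_mem _ hp, if_neg hm,
      Decomp.comp_of_mem _ (Decomp.comp_mem _ i x), if_neg hm, zero_add, sub_zero]
  refine ⟨_, hcl, by rw [hb.value' hp, hval], hf.scale h (by rw [hb.value' hp, hval]) (β := β)
    fun m hm => hc m fun e => hi (e ▸ hm), ?_, hc l (Ne.symm hil)⟩
  rw [map_add, map_smul, map_sub, Decomp.comp_of_mem _ hp, if_pos rfl,
    Decomp.comp_of_mem _ (Decomp.comp_mem _ i x), if_pos rfl, sub_self, smul_zero, add_zero]

/-- One step when the rest of `x` is singular. -/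
lemma shifted {J : Finset (Fin t)} {x : ι → F} (hf : Flex h J x) (hx : Cls Q M D x) {i l : Fin t}
    (hil : i ≠ l) (hi : i ∉ J) (hi0 : cp i x ≠ 0) (hν : Q (x - cp i x) = 0) {b : F}
    (hb : b ∈ pairs Q (D i) (cp i x) (Q (cp i x))) :
    ∃ x', Cls Q M D x' ∧ Q x' = Q x ∧ Flex h J x' ∧
      cp l x' = (1 - b / Q x) • cp l x ∧ Q (cp i x') = Q x := by
  obtain ⟨p, hp, hQp, hpb⟩ := mem_pairs.1 hb
  have hQi : Q (cp i x) = Q x := by rw [value_split h i x, hν, add_zero]
  have hp0 : p ≠ 0 := fun e => hx.1 (by rw [← hQi, ← hQp, e, QuadraticMap.map_zero])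
  have h1 := Flex.turn h hf hx rfl (β := 1) (fun m _ => (one_smul F _).symm) hi (plane_member h i)
    le_rfl (Decomp.comp_mem _ i x) hi0 hp hp0 hQp
  set y := x - cp i x + p with hy
  have hperp := polar_sub_comp h (i := i) (x := x) hp
  have hyv : Q y = Q x := by
    rw [hy, QuadraticMap.map_add (⇑Q), hν, hQp, hQi, polar_comm, hperp]; ring
  have hB : polar Q y x = b := by
    rw [hy, polar_add_left, polar_comm Q p x]
    have e1 : polar Q (x - cp i x) x = 0 := by
      rw [show polar Q (x - cp i x) x =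
          polar Q (x - cp i x) (x - cp i x) + polar Q (x - cp i x) (cp i x) by
            rw [← polar_add_right, sub_add_cancel],
        polar_self_mul, hν, mul_zero, zero_add,
        polar_comm, polar_sub_comp h (Decomp.comp_mem _ i x)]
    rw [e1, zero_add, polar_comp h.dec x hp, hpb]
  have h2 := Cls.reflect h h1 hx (s := 1) (by rw [hyv, one_mul, one_mul])
  rw [ap_rf, hB] at h2
  set x' := y - ((Q x)⁻¹ * b) • x with hx'
  have hQ' : Q x' = Q x := by
    have := mem_isometryGroup_iff.mp (rf_mem_isom (Q := Q) x) y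
    rw [ap_rf, hB, hyv] at this
    exact this
  have hcy : ∀ m, m ≠ i → cp m y = cp m x := fun m hm => by
    rw [hy, map_add, map_sub, Decomp.comp_of_mem _ (Decomp.comp_mem _ i x), if_neg hm,
      Decomp.comp_of_mem _ hp, if_neg hm, sub_zero, add_zero]
  have hc : ∀ m, m ≠ i → cp m x' = (1 - b / Q x) • cp m x := fun m hm => by
    rw [hx', map_sub, map_smul, hcy m hm, sub_smul, one_smul, div_eq_inv_mul]
  refine ⟨x', h2, hQ', hf.scale h hQ' (β := 1 - b / Q x) fun m hm => hc m fun e => hi (e ▸ hm),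
    hc l (Ne.symm hil), ?_⟩
  have hrest : x' - cp i x' = (1 - b / Q x) • (x - cp i x) :=
    Decomp.ext_comp h.dec.decomp.decomp fun m => by
      rw [map_sub (cp m) x' (cp i x'), map_smul, map_sub (cp m) x (cp i x),
        Decomp.comp_of_mem _ (Decomp.comp_mem _ i x'),
        Decomp.comp_of_mem _ (Decomp.comp_mem _ i x)]
      split_ifs with e
      · subst e; simp
      · rw [sub_zero, sub_zero, hc m e]
  have := value_split h i x'
  rw [hQ', hrest, QuadraticMap.map_smul, hν, smul_zero, add_zero] at this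
  exact this.symm

omit h in
/-- A solution with both coordinates non-zero. -/
lemma exists_both {a b : F} (ha : a ≠ 0) (hb : b ≠ 0) (h2 : (2 : F) ≠ 0)
    (hq : 7 ≤ Fintype.card F) : ∃ s β : F, s ≠ 0 ∧ β ≠ 0 ∧ a * s * s + b * β * β = a := by
  classical
  set d := b / a with hd
  have hd0 : d ≠ 0 := div_ne_zero hb ha
  have hbad : ∀ e : F, (Finset.univ.filter fun m : F => d * m * m = e).card ≤ 2 := fun e => by
    rcases (Finset.univ.filter fun m : F => d * m * m = e).eq_empty_or_nonempty with h0 | ⟨m₀, hm₀⟩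
    · simp [h0]
    refine (Finset.card_le_card (t := {m₀, -m₀}) fun m hm => ?_).trans Finset.card_le_two
    simp at hm hm₀
    rw [Finset.mem_insert, Finset.mem_singleton]
    exact mul_self_eq_mul_self_iff.1
      (mul_left_cancel₀ hd0 (by linear_combination hm - hm₀))
  obtain ⟨m, -, hm⟩ := Finset.exists_mem_notMem_of_card_lt_card
    (s := (Finset.univ.filter fun m : F => d * m * m = 1) ∪
      (Finset.univ.filter fun m : F => d * m * m = -1) ∪ {0}) (t := Finset.univ) (by
      have := hbad 1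
      have := hbad (-1)
      have := Finset.card_union_le ((Finset.univ.filter fun m : F => d * m * m = 1) ∪
        (Finset.univ.filter fun m : F => d * m * m = -1)) {0}
      have := Finset.card_union_le (Finset.univ.filter fun m : F => d * m * m = 1)
        (Finset.univ.filter fun m : F => d * m * m = -1)
      rw [Finset.card_univ]
      simp only [Finset.card_singleton] at *
      omega)
  simp only [Finset.mem_union, Finset.mem_filter, Finset.mem_univ, true_and, Finset.mem_singleton,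
    not_or] at hm
  obtain ⟨⟨hm1, hm2⟩, hm0⟩ := hm
  have hden : 1 + d * m * m ≠ 0 := fun e => hm2 (by linear_combination e)
  refine ⟨(1 - d * m * m) / (1 + d * m * m), 2 * m / (1 + d * m * m),
    div_ne_zero (fun e => hm1 (by linear_combination -e)) hden,
    div_ne_zero (mul_ne_zero h2 hm0) hden, ?_⟩
  rw [show b = d * a by rw [hd, div_mul_cancel₀ _ ha]]
  have e : ((1 - d * m * m) * (1 - d * m * m) + d * ((2 * m) * (2 * m))) /
      ((1 + d * m * m) * (1 + d * m * m)) = 1 := by
    rw [div_eq_one_iff_eq (mul_ne_zero hden hden)]; ring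
  calc _ = a * (((1 - d * m * m) * (1 - d * m * m) + d * ((2 * m) * (2 * m))) /
      ((1 + d * m * m) * (1 + d * m * m))) := by
        simp only [div_eq_mul_inv, _root_.mul_inv_rev]; ring
    _ = a := by rw [e, mul_one]

/-- A component which is singular suffices. -/
lemma two_of_singular (hq : 3 ≤ Fintype.card F) {J : Finset (Fin t)} {x : ι → F}
    (hf : Flex h J x) (hx : Cls Q M D x) {i l : Fin t} (hil : i ≠ l) (hi : i ∉ J) (hl : l ∉ J)
    (hi0 : cp i x ≠ 0) (hl0 : cp l x ≠ 0) (hQi : Q (cp i x) = 0) : Two Q M D (Q x) := by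
  classical
  obtain ⟨q, hq', hq0, hQq, hql⟩ : ∃ q ∈ D l, q ≠ 0 ∧ Q q = Q (cp l x) ∧ q ≠ cp l x := by
    by_cases hQl : Q (cp l x) = 0
    · obtain ⟨s, -, hs⟩ := Finset.exists_mem_notMem_of_card_lt_card
        (s := ({0, 1} : Finset F)) (t := Finset.univ)
        (by rw [Finset.card_univ]; exact lt_of_le_of_lt Finset.card_le_two hq)
      simp at hs
      refine ⟨s • cp l x, (D l).smul_mem _ (Decomp.comp_mem _ l x), smul_ne_zero hs.1 hl0, by
        rw [QuadraticMap.map_smul, hQl, smul_zero], fun e => hs.2 ?_⟩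
      exact smul_left_injective F hl0 (e.trans (one_smul F _).symm)
    · have hc := ((plane_member h l).circle_card hQl).2.2
      obtain ⟨q, hq1, hq2⟩ := Finset.exists_mem_notMem_of_card_lt_card
        (s := ({cp l x} : Finset (ι → F))) (t := circle Q (D l) (Q (cp l x)))
        (by rw [Finset.card_singleton]; omega)
      obtain ⟨h1, h2'⟩ := mem_circle.1 hq1
      exact ⟨q, h1, fun e => hQl (by rw [← h2', e, QuadraticMap.map_zero]), h2', by simpa using hq2⟩
  obtain ⟨y, hy, huy, -⟩ := (plane_member h i).partner (Decomp.comp_mem _ i x) hi0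
  set f := y - Q y • cp i x with hfd
  have hQf : Q f = 0 := by
    rw [hfd, CfsgLib.ClassicalForms.map_sub_eq, QuadraticMap.map_smul, polar_smul_right, hQi,
      polar_comm Q y, huy, smul_eq_mul, smul_eq_mul]; ring
  have huf : polar Q (cp i x) f = 1 := by
    rw [hfd, polar_sub_right, polar_smul_right, polar_self_mul, hQi, huy, smul_eq_mul]; ring
  have hfD : f ∈ D i := (D i).sub_mem hy ((D i).smul_mem _ (Decomp.comp_mem _ i x))
  by_cases hδ : Q x - Q (q - cp l x) = 0
  · obtain ⟨s, -, hs⟩ := Finset.exists_mem_notMem_of_card_lt_card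
      (s := ({0, 1} : Finset F)) (t := Finset.univ)
      (by rw [Finset.card_univ]; exact lt_of_le_of_lt Finset.card_le_two hq)
    simp at hs
    refine two_of_turn h hf hx hil hi hl hi0 hl0 ((D i).smul_mem s (Decomp.comp_mem _ i x)) hq'
      (smul_ne_zero hs.1 hi0) hq0 (by rw [QuadraticMap.map_smul, hQi, smul_zero]) hQq
      (fun e => hs.2 (smul_left_injective F hi0 (e.trans (one_smul F _).symm))) hql ?_
    rw [show s • cp i x - cp i x = (s - 1) • cp i x by rw [sub_smul, one_smul],
      QuadraticMap.map_smul, hQi, smul_zero, zero_add]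
    linear_combination -hδ
  · set δ := Q x - Q (q - cp l x)
    have hpd : Q ((-δ) • f - cp i x) = δ := by
      rw [CfsgLib.ClassicalForms.map_sub_eq, QuadraticMap.map_smul, polar_smul_left, hQf, hQi,
        polar_comm Q f, huf, smul_eq_mul, smul_eq_mul]; ring
    have hf0 : f ≠ 0 := fun e => by rw [e] at huf; simp [polar] at huf
    refine two_of_turn h hf hx hil hi hl hi0 hl0 ((D i).smul_mem _ hfD) hq'
      (smul_ne_zero (neg_ne_zero.2 hδ) hf0) hq0
      (by rw [QuadraticMap.map_smul, hQf, hQi, smul_zero]) hQq (fun e => hδ ?_) hql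
      (by rw [hpd]; simp only [δ]; ring)
    rw [← hpd, e, sub_self, QuadraticMap.map_zero]

/-- Members with singular vectors. -/
theorem two_of_split (hq : 7 ≤ Fintype.card F) (hsplit : ∀ i, ¬ Aniso Q (D i))
    {J : Finset (Fin t)} (hJ : J.card ≤ 1) {x : ι → F} (hf : Flex h J x) (hx : Cls Q M D x)
    (hnb : ∀ i, x ∉ D i) : Two Q M D (Q x) := by
  classical
  rcases two_or_pair h hJ hx hnb with hT | ⟨i, l, hil, hi, hl, hi0, hl0⟩
  · exact hT
  -- once the rest is non-singular of a value in the class of the whole, it is done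
  have step : ∀ (x : ι → F), Cls Q M D x → Flex h J x → ∀ i l, i ≠ l → i ∉ J → l ∉ J →
      cp i x ≠ 0 → cp l x ≠ 0 → Q (x - cp i x) ≠ 0 → IsSquare (Q x / Q (x - cp i x)) →
      Two Q M D (Q x) := by
    intro x hx hf i l hil hi hl hi0 hl0 hν ⟨β, hβ⟩
    obtain ⟨e, he, hQe, he0⟩ : ∃ e ∈ D i, Q e = 0 ∧ e ≠ 0 := by
      have := hsplit i
      simp only [Aniso, not_forall] at this
      obtain ⟨e, a, b, c⟩ := this
      exact ⟨e, a, b, c⟩
    obtain ⟨x', hx', hQ', hf', hci, hcl⟩ := moved h hf hx hil hi hi0 hν (fun _ _ => hq) he he0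
      (β := β) (by rw [hQe, ← hβ, zero_add, div_mul_cancel₀ _ hν])
    have hβ0 : β ≠ 0 := fun e' => hx.1 (by
      rw [e', mul_zero] at hβ; exact (div_eq_zero_iff.1 hβ).resolve_right hν)
    rw [← hQ']
    exact two_of_singular h (by omega) hf' hx' hil hi hl (by rwa [hci]) (by
      rw [hcl]; exact smul_ne_zero hβ0 hl0) (by rw [hci, hQe])
  by_cases hQi : Q (cp i x) = 0
  · exact two_of_singular h (by omega) hf hx hil hi hl hi0 hl0 hQi
  by_cases hQl : Q (cp l x) = 0
  · exact two_of_singular h (by omega) hf hx (Ne.symm hil) hl hi hl0 hi0 hQl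
  -- a non-singular rest, changed to one in the class of the whole
  have step2 : ∀ (x : ι → F), Cls Q M D x → Flex h J x → ∀ i l, i ≠ l → i ∉ J → l ∉ J →
      cp i x ≠ 0 → cp l x ≠ 0 → Q (cp l x) ≠ 0 → Q (x - cp i x) ≠ 0 → Two Q M D (Q x) := by
    intro x hx hf i l hil hi hl hi0 hl0 hQl hν
    by_cases h2 : (2 : F) = 0
    · have : CharP F 2 := CharTwo.of_one_ne_zero_of_two_eq_zero one_ne_zero h2
      exact step x hx hf i l hil hi hl hi0 hl0 hν (isSquare_of_charTwo' _)
    obtain ⟨s, β, hs, hβ, hsβ⟩ := exists_both (a := Q x) hx.1 hQl h2 hq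
    obtain ⟨p, hp, hp0, hQp⟩ : ∃ p ∈ D i, p ≠ 0 ∧ Q p = Q x - β * β * Q (x - cp i x) := by
      by_cases hz : Q x - β * β * Q (x - cp i x) = 0
      · have := hsplit i
        simp only [Aniso, not_forall] at this
        obtain ⟨e, he, hQe, he0⟩ := this
        exact ⟨e, he, he0, by rw [hQe, hz]⟩
      · obtain ⟨p, hp, hQp⟩ := h.value i (Q x - β * β * Q (x - cp i x))
        exact ⟨p, hp, fun e => hz (by rw [← hQp, e, QuadraticMap.map_zero]), hQp⟩
    obtain ⟨x', hx', hQ', hf', hci, hcl⟩ := moved h hf hx hil hi hi0 hν (fun _ _ => hq) hp hp0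
      (β := β) (by rw [hQp]; ring)
    rw [← hQ']
    have hl' : cp l x' ≠ 0 := by rw [hcl]; exact smul_ne_zero hβ hl0
    have hν' : Q (x' - cp l x') = Q x * s * s := by
      have := value_split h l x'
      rw [hQ', hcl, QuadraticMap.map_smul, smul_eq_mul] at this
      rw [hcl]
      linear_combination -this - hsβ
    refine step x' hx' hf' l i (Ne.symm hil) hl hi hl' (by rwa [hci]) ?_ ?_
    · rw [hν']; exact mul_ne_zero (mul_ne_zero hx.1 hs) hs
    · exact ⟨s⁻¹, by rw [hν', hQ']; field_simp [hx.1]⟩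
  by_cases hν : Q (x - cp i x) = 0
  swap
  · exact step2 x hx hf i l hil hi hl hi0 hl0 hQl hν
  by_cases hνl : Q (x - cp l x) = 0
  swap
  · exact step2 x hx hf l i (Ne.symm hil) hl hi hl0 hi0 hQi hνl
  have hQiv : Q (cp i x) = Q x := by rw [value_split h i x, hν, add_zero]
  have hQlv : Q (cp l x) = Q x := by rw [value_split h l x, hνl, add_zero]
  obtain ⟨f, hf', hcard⟩ := (plane_member h i).two_mul_card_pairs (Decomp.comp_mem _ i x) hQi
    (Q (cp i x))
  have hC := ((plane_member h i).circle_card hQi).2.2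
  have hfu : cp i x ∈ f :=
    (hf' _).2 ⟨mem_circle.2 ⟨Decomp.comp_mem _ i x, rfl⟩, 1, (one_smul F _).symm⟩
  have := Finset.card_pos.2 ⟨_, hfu⟩
  obtain ⟨b, hb, hb'⟩ := Finset.exists_mem_notMem_of_card_lt_card
    (s := ({0, Q x, 2 * Q x} : Finset F)) (t := pairs Q (D i) (cp i x) (Q (cp i x))) (by
      have := Finset.card_le_three (a := (0 : F)) (b := Q x) (c := 2 * Q x)
      omega)
  simp only [Finset.mem_insert, Finset.mem_singleton, not_or] at hb'
  obtain ⟨x', hx', hQ', hf'', hcl, hci⟩ := shifted h hf hx hil hi hi0 hν hb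
  have h1 : 1 - b / Q x ≠ 0 := fun e => hb'.2.1 (by
    have := hx.1; field_simp at e; linear_combination -e)
  have hl' : cp l x' ≠ 0 := by rw [hcl]; exact smul_ne_zero h1 hl0
  have hi' : cp i x' ≠ 0 := fun e => hx.1 (by rw [← hci, e, QuadraticMap.map_zero])
  rw [← hQ']
  refine step2 x' hx' hf'' l i (Ne.symm hil) hl hi hl' hi' (by rw [hci]; exact hx.1) fun e => ?_
  have := value_split h l x'
  rw [e, add_zero, hcl, QuadraticMap.map_smul, hQlv, hQ', smul_eq_mul] at this
  have h0 : (b / Q x) * (b / Q x - 2) = 0 :=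
    mul_right_cancel₀ hx.1 (by rw [zero_mul]; linear_combination -this)
  rcases mul_eq_zero.1 h0 with h0 | h0
  · exact hb'.1 ((div_eq_zero_iff.1 h0).resolve_right hx.1)
  · exact hb'.2.2 (by
      have := hx.1
      field_simp at h0
      linear_combination h0)

omit h in
/-- In characteristic two the values with a difference equal to `c` are at most half the field. -/
lemma exists_outside {P : Submodule F (ι → F)} (hP : IsPlane Q P) (h2 : (2 : F) = 0) {c : F}
    (hc : c ≠ 0) (hq : 8 ≤ Fintype.card F) :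
    ∃ γ : F, γ ≠ 0 ∧ γ ≠ c ∧ ∀ u ∈ P, Q u = γ → c ∉ diffs Q P u := by
  classical
  obtain ⟨w₀, hw₀, hQw₀⟩ := exists_value' hP.nondeg hP.dim.ge c
  have hw00 : w₀ ≠ 0 := fun e => hc (by rw [← hQw₀, e, QuadraticMap.map_zero])
  obtain ⟨z, hz, hzw, hli⟩ := hP.partner hw₀ hw00
  set G := Finset.univ.image fun s : F => Q (c • z + s • w₀) with hG
  have hstep : ∀ s : F, Q (c • z + (s + 1) • w₀) = Q (c • z + s • w₀) := fun s => by
    rw [QuadraticMap.map_add (⇑Q), QuadraticMap.map_add (⇑Q), QuadraticMap.map_smul _ (s + 1),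
      QuadraticMap.map_smul _ s, polar_smul_right, polar_smul_right, polar_smul_left,
      polar_comm Q z w₀, hzw, hQw₀, smul_eq_mul, smul_eq_mul, smul_eq_mul, smul_eq_mul, smul_eq_mul]
    linear_combination (s * c + c) * h2
  have hGcard : 2 * G.card ≤ Fintype.card F := by
    have hfib := Finset.card_eq_sum_card_fiberwise (s := (Finset.univ : Finset F))
      (f := fun s : F => Q (c • z + s • w₀)) (t := G)
      fun s _ => Finset.mem_image_of_mem _ (Finset.mem_univ s)
    rw [Finset.card_univ] at hfib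
    rw [hfib, mul_comm]
    refine le_trans (by rw [smul_eq_mul]) (Finset.card_nsmul_le_sum G _ 2 fun g hg => ?_)
    obtain ⟨s, -, rfl⟩ := Finset.mem_image.1 hg
    rw [← Finset.card_pair (show s ≠ s + 1 by simp)]
    refine Finset.card_le_card fun a ha => ?_
    rcases Finset.mem_insert.1 ha with rfl | ha
    · simp
    · rw [Finset.mem_singleton.1 ha]; simp [hstep]
  obtain ⟨γ, -, hγ⟩ := Finset.exists_mem_notMem_of_card_lt_card
    (s := G ∪ {0, c}) (t := Finset.univ) (by
      have := Finset.card_union_le G {0, c}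
      have := Finset.card_le_two (a := (0 : F)) (b := c)
      rw [Finset.card_univ]; omega)
  simp only [Finset.mem_union, Finset.mem_insert, Finset.mem_singleton, not_or] at hγ
  refine ⟨γ, hγ.2.1, hγ.2.2, fun u hu hQu hcd => hγ.1 ?_⟩
  obtain ⟨-, p, hp, hQp, -, hd⟩ := mem_diffs hcd
  set w := p - u with hw
  have hB : polar Q u w = c := by
    have e := hQp
    rw [show p = u + w by rw [hw, add_sub_cancel], QuadraticMap.map_add (⇑Q)] at e
    linear_combination e - hd - c * h2
  obtain ⟨u', hu', hQu', hB'⟩ : ∃ u' ∈ P, Q u' = γ ∧ polar Q u' w₀ = c := by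
    by_cases hww : w = w₀
    · exact ⟨u, hu, hQu, hww ▸ hB⟩
    obtain ⟨hdd, hmv⟩ := hP.move (P.sub_mem hp hu) hw₀ (hd.trans hQw₀.symm) (by rw [hd]; exact hc)
      hww
    refine ⟨ap (rf Q (w - w₀)) u, ap_rf_mem (P.sub_mem (P.sub_mem hp hu) hw₀) hu,
      by rw [mem_isometryGroup_iff.mp (rf_mem_isom _), hQu], ?_⟩
    rw [show polar Q (ap (rf Q (w - w₀)) u) w₀ =
        polar Q (ap (rf Q (w - w₀)) u) (ap (rf Q (w - w₀)) w) by rw [hmv],
      polar_ap (rf_mem_isom _), hB]
  obtain ⟨a, b, rfl⟩ := hP.coords hw₀ hz hli hw00 hu'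
  rw [polar_add_left, polar_smul_left, polar_smul_left, polar_self_mul, polar_comm Q z w₀, hzw,
    h2] at hB'
  simp only [smul_eq_mul, zero_mul, mul_zero, zero_add, mul_one] at hB'
  exact Finset.mem_image.2 ⟨a, Finset.mem_univ _, by rw [← hQu', hB', add_comm]⟩

/-- A component missing the value as a difference suffices. -/
lemma two_of_missing (hani : ∀ i, Aniso Q (D i)) {J : Finset (Fin t)} {y : ι → F}
    (hfy : Flex h J y) (hy : Cls Q M D y) {i l : Fin t} (hil : i ≠ l) (hi : i ∉ J) (hl : l ∉ J)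
    (hi0 : cp i y ≠ 0) (hl0 : cp l y ≠ 0) (hc : Q y ∉ diffs Q (D i) (cp i y)) :
    Two Q M D (Q y) := by
  classical
  have hQi : Q (cp i y) ≠ 0 := fun e => hi0 (hani i _ (Decomp.comp_mem _ i y) e)
  have hQl : Q (cp l y) ≠ 0 := fun e => hl0 (hani l _ (Decomp.comp_mem _ l y) e)
  refine two_of_diffs h hfy hy hil hi hl hi0 hl0 hQi hQl ?_
  by_contra! hno
  have hsz : ∀ m, cp m y ≠ 0 → Fintype.card F ≤ 2 * (diffs Q (D m) (cp m y)).card := fun m hm => by
    have hQm : Q (cp m y) ≠ 0 := fun e => hm (hani m _ (Decomp.comp_mem _ m y) e)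
    obtain ⟨f, hf', hcard⟩ := (plane_member h m).two_mul_card_pairs (Decomp.comp_mem _ m y) hQm
      (Q (cp m y))
    have hC := ((plane_member h m).circle_card hQm).1 (hani m)
    have hfu : cp m y ∈ f :=
      (hf' _).2 ⟨mem_circle.2 ⟨Decomp.comp_mem _ m y, rfl⟩, 1, (one_smul F _).symm⟩
    have := Finset.card_pos.2 ⟨_, hfu⟩
    have := card_diffs (Q := Q) (P := D m) (u := cp m y)
    omega
  set A := diffs Q (D i) (cp i y)
  set B := (diffs Q (D l) (cp l y)).image (Q y - ·)
  have hdis : Disjoint A B := Finset.disjoint_left.2 fun a ha hb => by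
    obtain ⟨b, hb', rfl⟩ := Finset.mem_image.1 hb
    exact hno _ ha (by rwa [sub_sub_cancel])
  have hsub : A ∪ B ⊆ (Finset.univ : Finset F).erase (Q y) ∪ {Q y} := fun a _ => by
    by_cases ha : a = Q y <;> simp [ha]
  have hBy : Q y ∉ B := fun hb => by
    obtain ⟨b, hb', hbe⟩ := Finset.mem_image.1 hb
    exact (mem_diffs hb').1 (by simpa using hbe)
  have hle : A ∪ B ⊆ (Finset.univ : Finset F).erase (Q y) := fun a ha => by
    refine Finset.mem_erase.2 ⟨fun e => ?_, Finset.mem_univ a⟩
    subst e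
    rcases Finset.mem_union.1 ha with ha | ha
    · exact hc ha
    · exact hBy ha
  have hcl := Finset.card_le_card hle
  rw [Finset.card_union_of_disjoint hdis, Finset.card_erase_of_mem (Finset.mem_univ _),
    Finset.card_univ, Finset.card_image_of_injective _ sub_right_injective] at hcl
  have : Fintype.card F ≤ 2 * A.card := hsz i hi0
  have := hsz l hl0
  have := Fintype.card_pos (α := F)
  omega

omit h in
/-- Over four elements the value and one further difference determine the value of the vector. -/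
lemma value_four {P : Submodule F (ι → F)} (hP : IsPlane Q P) (h2 : (2 : F) = 0)
    (hq : Fintype.card F = 4) {u : ι → F} {c δ : F} (hc : c ≠ 0) (hu : Q u ≠ c) (hQu : Q u ≠ 0)
    (hδc : δ ≠ c) (hcm : c ∈ diffs Q P u) (hδ : δ ∈ diffs Q P u) (humem : u ∈ P) :
    Q u = c + δ := by
  classical
  obtain ⟨hδ0, p', hp', hQp', -, hd'⟩ := mem_diffs hδ
  obtain ⟨-, p, hp, hQp, -, hd⟩ := mem_diffs hcm
  have hnd : δ ≠ c + δ := fun e => hc (by linear_combination -e)
  have hall : ∀ a : F, a = 0 ∨ a = c ∨ a = δ ∨ a = c + δ := by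
    have hcd : c + δ ≠ 0 := fun e => hδc (by linear_combination e - c * h2)
    have hcd' : c ≠ c + δ := fun e => hδ0 (by linear_combination -e)
    have hset : ({0, c, δ, c + δ} : Finset F) = Finset.univ := by
      refine Finset.eq_univ_of_card _ ?_
      simp [hq, hc.symm, hδ0.symm, hδc.symm, hcd.symm, hcd', hnd]
    intro a
    simpa [← hset] using Finset.mem_univ a
  rcases hall (Q u) with e | e | e | e
  · exact absurd e hQu
  · exact absurd e hu
  swap
  · exact e
  exfalso
  have hu0 : u ≠ 0 := fun h0 => hQu (by rw [h0, QuadraticMap.map_zero])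
  set w := p - u with hw
  set w' := p' - u with hw'
  have hwB : polar Q u w = c := by
    have h0 := hQp
    rw [show p = u + w by rw [hw, add_sub_cancel], QuadraticMap.map_add (⇑Q)] at h0
    linear_combination h0 - hd - c * h2
  have hw'B : polar Q u w' = δ := by
    have h0 := hQp'
    rw [show p' = u + w' by rw [hw', add_sub_cancel], QuadraticMap.map_add (⇑Q)] at h0
    linear_combination h0 - hd' - δ * h2
  have hli : ∀ s : F, w ≠ s • u := fun s hs => hc (by
    rw [← hwB, hs, polar_smul_right, polar_self_mul, h2]; simp)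
  obtain ⟨a, b, hab⟩ := hP.coords humem (P.sub_mem hp humem) hli hu0 (P.sub_mem hp' humem)
  have hb : b * c = δ := by
    rw [← hw'B, show w' = a • u + b • w from hab, polar_add_right, polar_smul_right, polar_smul_right, polar_self_mul,
      hwB, h2, zero_mul, smul_zero, zero_add, smul_eq_mul]
  have hval : a * a * δ + a * δ + b * b * c = δ := by
    have h0 := hd'
    rw [show w' = a • u + b • w from hab, QuadraticMap.map_add (⇑Q), QuadraticMap.map_smul, QuadraticMap.map_smul,
      polar_smul_left, polar_smul_right, e, hd, hwB, smul_eq_mul, smul_eq_mul, smul_eq_mul,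
      smul_eq_mul] at h0
    linear_combination h0 - a * hb
  have hr : a * a + a + b = 1 := mul_left_cancel₀ hδ0 (by linear_combination hval - b * hb)
  have hb1 : b ≠ 1 := fun h1 => hδc (by rw [← hb, h1, one_mul])
  have hb0 : b ≠ 0 := fun h0 => hδ0 (by rw [← hb, h0, zero_mul])
  have hp3 : ∀ x : F, x = 0 ∨ x = 1 ∨ x * x + x + 1 = 0 := fun x => by
    by_cases hx0 : x = 0
    · exact Or.inl hx0
    have h3 := FiniteField.pow_card_sub_one_eq_one x hx0
    rw [hq] at h3
    rcases mul_eq_zero.1 (show (x - 1) * (x * x + x + 1) = 0 by linear_combination h3) with h | h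
    · exact Or.inr (Or.inl (sub_eq_zero.1 h))
    · exact Or.inr (Or.inr h)
  rcases hp3 a with ha | ha | ha
  · exact hb1 (by rw [ha] at hr; linear_combination hr)
  · exact hb1 (by rw [ha] at hr; linear_combination hr - h2)
  · exact hb0 (by linear_combination hr - ha + h2)

omit [Fintype F] in
/-- The value is the sum of the values of the components. -/
lemma value_sum (x : ι → F) : Q x = ∑ l, Q (cp l x) := by
  classical
  conv_lhs => rw [← Decomp.sum_comp h.dec.decomp.decomp x]
  induction (Finset.univ : Finset (Fin t)) using Finset.induction_on with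
  | empty => simp
  | insert a s ha ih =>
    rw [Finset.sum_insert ha, Finset.sum_insert ha, QuadraticMap.map_add (⇑Q), ih,
      polar_comm, polar_eq_zero_of_comp h (Decomp.comp_mem _ a x), add_zero]
    rw [map_sum]
    exact Finset.sum_eq_zero fun l hl => by
      rw [Decomp.comp_of_mem _ (Decomp.comp_mem _ l x), if_neg fun e : a = l => ha (by rwa [e])]

/-- Four elements. -/
lemma two_of_four (h2 : (2 : F) = 0) (hq : Fintype.card F = 4) (hani : ∀ i, Aniso Q (D i))
    {x : ι → F} (hx : Cls Q M D x) {i l : Fin t} (hil : i ≠ l) (hi0 : cp i x ≠ 0)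
    (hl0 : cp l x ≠ 0) : Two Q M D (Q x) := by
  classical
  by_contra hT
  have hne : ∀ m, cp m x ≠ 0 → Q (cp m x) ≠ 0 := fun m hm e =>
    hm (hani m _ (Decomp.comp_mem _ m x) e)
  have hother : ∀ m, ∃ n, n ≠ m ∧ cp n x ≠ 0 := fun m => by
    by_cases e : m = i
    · exact ⟨l, e ▸ Ne.symm hil, hl0⟩
    · exact ⟨i, Ne.symm e, hi0⟩
  have hf := flex_of_two h h2 x
  have hmem : ∀ m, cp m x ≠ 0 → Q x ∈ diffs Q (D m) (cp m x) := fun m hm => by
    by_contra hc
    obtain ⟨n, hnm, hn⟩ := hother m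
    exact hT (two_of_missing h hani hf hx (Ne.symm hnm) (Finset.notMem_empty m)
      (Finset.notMem_empty n) hm hn hc)
  have hnoc : ∀ m n, m ≠ n → cp m x ≠ 0 → cp n x ≠ 0 →
      ∀ δ ∈ diffs Q (D m) (cp m x), Q x - δ ∉ diffs Q (D n) (cp n x) := fun m n hmn hm hn δ hδ hδ' =>
    hT (two_of_diffs h hf hx hmn (Finset.notMem_empty m) (Finset.notMem_empty n) hm hn (hne m hm)
      (hne n hn) ⟨δ, hδ, hδ'⟩)
  have hnot : ∀ m, cp m x ≠ 0 → Q (cp m x) ≠ Q x := fun m hm e => by
    obtain ⟨-, p, hp, hQp, -, hd⟩ := mem_diffs (hmem m hm)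
    obtain ⟨ω, -, hω⟩ := Finset.exists_mem_notMem_of_card_lt_card
      (s := ({0, 1} : Finset F)) (t := Finset.univ)
      (by rw [Finset.card_univ]; exact lt_of_le_of_lt Finset.card_le_two (by omega))
    simp at hω
    have h3 := FiniteField.pow_card_sub_one_eq_one ω hω.1
    rw [hq] at h3
    have hω2 : ω * ω + ω + 1 = 0 :=
      (mul_eq_zero.1 (show (ω - 1) * (ω * ω + ω + 1) = 0 by linear_combination h3)).resolve_left
        (sub_ne_zero.2 hω.2)
    set w := p - cp m x with hw
    have hB : polar Q (cp m x) w = Q x := by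
      have h0 := hQp
      rw [show p = cp m x + w by rw [hw, add_sub_cancel], QuadraticMap.map_add (⇑Q)] at h0
      linear_combination h0 - hd - Q x * h2
    have hz : Q (cp m x + ω • w) = 0 := by
      rw [QuadraticMap.map_add (⇑Q), QuadraticMap.map_smul, polar_smul_right, hd, hB, e,
        smul_eq_mul, smul_eq_mul]
      linear_combination Q x * hω2
    have h0 := hani m _ ((D m).add_mem (Decomp.comp_mem _ m x) ((D m).smul_mem ω
      ((D m).sub_mem hp (Decomp.comp_mem _ m x)))) hz
    have h1 := congrArg (polar Q (cp m x)) h0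
    rw [polar_add_right, polar_smul_right, hB, polar_self_mul, h2, smul_eq_mul] at h1
    simp [polar, hω.1, hx.1] at h1
  have heq : ∀ m n, m ≠ n → cp m x ≠ 0 → cp n x ≠ 0 → Q (cp m x) = Q (cp n x) := by
    intro m n hmn hm hn
    have hsz : ∀ m, cp m x ≠ 0 → 2 ≤ (diffs Q (D m) (cp m x)).card := fun m hm => by
      obtain ⟨f, hf', hcard⟩ := (plane_member h m).two_mul_card_pairs (Decomp.comp_mem _ m x)
        (hne m hm) (Q (cp m x))
      have hC := ((plane_member h m).circle_card (hne m hm)).1 (hani m)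
      have hfu : cp m x ∈ f :=
        (hf' _).2 ⟨mem_circle.2 ⟨Decomp.comp_mem _ m x, rfl⟩, 1, (one_smul F _).symm⟩
      have := Finset.card_pos.2 ⟨_, hfu⟩
      have := card_diffs (Q := Q) (P := D m) (u := cp m x)
      omega
    obtain ⟨δ, hδ, hδc⟩ := Finset.exists_mem_ne (hsz m hm) (Q x)
    obtain ⟨δ', hδ', hδ'c⟩ := Finset.exists_mem_ne (hsz n hn) (Q x)
    have hδ0 := (mem_diffs hδ).1
    have hδ'0 := (mem_diffs hδ').1
    have key : δ' = δ := by
      by_contra hne'
      have h3 : δ' = Q x - δ := by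
        by_contra h4
        have hc4 : ({0, Q x, δ, δ', Q x - δ} : Finset F).card ≤ 4 :=
          hq ▸ Finset.card_le_univ _
        have hxd : Q x - δ ≠ 0 := sub_ne_zero.2 (Ne.symm hδc)
        have hxd' : Q x ≠ Q x - δ := fun e => hδ0 (by linear_combination e)
        have hdd : δ ≠ Q x - δ := fun e => hx.1 (by linear_combination -e + δ * h2)
        simp [Ne.symm hx.1, Ne.symm hδ0, Ne.symm hδ'0, Ne.symm hδc,
          Ne.symm hδ'c, Ne.symm hne', h4, hxd.symm, hxd', hdd] at hc4
      exact hnoc m n hmn hm hn δ hδ (h3 ▸ hδ')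
    rw [value_four (plane_member h m) h2 hq hx.1 (hnot m hm) (hne m hm) hδc (hmem m hm) hδ
        (Decomp.comp_mem _ m x),
      value_four (plane_member h n) h2 hq hx.1 (hnot n hn) (hne n hn) hδ'c (hmem n hn) hδ'
        (Decomp.comp_mem _ n x), key]
  have hsum := value_sum h x
  rw [← Finset.sum_filter_ne_zero] at hsum
  rw [Finset.sum_congr rfl (g := fun _ => Q (cp i x)) (fun m hm => by
    have hm0 : cp m x ≠ 0 := fun e => (Finset.mem_filter.1 hm).2 (by rw [e, QuadraticMap.map_zero])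
    by_cases hmi : m = i
    · rw [hmi]
    · exact heq m i hmi hm0 hi0), Finset.sum_const, nsmul_eq_mul] at hsum
  rcases Nat.even_or_odd (Finset.univ.filter fun m => Q (cp m x) ≠ 0).card with ⟨r, hr⟩ | ⟨r, hr⟩
  · exact hx.1 (by rw [hsum, hr]; push_cast; linear_combination (r * Q (cp i x)) * h2)
  · exact hnot i hi0 (by rw [hsum, hr]; push_cast; linear_combination -(r * Q (cp i x)) * h2)

/-- Members without singular vectors. -/
theorem two_of_anisotropic (hq : 4 ≤ Fintype.card F) (hani : ∀ i, Aniso Q (D i))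
    {J : Finset (Fin t)} (hJ : J.card ≤ 1) {x : ι → F} (hf : Flex h J x) (hx : Cls Q M D x)
    (hnb : ∀ i, x ∉ D i) : Two Q M D (Q x) := by
  classical
  rcases two_or_pair h hJ hx hnb with hT | ⟨i, l, hil, hi, hl, hi0, hl0⟩
  · exact hT
  have hne : ∀ m, cp m x ≠ 0 → Q (cp m x) ≠ 0 := fun m hm e =>
    hm (hani m _ (Decomp.comp_mem _ m x) e)
  have hS : ∀ m, cp m x ≠ 0 → Fintype.card F + 2 ≤
      2 * (pairs Q (D m) (cp m x) (Q (cp m x))).card ∧ ((2 : F) ≠ 0 → Fintype.card F + 3 ≤
      2 * (pairs Q (D m) (cp m x) (Q (cp m x))).card) := fun m hm => by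
    obtain ⟨f, hf', hcard⟩ := (plane_member h m).two_mul_card_pairs (Decomp.comp_mem _ m x)
      (hne m hm) (Q (cp m x))
    have hC := ((plane_member h m).circle_card (hne m hm)).1 (hani m)
    have hfu : cp m x ∈ f :=
      (hf' _).2 ⟨mem_circle.2 ⟨Decomp.comp_mem _ m x, rfl⟩, 1, (one_smul F _).symm⟩
    have := Finset.card_pos.2 ⟨_, hfu⟩
    refine ⟨by omega, fun h2 => ?_⟩
    have hfn : -cp m x ∈ f := (hf' _).2 ⟨mem_circle.2
      ⟨(D m).neg_mem (Decomp.comp_mem _ m x), QuadraticMap.map_neg _ _⟩, -1,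
      (neg_one_smul F _).symm⟩
    have hne' : -cp m x ≠ cp m x := fun e => hm (by
      have h0 : (2 : F) • cp m x = 0 := by
        rw [two_smul]; nth_rewrite 1 [← e]; exact neg_add_cancel _
      exact (smul_eq_zero.1 h0).resolve_left h2)
    have h2f : 2 ≤ f.card := by
      rw [← Finset.card_pair hne']
      exact Finset.card_le_card fun a ha => by
        rcases Finset.mem_insert.1 ha with rfl | ha
        · exact hfn
        · rw [Finset.mem_singleton.1 ha]; exact hfu
    omega
  have hA : ∀ m, (pairs Q (D m) (cp m x) (Q (cp m x))).card ≤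
      (diffs Q (D m) (cp m x)).card + 1 := fun m => card_diffs
  by_cases h2 : (2 : F) ≠ 0
  · refine two_of_diffs h hf hx hil hi hl hi0 hl0 (hne i hi0) (hne l hl0) (exists_common ?_)
    have := (hS i hi0).2 h2
    have := (hS l hl0).2 h2
    have := hA i
    have := hA l
    omega
  push Not at h2
  have : CharP F 2 := CharTwo.of_one_ne_zero_of_two_eq_zero one_ne_zero h2
  -- a component missing the value suffices
  have hgood : ∀ (y : ι → F), Cls Q M D y → Flex h J y → ∀ i l, i ≠ l → i ∉ J → l ∉ J →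
      cp i y ≠ 0 → cp l y ≠ 0 → Q y ∉ diffs Q (D i) (cp i y) → Two Q M D (Q y) :=
    fun y hy hfy i l hil hi hl hi0 hl0 hc =>
      two_of_missing h hani hfy hy hil hi hl hi0 hl0 hc
  by_cases hci : Q x ∉ diffs Q (D i) (cp i x)
  · exact hgood x hx hf i l hil hi hl hi0 hl0 hci
  push Not at hci
  by_cases hcl : Q x ∉ diffs Q (D l) (cp l x)
  · exact hgood x hx hf l i (Ne.symm hil) hl hi hl0 hi0 hcl
  push Not at hcl
  by_cases h8 : 8 ≤ Fintype.card F
  · -- change a component to a value missing it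
    have fix' : ∀ (y : ι → F), Cls Q M D y → Flex h J y → ∀ i l, i ≠ l → i ∉ J → l ∉ J →
        cp i y ≠ 0 → cp l y ≠ 0 → Q (y - cp i y) ≠ 0 → Two Q M D (Q y) := by
      intro y hy hfy i l hil hi hl hi0 hl0 hν
      obtain ⟨γ, hγ0, hγc, hγ⟩ := exists_outside (plane_member h i) h2 hy.1 h8
      obtain ⟨β, hβ⟩ := isSquare_of_charTwo' ((Q y - γ) / Q (y - cp i y))
      obtain ⟨p, hp, hQp⟩ := h.value i γ
      have hp0 : p ≠ 0 := fun e => hγ0 (by rw [← hQp, e, QuadraticMap.map_zero])
      obtain ⟨y', hy', hQ', hf', hci, hcl⟩ := moved h hfy hy hil hi hi0 hν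
        (fun h0 => absurd h2 h0) hp hp0 (β := β) (by
          rw [hQp, ← hβ, div_mul_cancel₀ _ hν]; ring)
      have hβ0 : β ≠ 0 := fun e => hγc (by
        rw [e, mul_zero] at hβ
        exact (sub_eq_zero.1 ((div_eq_zero_iff.1 hβ).resolve_right hν)).symm)
      rw [← hQ']
      refine hgood y' hy' hf' i l hil hi hl (by rwa [hci]) (by
        rw [hcl]; exact smul_ne_zero hβ0 hl0) ?_
      rw [hci, hQ']
      exact hγ p hp hQp
    by_cases hν : Q (x - cp i x) = 0
    swap
    · exact fix' x hx hf i l hil hi hl hi0 hl0 hν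
    by_cases hνl : Q (x - cp l x) = 0
    swap
    · exact fix' x hx hf l i (Ne.symm hil) hl hi hl0 hi0 hνl
    have hQlv : Q (cp l x) = Q x := by rw [value_split h l x, hνl, add_zero]
    have := (hS i hi0).1
    obtain ⟨b, hb, hb'⟩ := Finset.exists_mem_notMem_of_card_lt_card
      (s := ({0, Q x} : Finset F)) (t := pairs Q (D i) (cp i x) (Q (cp i x))) (by
        have := Finset.card_le_two (a := (0 : F)) (b := Q x)
        omega)
    simp only [Finset.mem_insert, Finset.mem_singleton, not_or] at hb'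
    obtain ⟨x', hx', hQ', hf'', hclx, hcix⟩ := shifted h hf hx hil hi hi0 hν hb
    have h1 : 1 - b / Q x ≠ 0 := fun e => hb'.2 (by
      have := hx.1; field_simp at e; linear_combination -e)
    rw [← hQ']
    refine fix' x' hx' hf'' l i (Ne.symm hil) hl hi (by rw [hclx]; exact smul_ne_zero h1 hl0)
      (fun e => hx.1 (by rw [← hcix, e, QuadraticMap.map_zero])) fun e => ?_
    have := value_split h l x'
    rw [e, add_zero, hclx, QuadraticMap.map_smul, hQlv, hQ', smul_eq_mul] at this
    have h0 : (b / Q x) * (b / Q x) = 0 := mul_right_cancel₀ hx.1 (by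
      rw [zero_mul]; linear_combination -this + (b / Q x * Q x) * h2)
    exact hb'.1 ((div_eq_zero_iff.1 (mul_self_eq_zero.1 h0)).resolve_right hx.1)
  -- four elements: all components have the same value
  have hq4 : Fintype.card F = 4 := by
    obtain ⟨n, hn⟩ := FiniteField.card F 2
    have h3 : (n : ℕ) < 3 := by
      by_contra! hge
      have := Nat.pow_le_pow_right (n := 2) (by norm_num) hge
      omega
    interval_cases hn' : (n : ℕ)
    · omega
    · omega
    · simpa using hn.2
  exact two_of_four h h2 hq4 hani hx hil hi0 hl0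

end CfsgLib.Geometric.Orth.Blocks
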