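import Cfsg.Agent.Lib.Geometric.Orth.Blocks.Pair

/-!
With at least three members the pairs of members whose vectors are linked are all pairs.
-/

namespace CfsgLib.Geometric.Orth.Blocks

open Matrix QuadraticMap CfsgLib.ClassicalForms

variable {ι : Type} [Fintype ι] [DecidableEq ι] {F : Type*} [Field F]
variable {Q : QuadraticForm F (ι → F)} {t k : ℕ} {D : Fin t → Submodule F (ι → F)}
variable {M : Subgroup (GL ι F)}

/-- An isometric exchange of two members fixing the others. -/
lemma exists_member_swap (hD : Cfsg.Geo.IsOrthogonalMDecomposition (⇑Q) k D) {i j : Fin t} (hij : i ≠ j) :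
    ∃ s ∈ Cfsg.isometryGroup F (⇑Q), s⁻¹ = s ∧
      ∀ l, ∀ x ∈ D l, ap s x ∈ D (Equiv.swap i j l) := by
  classical
  obtain ⟨φ, hφ⟩ := hD.isometric i j
  set d := hD.decomp.decomp with hd
  set ci : (ι → F) →ₗ[F] (ι → F) :=
    (D j).subtype ∘ₗ φ.toLinearMap ∘ₗ (Decomp.comp d i).codRestrict (D i) (Decomp.comp_mem d i)
    with hci
  set cj : (ι → F) →ₗ[F] (ι → F) :=
    (D i).subtype ∘ₗ φ.symm.toLinearMap ∘ₗ (Decomp.comp d j).codRestrict (D j) (Decomp.comp_mem d j)
    with hcj
  set L := LinearMap.id - Decomp.comp d i - Decomp.comp d j + ci + cj with hL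
  have hi : ∀ x (hx : x ∈ D i), L x = (φ ⟨x, hx⟩ : ι → F) := fun x hx => by
    have e1 : (Decomp.comp d i).codRestrict (D i) (Decomp.comp_mem d i) x = ⟨x, hx⟩ :=
      Subtype.ext (by simp [Decomp.comp_of_mem d hx])
    have e2 : (Decomp.comp d j).codRestrict (D j) (Decomp.comp_mem d j) x = 0 :=
      Subtype.ext (by simp [Decomp.comp_of_mem d hx, Ne.symm hij])
    simp [hL, hci, hcj, e1, e2, Decomp.comp_of_mem d hx, Ne.symm hij]
  have hj : ∀ x (hx : x ∈ D j), L x = (φ.symm ⟨x, hx⟩ : ι → F) := fun x hx => by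
    have e1 : (Decomp.comp d i).codRestrict (D i) (Decomp.comp_mem d i) x = 0 :=
      Subtype.ext (by simp [Decomp.comp_of_mem d hx, hij])
    have e2 : (Decomp.comp d j).codRestrict (D j) (Decomp.comp_mem d j) x = ⟨x, hx⟩ :=
      Subtype.ext (by simp [Decomp.comp_of_mem d hx])
    simp [hL, hci, hcj, e1, e2, Decomp.comp_of_mem d hx, hij]
  have ho : ∀ l, l ≠ i → l ≠ j → ∀ x ∈ D l, L x = x := fun l hli hlj x hx => by
    have e1 : (Decomp.comp d i).codRestrict (D i) (Decomp.comp_mem d i) x = 0 :=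
      Subtype.ext (by simp [Decomp.comp_of_mem d hx, Ne.symm hli])
    have e2 : (Decomp.comp d j).codRestrict (D j) (Decomp.comp_mem d j) x = 0 :=
      Subtype.ext (by simp [Decomp.comp_of_mem d hx, Ne.symm hlj])
    simp [hL, hci, hcj, e1, e2, Decomp.comp_of_mem d hx, Ne.symm hli, Ne.symm hlj]
  have hmap : ∀ l, ∀ x ∈ D l, L x ∈ D (Equiv.swap i j l) ∧ L (L x) = x ∧ Q (L x) = Q x := by
    intro l x hx
    by_cases hli : l = i
    · subst hli
      rw [Equiv.swap_apply_left, hi x hx]
      exact ⟨(φ _).2, by rw [hj _ (φ _).2]; simp, hφ _⟩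
    by_cases hlj : l = j
    · subst hlj
      rw [Equiv.swap_apply_right, hj x hx]
      exact ⟨(φ.symm _).2, by rw [hi _ (φ.symm _).2]; simp, by
        rw [← hφ (φ.symm _), LinearEquiv.apply_symm_apply]⟩
    rw [Equiv.swap_apply_of_ne_of_ne hli hlj, ho l hli hlj x hx]
    exact ⟨hx, ho l hli hlj x hx, rfl⟩
  have hinv : ∀ x, L (L x) = x := fun x => by
    conv_rhs => rw [← Decomp.sum_comp d x]
    conv_lhs => rw [← Decomp.sum_comp d x, map_sum, map_sum]
    exact Finset.sum_congr rfl fun l _ => (hmap l _ (Decomp.comp_mem d l x)).2.1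
  have hiso : ∀ x, Q (L x) = Q x := fun x => by
    have key : ∀ S : Finset (Fin t), Q (L (∑ l ∈ S, Decomp.comp d l x)) =
        Q (∑ l ∈ S, Decomp.comp d l x) := fun S => by
      induction S using Finset.induction_on with
      | empty => simp
      | insert a S ha ih =>
        rw [Finset.sum_insert ha, map_add, QuadraticMap.map_add (⇑Q),
          QuadraticMap.map_add (⇑Q) (Decomp.comp d a x), ih,
          (hmap a _ (Decomp.comp_mem d a x)).2.2]
        congr 1
        have hsum : ∀ (w : ι → F) (f : Fin t → ι → F) (T : Finset (Fin t)),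
            (∀ l ∈ T, polar Q w (f l) = 0) → polar Q w (∑ l ∈ T, f l) = 0 := fun w f T hT => by
          induction T using Finset.induction_on with
          | empty => simp [polar]
          | insert b T hb ihT =>
            rw [Finset.sum_insert hb, polar_add_right, hT b (Finset.mem_insert_self b T),
              ihT fun l hl => hT l (Finset.mem_insert_of_mem hl), add_zero]
        rw [map_sum, hsum _ _ _ fun l hl => ?_, hsum _ _ _ fun l hl => ?_]
        · exact orth_apply_blocks hD (fun e => ha (by rw [e]; exact hl)) (Decomp.comp_mem d a x)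
            (Decomp.comp_mem d l x)
        · exact orth_apply_blocks hD (fun e => ha (by rw [(Equiv.swap i j).injective e]; exact hl))
            (hmap a _ (Decomp.comp_mem d a x)).1 (hmap l _ (Decomp.comp_mem d l x)).1
    simpa [Decomp.sum_comp d x] using key Finset.univ
  let e : (ι → F) ≃ₗ[F] (ι → F) := { L with invFun := L, left_inv := hinv, right_inv := hinv }
  have he : ∀ x, ap (ofEquiv e) x = L x := fun x => ap_ofEquiv e x
  refine ⟨ofEquiv e, mem_isometryGroup_iff.2 fun x => by rw [he, hiso], ?_, fun l x hx => by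
    rw [he]; exact (hmap l x hx).1⟩
  exact inv_eq_of_mul_eq_one_left (gl_ext fun x => by rw [ap_mul, he, he, hinv, ap_one])

/-- An element of the stabiliser in `omegaGL` moving two members as a three-cycle does. -/
lemma exists_cycle (hD : Cfsg.Geo.IsOrthogonalMDecomposition (⇑Q) k D) {i j l : Fin t}
    (hij : i ≠ j) (hjl : j ≠ l) (hli : l ≠ i) :
    ∃ g ∈ Cfsg.Geo.decompositionStabilizer D ⊓ Cfsg.Geo.omegaGL (⇑Q),
      (∀ x ∈ D l, ap g⁻¹ x ∈ D i) ∧ ∀ x ∈ D i, ap g⁻¹ x ∈ D j := by
  obtain ⟨s₁, h1, i1, m1⟩ := exists_member_swap hD hij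
  obtain ⟨s₂, h2, i2, m2⟩ := exists_member_swap hD hjl
  set π := Equiv.swap i j * Equiv.swap j l * Equiv.swap i j * Equiv.swap j l with hπ
  refine ⟨s₁ * s₂ * s₁ * s₂, ⟨mem_decompStab hD.decomp.decomp (π := π) fun m x hx => ?_, ?_⟩,
    fun x hx => ?_, fun x hx => ?_⟩
  · simp only [ap_mul, hπ, Equiv.Perm.mul_apply]
    exact m1 _ _ (m2 _ _ (m1 _ _ (m2 _ _ hx)))
  · rw [omegaGL_eq]
    have := Subgroup.commutator_mem_commutator h1 h2
    rwa [commutatorElement_def, i1, i2] at this
  · simp only [_root_.mul_inv_rev, i1, i2, ap_mul]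
    have := m2 _ _ (m1 _ _ (m2 _ _ (m1 _ _ hx)))
    simp only [Equiv.swap_apply_of_ne_of_ne hli (Ne.symm hjl), Equiv.swap_apply_right,
      Equiv.swap_apply_of_ne_of_ne hij (Ne.symm hli)] at this
    exact this
  · simp only [_root_.mul_inv_rev, i1, i2, ap_mul]
    have := m2 _ _ (m1 _ _ (m2 _ _ (m1 _ _ hx)))
    simp only [Equiv.swap_apply_left, Equiv.swap_apply_of_ne_of_ne hli (Ne.symm hjl),
      Equiv.swap_apply_right] at this
    exact this

variable (h : Over Q k D M)
include h

lemma Pair.step [Finite F] {c : F} {i j l : Fin t} (hij : i ≠ j) (hjl : j ≠ l) (hli : l ≠ i)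
    (hp : Pair Q M D c i j) : Pair Q M D c l i := by
  intro a ha b hb hab
  obtain ⟨g, hg, hgl, hgi⟩ := exists_cycle h.dec hij hjl hli
  have hiso := mem_isometryGroup_iff.mp (h.isom (h.stab hg))
  have e : ∀ x, Q (ap g⁻¹ x) = Q x := fun x => by
    conv_rhs => rw [← ap_ap_inv g x]
    rw [hiso]
  have := Cls.stab h hg (hp _ (hgl a ha) _ (hgi b hb) (by rw [e, e]; exact hab))
  rwa [ap_add, ap_ap_inv, ap_ap_inv] at this

/-- All pairs of members. -/
theorem Pair.all [Finite F] {c : F} {i j : Fin t} (hij : i ≠ j) (hp : Pair Q M D c i j)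
    {i' j' : Fin t} (hij' : i' ≠ j') : Pair Q M D c i' j' := by
  have hrow : ∀ a b : Fin t, a ≠ b → Pair Q M D c a b → ∀ x, x ≠ a → Pair Q M D c a x := by
    intro a b hab hpab x hx
    by_cases hxb : x = b
    · rw [hxb]; exact hpab
    exact (Pair.step h hab (Ne.symm hxb) hx hpab).symm
  have h1 : ∀ x, x ≠ i → Pair Q M D c i x := hrow i j hij hp
  by_cases hi : i' = i
  · rw [hi] at hij' ⊢; exact h1 j' (Ne.symm hij')
  exact hrow i' i hi (h1 i' hi).symm j' (Ne.symm hij')

end CfsgLib.Geometric.Orth.Blocks
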